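/- Aschbacher's theorem for the orthogonal groups. -/
import Cfsg.Agent.H19.AschOAux

set_option autoImplicit false

namespace H19
open Cfsg Cfsg.Geo Matrix
open scoped MatrixGroups Kronecker commutatorElement

variable {ι : Type} [Fintype ι] [DecidableEq ι] {F : Type*} [Field F] [Fintype F]

theorem oClass_of_realisable {Q : (ι → F) → F} (hQ : IsNondegenerateQuadraticForm Q)
    (hn : 2 ≤ Fintype.card ι) {H N : Subgroup (GL ι F)} (hI : N ≤ isometryGroup F Q)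
    (hN : gspan N = ⊤) (h1 : Nrm H N) {F₀ : Subfield F} (h0 : F₀ ≠ ⊤)
    (hr : RealisableOver F₀ (matrixSet N)) : ∃ M, InOrthClass Q M ∧ H ≤ M := by
  obtain ⟨F₁, r, τ, P, ζ, a1, a2, a3, a4, a5, a6, a7⟩ := (oFrm hQ).exists_subfield_form hN h1
    ((oFrm hQ).adj_mem_of_le_Iso (hI.trans (isometryGroup_le_Iso hQ))) h0 hr
  exact ⟨_, .inr (.inr (.inr (.inr (.inr (.inr (.inr (.inr (.inr (.inl ⟨F₁, r, P, ζ, a1, a2, a5,
    quad_rational hQ hn hN hI a3 a4 a6, rfl⟩))))))))), a7⟩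

theorem oClass_of_comm {Q : (ι → F) → F} (hQ : IsNondegenerateQuadraticForm Q)
    (hn : 3 ≤ Fintype.card ι) {H : Subgroup (GL ι F)} (hH : H ≤ isometryGroup F Q) (hirr : Irr H)
    (hN : ¬ NoComm (oFrm hQ) H) : ∃ M, InOrthClass Q M ∧ H ≤ M := by
  let B := oFrm hQ
  have hσ : B.σ = RingEquiv.refl F := rfl
  have hI : H ≤ B.Iso := hH.trans (isometryGroup_le_Iso hQ)
  have hS := hI.trans B.Iso_le_sim
  have : Nonempty ι := Fintype.card_pos_iff.1 (by omega)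
  simp only [NoComm, not_forall] at hN
  obtain ⟨K, h1, h2, h3, h4⟩ := hN
  rcases comm_cases hirr h1 h3 h4 with ⟨e, he, h5, h6, h7⟩ | ⟨r, K', h5, h6, h7, h8⟩
  · rcases B.idem_cases hS hirr h1 h2 h3 he h5 h6 h7 with ⟨t, k, D, a1, a2, a3⟩ |
      ⟨k, D, a1, a2, a3, -⟩
    · by_cases hk : k = 1 → (Fintype.card F).Prime
      · refine ⟨_, .inr (.inr (.inr (.inl ⟨t, k, D, ⟨a1, fun i j => ?_⟩, hk, rfl⟩))), a2⟩
        obtain ⟨g, hg, hg'⟩ := a3 i j
        exact isometric_of_map (hH hg) hg'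
      · push Not at hk
        obtain ⟨rfl, hk⟩ := hk
        obtain ⟨F₁, r, -, -, b1, -, b2, -⟩ :=
          exists_maximal_subfield (mt prime_card_of_bot_eq_top hk)
        obtain ⟨P, ζ, b3, b4, b5⟩ := rational_of_frame hQ hH a1 a2 a3 F₁
        exact ⟨_, .inr (.inr (.inr (.inr (.inr (.inr (.inr (.inr (.inr (.inl
          ⟨F₁, r, P, ζ, b1, b2, b3, b4, rfl⟩))))))))), b5⟩
    · refine ⟨_, .inr (.inr (.inr (.inr (.inl ⟨k, D, a1, fun i w hw => ?_, rfl⟩)))), a3⟩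
      by_cases h2 : (2 : F) = 0
      · obtain ⟨Q', b1, b2, b3, b4⟩ := B.exists_quad_of_pair hσ h2 a1 a2 hI a3
        rw [← hirr.quad_eq (by omega) h2 b1 hQ b2 b3 hH]
        exact b4 i w hw
      · exact quad_eq_zero_of_polar hQ h2 (a2 i w hw w hw)
  · have hc := B.closed_of_mem_iff h2 h8
    by_cases hs : ∀ a ∈ K', B.adj a = a
    · refine ⟨_, .inr (.inr (.inr (.inr (.inr (.inl ⟨r, K', h5, ?_, h6,
        B.isSelfAdjointFor_iff.2 hs, rfl⟩))))), h7.le_subalgebraNormalizer⟩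
      rintro rfl
      exact B.not_irr_of_field_top hI h6 hs h7 (h5.odd_of_ne_two (by omega)) (by omega) hirr
    obtain ⟨rfl, a1⟩ := (B.selfAdj_or_two (fun _ => rfl) h5 h6 hc).resolve_left hs
    refine ⟨_, .inr (.inr (.inr (.inr (.inr (.inr (.inl ⟨K', h6, hc.isAdjointClosedFor,
      mt B.isSelfAdjointFor_iff.1 hs, fun k hk => ?_, rfl⟩)))))), h7.le_subalgebraNormalizer⟩
    obtain ⟨c, hc'⟩ := a1 (B.adj k * k) (mul_mem (hc k hk) hk) (by rw [B.adj_mul, B.adj_adj])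
    have a2 : ∀ u v, B.f (k *ᵥ u) (k *ᵥ v) = c * B.f u v := fun u v => by
      rw [B.adj_right, mulVec_mulVec, hc', smul_mulVec, one_mulVec, B.smul_left]
    refine ⟨c, fun v => ?_⟩
    by_cases h2 : (2 : F) = 0
    · obtain ⟨ω, hω, b1, b2, b3⟩ := B.exists_quad_of_field hσ h2
        (fun v => (polar_self_eq hQ v).trans (by rw [h2, zero_mul])) hc a1 hs hI h7
      rw [← hirr.quad_eq (by omega) h2 b1 hQ b2 b3 hH, ← hirr.quad_eq (by omega) h2 b1 hQ b2 b3 hH,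
        mulVec_mulVec, h6.comm ω hω k hk, ← mulVec_mulVec, a2]
    · refine mul_left_cancel₀ h2 ?_
      rw [← polar_self_eq hQ, mul_left_comm, ← polar_self_eq hQ]
      exact a2 v v

variable (ι F) in
/-- Aschbacher's theorem for the orthogonal groups. -/
theorem asch_orth : AschOrthStatement ι F := fun Q hQ hn H hH => by
  let B := oFrm hQ
  have hσ : B.σ = RingEquiv.refl F := rfl
  have hI : H ≤ B.Iso := hH.trans (isometryGroup_le_Iso hQ)
  have hS := hI.trans B.Iso_le_sim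
  have hn2 : 2 ≤ Fintype.card ι := by omega
  have : Nonempty ι := Fintype.card_pos_iff.1 (by omega)
  by_cases hirr : Irr H
  swap
  · left
    rcases B.reducible_cases hS hirr with ⟨W, h1, h2, h3⟩ | ⟨W, h1, h2, h3, h4, -⟩
    · by_cases hq : Odd (Fintype.card F)
      · exact ⟨_, .inl ⟨W, h1, fun w hw => quad_eq_zero_of_polar hQ (two_ne_zero_of_odd hq)
          (h2 w hw w hw), rfl⟩, h3.le⟩
      · rcases singular_or_point hQ (two_eq_zero_of_not_odd hq) hH h1 h2 h3 with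
          ⟨W, a1, a2, a3⟩ | ⟨v, a1, rfl⟩
        · exact ⟨_, .inl ⟨W, a1, a2, rfl⟩, a3.le⟩
        · exact ⟨_, .inr (.inr (.inl ⟨hq, v, a1, rfl⟩)), h3.le⟩
    · exact ⟨_, .inr (.inl ⟨W, h1, h2, h3, rfl⟩), h4.le⟩
  by_cases hN : NoComm B H
  swap
  · exact .inl (oClass_of_comm hQ hn hH hirr hN)
  rcases B.cases hS hn2 hirr hN with ⟨k, l, e, P, B₁, B₂, hkl, h⟩ |
    ⟨N, r, k, R, h1, h2, h3, h4, h5, h⟩ | ⟨P, hP⟩ | ⟨k, t, e, P, B₁, L, h, h1, h2, h3⟩
  · left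
    have key : (∀ v, B₁.f v v = 0) → (∀ v, B₂.f v v = 0) → (∀ (x₁ : Fin k → F) (x₂ : Fin l → F),
        Q (trV e P fun a => x₁ a.1 * x₂ a.2) = 0) → ∃ M, InOrthClass Q M ∧ H ≤ M :=
      fun a1 a2 a3 => ⟨_, .inr (.inr (.inr (.inr (.inr (.inr (.inr (.inr (.inl ⟨k, l, e, P, B₁.f,
        B₂.f, h.two_le₁, hkl, by rintro ⟨hF, rfl⟩; exact not_noComm_card_two hF B₁ _ (h.noComm hS hN),
        B₁.isSymplecticForm h.σ₁ a1, B₂.isSymplecticForm h.σ₂ a2, h.form, a3, rfl⟩)))))))), h.le⟩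
    by_cases hq : Odd (Fintype.card F)
    · have h2 := two_ne_zero_of_odd hq
      have h3 : (1 : F) = B₁.ε * B₂.ε := h.eps hσ
      rcases B₁.eps with h1 | h1
      · refine ⟨_, .inr (.inr (.inr (.inr (.inr (.inr (.inr (.inl ⟨k, l, e, P, B₁.f, B₂.f, hq,
          h.two_le₁.lt_of_ne ?_, hkl, ?_, B₁.isSymmetricForm h.σ₁ h1, B₂.isSymmetricForm h.σ₂
            (by rw [h1, one_mul] at h3; exact h3.symm), h.form, rfl⟩))))))), h.le⟩
        · rintro rfl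
          exact not_noComm_sym_two B₁ h.σ₁ h1 h2 (h.noComm hS hN)
        · rintro ⟨hF, rfl⟩
          exact not_noComm_three hF B₁ h.σ₁ h1 (h.noComm hS hN)
      · have a2 := B₂.alt_of_eps h.σ₂ (by rw [h1] at h3; linear_combination h3) h2
        exact key (B₁.alt_of_eps h.σ₁ h1 h2) a2 fun x₁ x₂ =>
          quad_eq_zero_of_polar hQ h2 (tensor_pure_eq_zero h.σ₂ a2 h.form x₁ x₂)
    · have h2 := two_eq_zero_of_not_odd hq
      obtain ⟨Q', b1, b2, b3, b4⟩ := B.exists_quad_tensor hσ h2 (Fin.pos_iff_nonempty.2 h.ne₁)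
        (Fin.pos_iff_nonempty.2 h.ne₂) B₁ B₂ h.σ₁ h.σ₂ (h.alt hσ h2 hS hirr)
        (h.swap.alt hσ h2 hS hirr) h.form hI h.inv₁
      exact key (h.alt hσ h2 hS hirr) (h.swap.alt hσ h2 hS hirr) fun x₁ x₂ =>
        (hirr.quad_eq hn2 h2 b1 hQ b2 b3 hH _).symm.trans (b4 x₁ x₂)
  · obtain ⟨R₀, a1, a2, a3, a4, a5, a6, a7, a8, a9⟩ := B.extra_iso hσ hI hN h1 h2 h3 h4 h5 h
    have a0 := a1.trans (Iso_le_isometryGroup hQ (two_ne_zero_of_odd a6))
    rcases realisable_or_minimal a4 a3 with ⟨F₀, b1, b2⟩ | ⟨p, e, b1⟩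
    · exact .inl (oClass_of_realisable hQ hn2 a0 a3 a2 b1 b2)
    · have b2 := prime_card_of_minimal_two a6 (a7 ▸ b1)
      exact .inl ⟨_, .inr (.inr (.inr (.inr (.inr (.inr (.inr (.inr (.inr (.inr (.inl ⟨R₀, k, a5,
        absIrr_of_gspan_eq_top a3, a0, b2 ▸ b1.1, a6, a8, a7, a9, rfl⟩)))))))))), a2.le_normalizer⟩
  · by_cases hs : ∀ F₀ : Subfield F, F₀ ≠ ⊤ → ¬ RealisableOver F₀ (matrixSet P)
    swap
    · push Not at hs
      obtain ⟨F₀, h0, hr⟩ := hs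
      exact .inl (oClass_of_realisable hQ hn2 (hP.le.trans hH) hP.span hP.nrm h0 hr)
    exact .inr ⟨P, hP.isResidualCore hs, fun ⟨σ, f, h1, h2⟩ => hs _ (fixField_ne_top h1.ne_refl)
      ((Frm.ofUnitary h1).realisable_of_two_forms B hσ hP.span (le_Iso_of_fixesForm _ h2)
        (hP.le.trans hI))⟩
  · left
    have key : (∀ v, B₁.f v v = 0) → (∀ x : Fin t → Fin k → F,
        Q (trV e P fun a => ∏ i, x i (a i)) = 0) → ∃ M, InOrthClass Q M ∧ H ≤ M :=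
      fun a1 a3 => ⟨_, .inr (.inr (.inr (.inr (.inr (.inr (.inr (.inr (.inr (.inr (.inr (.inr
        ⟨k, t, e, P, B₁.f, h.two_le_k, h.two_le_t, B₁.isSymplecticForm h.σ₁ a1, h.form, a3,
          rfl⟩))))))))))), h.tpow.le⟩
    by_cases hq : Odd (Fintype.card F)
    · have h4 := two_ne_zero_of_odd hq
      rcases B₁.eps with h5 | h5
      · refine ⟨_, .inr (.inr (.inr (.inr (.inr (.inr (.inr (.inr (.inr (.inr (.inr (.inl
          ⟨k, t, e, P, B₁.f, hq, h.two_le_k.lt_of_ne ?_, h.two_le_t, ?_,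
            B₁.isSymmetricForm h.σ₁ h5, h.form, rfl⟩))))))))))), h.tpow.le⟩
        · rintro rfl
          exact not_noComm_sym_two B₁ h.σ₁ h5 h4 (h.noComm hS hN)
        · rintro ⟨hF, rfl⟩
          exact not_noComm_three hF B₁ h.σ₁ h5 (h.noComm hS hN)
      · have a1 := B₁.alt_of_eps h.σ₁ h5 h4
        exact key a1 fun x => quad_eq_zero_of_polar hQ h4
          (power_pure_eq_zero (by have := h.two_le_t; omega) h.σ₁ a1 h.form x)
    · have h4 := two_eq_zero_of_not_odd hq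
      have a1 := B₁.alt_of_irr h.σ₁ h4 (irr_of_gspan_eq_top h2) (h3.trans B₁.Iso_le_sim)
        (by simpa using h.two_le_k)
      obtain ⟨Q', b1, b2, b3, b4⟩ := B.exists_quad_power hσ h4 h.two_le_t B₁ h.σ₁ a1 h.form hI h.tpow
      exact key a1 fun x => (hirr.quad_eq hn2 h4 b1 hQ b2 b3 hH _).symm.trans (b4 x)

end H19
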