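/- Aschbacher's theorem for the orthogonal groups in odd dimension. -/
import Cfsg.Agent.H19.AschO
import Cfsg.Agent.H58.QNormal

set_option autoImplicit false

namespace H19
open Cfsg Cfsg.Geo Matrix
open scoped MatrixGroups Kronecker commutatorElement

variable {ι : Type} [Fintype ι] [DecidableEq ι] {F : Type*} [Field F]
variable {κ : Type} [Fintype κ] [DecidableEq κ] {μ : Type} [Fintype μ] [DecidableEq μ]

theorem inv_tL_of_le {k l : ℕ} {H : Subgroup (GL ι F)} {e : ι ≃ Fin k × Fin l} {P : GL ι F}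
    (h : H ≤ tensorProductSubgroup k l e P) : Inv H (tL e P).range ∧ Inv H (tR e P).range := by
  constructor <;> rintro g hg _ ⟨x, rfl⟩ <;>
    obtain ⟨a, b, hab⟩ := (mem_map_map_iff e P _ g).1 (h hg) <;>
    obtain ⟨g, rfl⟩ := (trGL e P).surjective g <;> rw [MulEquiv.symm_apply_apply] at hab
  · refine ⟨cj a x, (congrArg (tr e P) ((cj_eq_iff g _ _).2 ?_).symm).trans (tr_cj e P g _)⟩
    rw [hab, AlgHom.coe_toRingHom, kl_apply, kl_apply, ← mul_kronecker_mul, ← mul_kronecker_mul, cj_mul_self, mul_one,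
      one_mul]
  · refine ⟨cj b x, (congrArg (tr e P) ((cj_eq_iff g _ _).2 ?_).symm).trans (tr_cj e P g _)⟩
    rw [hab, AlgHom.coe_toRingHom, kr_apply, kr_apply, ← mul_kronecker_mul, ← mul_kronecker_mul, cj_mul_self, mul_one,
      one_mul]

theorem TenForm.of_class {B : Frm ι F} {H : Subgroup (GL ι F)} {k l : ℕ} (hk : 2 ≤ k) (hl : 2 ≤ l)
    {e : ι ≃ Fin k × Fin l} {P : GL ι F} {B₁ : Frm (Fin k) F} {B₂ : Frm (Fin l) F}
    (h₁ : B₁.σ = B.σ) (h₂ : B₂.σ = B.σ) (h₃ : B.σ ≠ RingEquiv.refl F → B₁.ε = 1)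
    (h₄ : B.σ ≠ RingEquiv.refl F → B₂.ε = 1) (hT : IsTensorFormStructure B.σ B.f B₁.f B₂.f e P)
    (h : H ≤ tensorProductSubgroup k l e P) : TenForm B H e P B₁ B₂ := by
  obtain ⟨c, -, hc⟩ := hT
  have hG : gramMatrix (B.tr e P).f = c • (gramMatrix B₁.f ⊗ₖ gramMatrix B₂.f) := by
    rw [← gramMatrix_formOfGram B.σ (c • _)]
    ext a b
    exact (hc _ _).trans (formOfGram_smul _ _ _ _ _).symm
  have hm : ∀ (x : Matrix (Fin k) (Fin k) F) (y : Matrix (Fin l) (Fin l) F),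
      (x ⊗ₖ y).map (B.tr e P).σ = x.map B₁.σ ⊗ₖ y.map B₂.σ := fun x y => by
    ext a b; simp [h₁, h₂, Frm.tr]
  refine ⟨hk, hl, (inv_tL_of_le h).1, (inv_tL_of_le h).2, h₁, h₂, h₃, h₄, fun x => ?_, fun x => ?_⟩
  · refine (B.adj_tr e P _).trans (congrArg (tr e P) (Frm.adj_eq_of_gram _ hG ?_))
    erw [kl_apply, kl_apply]
    rw [hm, ← kroneckerMap_transpose, ← mul_kronecker_mul, ← mul_kronecker_mul,
      B₁.transpose_mul_gram, B₂.transpose_mul_gram, B₂.adj_one]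
  · refine (B.adj_tr e P _).trans (congrArg (tr e P) (Frm.adj_eq_of_gram _ hG ?_))
    erw [kr_apply, kr_apply]
    rw [hm, ← kroneckerMap_transpose, ← mul_kronecker_mul, ← mul_kronecker_mul,
      B₁.transpose_mul_gram, B₂.transpose_mul_gram, B₁.adj_one]

omit [DecidableEq ι] in
theorem Frm.exists_similar_odd [Finite F] (B B' : Frm ι F) (hσ : B.σ = RingEquiv.refl F)
    (hσ' : B'.σ = RingEquiv.refl F) (hε : B.ε = 1) (hε' : B'.ε = 1) (h2 : (2 : F) ≠ 0)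
    (hn : Odd (Fintype.card ι)) :
    ∃ (L : (ι → F) ≃ₗ[F] (ι → F)) (c : F), ∀ u v, B'.f (L u) (L v) = c * B.f u v := by
  obtain ⟨m, hm⟩ := hn
  have key : ∀ B : Frm ι F, B.σ = RingEquiv.refl F → B.ε = 1 → ∃ c : F, c ≠ 0 ∧
      ∃ g : (Unit ⊕ (Fin m ⊕ Fin m) → F) ≃ₗ[F] (ι → F), ∀ x, B.f (g x) (g x) = c * H58.qOdd m F x :=
    fun B hσ hε => H58.similar_qOdd (Q := (B.toBilin hσ).toQuadraticMap) ((H58.nondeg_iff _).2
      fun v hv => B.nondeg' v fun x => (mul_eq_zero.1 ((B.polar_diag hσ hε v x).symm.trans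
        (hv x))).resolve_left h2) (by simpa using hm)
  obtain ⟨c, hc0, g, hg⟩ := key B hσ hε
  obtain ⟨c', -, g', hg'⟩ := key B' hσ' hε'
  refine ⟨g.symm.trans g', c' / c, fun u v => mul_left_cancel₀ h2 ?_⟩
  rw [← B'.polar_diag hσ' hε', mul_left_comm, ← B.polar_diag hσ hε]
  have : ∀ w, B'.f ((g.symm.trans g') w) ((g.symm.trans g') w) = c' / c * B.f w w := fun w => by
    rw [← g.apply_symm_apply w, hg, g.apply_symm_apply, LinearEquiv.trans_apply, hg']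
    field_simp
  simp only [QuadraticMap.polar, ← map_add, this]
  ring

theorem Ent.det_mem {F₀ : Subfield F} {a : Matrix ι ι F} (h : Ent F₀ a) : a.det ∈ F₀ := by
  rw [det_apply']
  exact sum_mem fun σ _ => mul_mem (intCast_mem _ _) (prod_mem fun i _ => h _ _)

theorem Frm.gram_tr (B : Frm ι F) (P : GL ι F) : gramMatrix (B.tr (Equiv.refl ι) P).f =
    (P : Matrix ι ι F)ᵀ * gramMatrix B.f * (P : Matrix ι ι F).map B.σ := by
  rw [← gramMatrix_formOfGram B.σ (_ * _)]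
  congr 1
  ext u v
  rw [formOfGram_eq_dot, ← mulVec_mulVec, ← mulVec_mulVec, ← Frm.map_mulVec_comp,
    mulVec_transpose, dotProduct_comm, ← dotProduct_mulVec, dotProduct_comm]
  exact B.eq_dot _ _

omit [Fintype ι] in
theorem ent_gram_polar {Q : (ι → F) → F} {F₀ : Subfield F}
    (h : ∀ u : ι → F, (∀ i, u i ∈ F₀) → Q u ∈ F₀) [Fintype ι] :
    Ent F₀ (gramMatrix (QuadraticMap.polar Q)) := fun i j =>
  sub_mem (sub_mem (h _ fun a => add_mem (single_mem_subfield F₀ i a) (single_mem_subfield F₀ j a))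
    (h _ (single_mem_subfield F₀ i))) (h _ (single_mem_subfield F₀ j))

/-- In odd dimension a rational structure can be normalised. -/
theorem rational_of_odd {Q : (ι → F) → F} (hQ : IsNondegenerateQuadraticForm Q)
    (hn : Odd (Fintype.card ι)) {F₀ : Subfield F} (h0 : ∀ u : ι → F, (∀ i, u i ∈ F₀) → Q u ∈ F₀)
    {ζ : F} (hζ : ζ ≠ 0) {P : GL ι F} (h : IsQuadFormRationalStructure (fun v => ζ * Q v) F₀ P) :
    ∃ c : Fˣ, IsQuadFormRationalStructure Q F₀ (P * scal ι c) := by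
  obtain ⟨m, hm⟩ := hn
  have h1 := (ent_gram_polar h0).det_mem
  have h2 := (ent_gram_polar h).det_mem
  have h3 : gramMatrix (QuadraticMap.polar fun v => ζ * Q ((P : Matrix ι ι F) *ᵥ v)) =
      ζ • gramMatrix ((oFrm hQ).tr (Equiv.refl ι) P).f := by
    ext i j
    change _ = ζ * QuadraticMap.polar Q (_ *ᵥ Pi.single i 1) (_ *ᵥ Pi.single j 1)
    simp only [gramMatrix, QuadraticMap.polar, mulVec_add]
    ring
  rw [h3, Frm.gram_tr, det_smul, det_mul, det_mul, det_transpose, hm] at h2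
  have h4 : (gramMatrix (QuadraticMap.polar Q)).det ≠ 0 := (oFrm hQ).gram.det_ne_zero
  have h5 : ζ ^ m * (P : Matrix ι ι F).det ≠ 0 := mul_ne_zero (pow_ne_zero _ hζ) P.det_ne_zero
  refine ⟨(Units.mk0 _ h5)⁻¹, fun u hu => ?_⟩
  rw [mul_scal_mulVec, hQ.smul]
  convert mul_mem (div_mem h1 h2) (h u hu) using 1
  change _ = _ / (_ * (_ * (gramMatrix (QuadraticMap.polar Q)).det * (P : Matrix ι ι F).det)) * _
  have := P.det_ne_zero
  simp only [Units.val_inv_eq_inv_val, Units.val_mk0]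
  field_simp
  ring

theorem Frm.even_of_skew (B : Frm ι F) (hσ : B.σ = RingEquiv.refl F) (h2 : (2 : F) ≠ 0)
    {s t : Matrix ι ι F} (hs : B.adj s = -s) (ht : s * t = 1) : Even (Fintype.card ι) := by
  have h1 := B.det_adj s
  have h3 : s.det ≠ 0 := left_ne_zero_of_mul_eq_one ((det_mul s t).symm.trans (by rw [ht, det_one]))
  rw [hs, det_neg, hσ, RingEquiv.refl_apply, mul_eq_right₀ h3] at h1
  exact (neg_one_pow_eq_one_iff_even fun h => h2 (by linear_combination -h)).1 h1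

omit [Fintype ι] [DecidableEq ι] in
theorem isNondegenerateQuadraticForm_coe {Q : QuadraticForm F (ι → F)}
    (h : (QuadraticMap.polarBilin Q).Nondegenerate) : IsNondegenerateQuadraticForm Q := by
  refine ⟨fun c v => by rw [Q.map_smul, sq, smul_eq_mul], ⟨Q.polar_add_left, Q.polar_smul_left,
    Q.polar_add_right, Q.polar_smul_right⟩, fun v hv => ?_⟩
  have : ∃ x, QuadraticMap.polar Q v x ≠ 0 := by
    by_contra! h0
    exact hv ((H58.nondeg_iff Q).1 h v h0)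
  exact ⟨this.imp fun x hx => by rwa [QuadraticMap.polar_comm], this⟩

/-- Aschbacher's theorem for the odd-dimensional orthogonal groups. -/
theorem asch_orth_odd [Fintype F] (hq : Odd (Fintype.card F)) {m : ℕ} (hm : 1 ≤ m)
    (H : Subgroup (GL (Unit ⊕ (Fin m ⊕ Fin m)) F)) (hH : H ≤ isometryGroup F (quadFormOdd m F)) :
    (∃ M, InOrthogonalOddClass m F M ∧ H ≤ M) ∨ InOrthogonalResidualClass H := by
  have h2 := two_ne_zero_of_odd hq
  have hQ : IsNondegenerateQuadraticForm (quadFormOdd m F) :=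
    H58.coe_qOdd m F ▸ isNondegenerateQuadraticForm_coe (H58.qOdd_nondeg m h2)
  have hc : Fintype.card (Unit ⊕ (Fin m ⊕ Fin m)) = 2 * m + 1 := by simp; omega
  have ho : Odd (Fintype.card (Unit ⊕ (Fin m ⊕ Fin m))) := ⟨m, hc⟩
  refine (asch_orth _ F _ hQ (by omega) H hH).imp_left ?_
  rintro ⟨M, hM, h⟩
  rcases hM with ⟨W, a1, a2, rfl⟩ | ⟨W, a1, a2, a3, rfl⟩ | ⟨a1, -⟩ | ⟨t, k, D, a1, a2, rfl⟩ |
    ⟨k, D, a1, -⟩ | ⟨r, K, a1, a2, a3, a4, rfl⟩ | ⟨K, a1, a2, a3, -⟩ |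
    ⟨k, l, e, P, f₁, f₂, -, a1, a2, a3, a4, a5, a6, rfl⟩ | ⟨k, l, e, P, f₁, f₂, -, -, -, a1, -⟩ |
    ⟨F₀, r, P, ζ, a1, a2, a3, a4, rfl⟩ | ⟨R, k, -, -, -, -, -, -, -, a1, -⟩ |
    ⟨k, t, e, P, f₁, -, a1, a2, a3, a4, a5, rfl⟩ | ⟨k, t, e, P, f₁, -, a1, a2, -⟩
  · exact ⟨_, .inl ⟨W, a1, a2, rfl⟩, le_inf h hH⟩
  · exact ⟨_, .inr (.inl ⟨W, a1, a2, a3, rfl⟩), le_inf h hH⟩
  · exact (a1 hq).elim
  · rcases (Nat.succ_le_of_lt a1.decomp.decomp.pos).eq_or_lt with rfl | hk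
    · exact ⟨_, .inr (.inr (.inr (.inl ⟨t, D, a2 rfl, a1, rfl⟩))), le_inf h hH⟩
    · exact ⟨_, .inr (.inr (.inl ⟨t, k, D, hk, a1, rfl⟩)), le_inf h hH⟩
  · have := two_mul_of_decomp a1
    omega
  · exact ⟨_, .inr (.inr (.inr (.inr (.inl ⟨r, K, a1, hc ▸ a2, a3, a4, rfl⟩)))), le_inf h hH⟩
  · obtain ⟨x, hx, hx'⟩ : ∃ x ∈ K, (oFrm hQ).adj x ≠ x := by
      by_contra! h0
      exact a3 ((oFrm hQ).isSelfAdjointFor_iff.2 h0)
    obtain ⟨y, hy, hy'⟩ := a2 x hx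
    obtain ⟨z, -, hz⟩ := a1.inv _ (sub_mem ((oFrm hQ).adj_eq_of hy' ▸ hy) hx) (sub_ne_zero.2 hx')
    exact (Nat.not_even_iff_odd.2 ho ((oFrm hQ).even_of_skew rfl h2
      (by rw [Frm.adj_sub, Frm.adj_adj, neg_sub]) hz)).elim
  · rcases a2.eq_or_lt with rfl | a2
    · have hT := TenForm.of_class (B := oFrm hQ) (by omega) (by omega) (B₁ := .ofSymmetric a4)
        (B₂ := .ofSymmetric a5) rfl rfl (fun _ => rfl) (fun _ => rfl) a6 h
      obtain ⟨L, c, hL⟩ := (Frm.ofSymmetric a4).exists_similar_odd (.ofSymmetric a5) rfl rfl rfl rfl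
        h2 (by rw [Fintype.card_congr e, Fintype.card_prod, Nat.odd_mul] at ho; exact ho.1)
      obtain ⟨e', P', h'⟩ := hT.powForm L hL
      exact ⟨_, .inr (.inr (.inr (.inr (.inr (.inr (.inr
        ⟨k, 2, e', P', f₁, a1, le_rfl, a3, a4, h'.form, rfl⟩)))))), le_inf h'.tpow.le hH⟩
    · exact ⟨_, .inr (.inr (.inr (.inr (.inr (.inl ⟨k, l, e, P, f₁, f₂, a1, a2, a4, a5, a6,
        rfl⟩))))), le_inf h hH⟩
  · rw [Fintype.card_congr e, Fintype.card_prod, Nat.odd_mul] at ho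
    exact (Nat.not_even_iff_odd.2 ho.1 ((Frm.ofSymplectic a1).even_of_alt rfl a1.alternating)).elim
  · obtain ⟨c, hc'⟩ := rational_of_odd hQ ho (fun u hu => add_mem (pow_mem (hu _) 2)
      (sum_mem fun i _ => mul_mem (hu _) (hu _))) a3 a4
    exact ⟨_, .inr (.inr (.inr (.inr (.inr (.inr (.inl ⟨F₀, r, _, a1, a2, hc', rfl⟩)))))),
      le_inf (by rwa [subfieldSubgroup_mul_scal]) hH⟩
  · rcases k with _ | k
    · omega
    · rw [pow_succ] at a1; omega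
  · exact ⟨_, .inr (.inr (.inr (.inr (.inr (.inr (.inr ⟨k, t, e, P, f₁, a1, a2, a3, a4, a5,
      rfl⟩)))))), le_inf h hH⟩
  · rw [Fintype.card_congr e, Fintype.card_fun, Nat.odd_pow_iff (by simp; omega)] at ho
    exact (Nat.not_even_iff_odd.2 ho ((Frm.ofSymplectic a2).even_of_alt rfl a2.alternating)).elim

end H19
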