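import Cfsg.Agent.H1.CoprimeGen
import Cfsg.Agent.H98.Basic

/-! Goldschmidt's generation lemma: if `Y = [Y, A]` for an abelian group `A` acting coprimely on
the solvable group `Y`, then `C_Y(A)` is generated by the `C(A) ∩ [C_Y(B), A]`, `A / B` cyclic. -/

set_option autoImplicit false

namespace H19.Gold

open Subgroup

universe u

local notation "𝒞" X:max => centralizer (SetLike.coe X)
local notation "𝒩" X:max => normalizer (SetLike.coe X)

section basic
variable {G G' : Type*} [Group G] [Group G']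

/-- `B ≤ A` and `A / B` is cyclic -/
def Coc (B A : Subgroup G) : Prop :=
  B ≤ A ∧ ∀ [(B.subgroupOf A).Normal], IsCyclic (A ⧸ B.subgroupOf A)

theorem Coc.comap (f : G →* G') {A : Subgroup G} {B' A' : Subgroup G'} [IsMulCommutative A']
    (hA : A.map f ≤ A') (h : Coc B' A') : Coc (B'.comap f ⊓ A) A := by
  refine ⟨inf_le_right, ?_⟩
  intro _
  have := h.2
  let φ : A →* A' := (f.comp A.subtype).codRestrict A' fun a => hA ⟨a, a.2, rfl⟩
  have hφ : (B'.comap f ⊓ A).subgroupOf A ≤ (B'.subgroupOf A').comap φ := fun x hx => hx.1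
  refine isCyclic_of_injective (QuotientGroup.map _ (B'.subgroupOf A') φ hφ) ?_
  rw [injective_iff_map_eq_one]
  intro x hx
  obtain ⟨x, rfl⟩ := QuotientGroup.mk_surjective x
  rw [QuotientGroup.map_mk, QuotientGroup.eq_one_iff] at hx
  rw [QuotientGroup.eq_one_iff]
  exact ⟨hx, x.2⟩

theorem Coc.map (f : G →* G') {A B : Subgroup G} [IsMulCommutative A] (h : Coc B A) :
    Coc (B.map f) (A.map f) := by
  refine ⟨map_mono h.1, ?_⟩
  intro _
  have := h.2
  have hφ : B.subgroupOf A ≤ ((B.map f).subgroupOf (A.map f)).comap (f.subgroupMap A) :=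
    fun x hx => ⟨x, hx, rfl⟩
  refine isCyclic_of_surjective (QuotientGroup.map (B.subgroupOf A) _ (f.subgroupMap A) hφ)
    fun y => ?_
  obtain ⟨y, rfl⟩ := QuotientGroup.mk_surjective y
  obtain ⟨x, rfl⟩ := f.subgroupMap_surjective A y
  exact ⟨x, rfl⟩

theorem comm_le_cen {A B : Subgroup G} [IsMulCommutative A] (h : B ≤ A) : A ≤ 𝒞 B :=
  (le_centralizer A).trans (centralizer_le h)

variable [Finite G]

theorem map_inf_cen (f : G →* G') {K A : Subgroup G} (hAK : A ≤ 𝒩 K)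
    (hcop : (Nat.card A).Coprime (Nat.card K)) (hs : Group.IsSolvable K) :
    (K ⊓ 𝒞 A).map f = K.map f ⊓ 𝒞 (A.map f) := by
  refine le_antisymm (le_inf (map_mono inf_le_left) (H98.map_le_centralizer_map f inf_le_right)) ?_
  rintro _ ⟨⟨k, hk, rfl⟩, hc⟩
  obtain ⟨n, hn, h⟩ := H1.exists_centralizer_mem_coset (A := A) (N := K ⊓ f.ker)
    (H98.le_normalizer_inf hAK le_normalizer_of_normal)
    (hcop.coprime_dvd_right (card_dvd_of_le inf_le_left))
    (Or.inr (H1.isSolvable_of_le inf_le_left hs)) k fun a ha =>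
      ⟨K.mul_mem (K.inv_mem hk) (H1.conj_mem_of_le_normalizer hAK ha hk), by
        have := hc _ ⟨a, ha, rfl⟩
        show f _ = 1
        simp only [map_mul, map_inv]
        rw [this]; group⟩
  refine ⟨k * n, ⟨K.mul_mem hk hn.1, h⟩, ?_⟩
  rw [map_mul, show f n = 1 from hn.2, mul_one]

theorem le_of_coc {A K : Subgroup G} [IsMulCommutative A] (hAK : A ≤ 𝒩 K)
    (hcop : (Nat.card A).Coprime (Nat.card K)) {L : Subgroup G}
    (hL : ∀ B, Coc B A → K ⊓ (𝒞 B) ≤ L) : K ≤ L :=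
  H1.le_of_cocyclic_centralizer_le hAK hcop L fun B h1 h2 => hL B ⟨h1, h2⟩

theorem le_iSup_comm {A Y : Subgroup G} [IsMulCommutative A] (hAY : A ≤ 𝒩 Y)
    (hcop : (Nat.card A).Coprime (Nat.card Y)) (hs : Group.IsSolvable Y) :
    ⁅Y, A⁆ ≤ ⨆ B : {B // Coc B A}, ⁅Y ⊓ 𝒞 B.1, A⁆ := by
  set W := ⨆ B : {B // Coc B A}, ⁅Y ⊓ 𝒞 B.1, A⁆
  have h1 : Y ≤ W ⊔ (Y ⊓ 𝒞 A) := le_of_coc hAY hcop fun B hB => by
    rw [← H1.commutator_sup_centralizer (A := A) (K := Y ⊓ 𝒞 B)
      (H98.le_normalizer_inf hAY (H98.le_normalizer_of_le (comm_le_cen hB.1)))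
      (hcop.coprime_dvd_right (card_dvd_of_le inf_le_left))
      (Or.inr (H1.isSolvable_of_le inf_le_left hs))]
    exact sup_le_sup (le_iSup (fun B : {B // Coc B A} => ⁅Y ⊓ 𝒞 B.1, A⁆) ⟨B, hB⟩)
      (inf_le_inf_right _ inf_le_left)
  refine (commutator_mono h1 le_rfl).trans ?_
  rw [H98.commutator_sup_centralizer_left inf_le_right (Or.inl (H98.le_normalizer_iSup fun B =>
    H98.le_normalizer_commutator (H98.le_normalizer_inf (H98.le_normalizer_of_le inf_le_left)
      (H98.le_normalizer_of_le (inf_le_right.trans (centralizer_le B.2.1))))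
      (H98.le_normalizer_of_le_centralizer inf_le_right)))]
  exact H98.commutator_le_left' (H98.le_normalizer_iSup fun B => normalizer_commutator_ge_right _ _)

/-- the abelian normal case -/
theorem abelian_step {A Y L V : Subgroup G} [IsMulCommutative A] [IsMulCommutative V] [V.Normal]
    (hAY : A ≤ 𝒩 Y) (hcop : (Nat.card A).Coprime (Nat.card Y)) (hs : Group.IsSolvable Y)
    (hY : ⁅Y, A⁆ = Y) (hL : ∀ B, Coc B A → (𝒞 A) ⊓ ⁅Y ⊓ 𝒞 B, A⁆ ≤ L) (hV : V ≤ Y) :
    ⁅V, Y⁆ ⊓ (𝒞 A) ≤ L := by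
  have hc : ∀ {U B : Subgroup G}, B ≤ A → U ≤ Y → (Nat.card B).Coprime (Nat.card U) :=
    fun h1 h2 => (hcop.coprime_dvd_left (card_dvd_of_le h1)).coprime_dvd_right (card_dvd_of_le h2)
  set V₁ := ⁅V, A⁆ ⊔ (V ⊓ (𝒞 A) ⊓ L)
  have hV₁ : V₁ ≤ V := sup_le (commutator_le_left V A) (inf_le_left.trans inf_le_left)
  have hn : V ≤ 𝒩 V₁ := H98.le_normalizer_of_le_centralizer (comm_le_cen hV₁)
  have h1 : ∀ B, Coc B A → ⁅V, ⁅Y ⊓ 𝒞 B, A⁆⁆ ≤ V₁ := fun B hB => by
    have hAB : A ≤ 𝒩 (Y ⊓ 𝒞 B : Subgroup G) :=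
      H98.le_normalizer_inf hAY (H98.le_normalizer_of_le (comm_le_cen hB.1))
    have hK := H98.commutator_le_left' hAB
    conv_lhs => rw [← H1.commutator_sup_centralizer (A := B) (K := V) le_normalizer_of_normal
      (hc hB.1 hV) (Or.inr (H1.isSolvable_of_le hV hs))]
    refine H98.commutator_sup_left_le ((commutator_le_left V B).trans hn) (inf_le_left.trans hn)
      ?_ ?_
    · refine (H98.commutator_le_left' (H98.le_normalizer_commutator le_normalizer_of_normal
        (H98.le_normalizer_of_le_centralizer (hK.trans inf_le_right)))).trans ?_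
      exact (commutator_mono le_rfl hB.1).trans le_sup_left
    · have h2 : ⁅V ⊓ 𝒞 B, ⁅Y ⊓ 𝒞 B, A⁆⁆ ≤ V ⊓ ⁅Y ⊓ 𝒞 B, A⁆ :=
        le_inf ((commutator_mono inf_le_left le_rfl).trans (commutator_le_left _ _))
          (H98.commutator_le_right' ((inf_le_inf_right _ hV).trans
            (normalizer_commutator_ge_left _ _)))
      refine h2.trans ?_
      rw [← H1.commutator_sup_centralizer (A := A) (K := V ⊓ ⁅Y ⊓ 𝒞 B, A⁆)
        (H98.le_normalizer_inf le_normalizer_of_normal (normalizer_commutator_ge_right _ _))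
        (hc le_rfl (inf_le_left.trans hV))
        (Or.inr (H1.isSolvable_of_le (inf_le_left.trans hV) hs))]
      exact sup_le_sup (commutator_mono inf_le_left le_rfl)
        fun x hx => ⟨⟨hx.1.1, hx.2⟩, hL B hB ⟨hx.2, hx.1.2⟩⟩
  have h2 : ⁅V, Y⁆ ≤ V₁ := by
    refine (commutator_mono le_rfl (hY.ge.trans (le_iSup_comm hAY hcop hs))).trans ?_
    exact H98.commutator_iSup_right_le
      (fun B => H98.le_normalizer_of_commutator_le (h1 B.1 B.2) hV₁) fun B => h1 B.1 B.2
  rintro x ⟨hx, hxA⟩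
  obtain ⟨u, hu, r, hr, rfl⟩ := (H98.mem_sup_right_norm (((inf_le_left.trans inf_le_left)).trans
    (normalizer_commutator_ge_left V A))).1 (h2 hx)
  have h3 : u ∈ (V ⊓ 𝒞 A) ⊓ ⁅V, A⁆ :=
    ⟨⟨commutator_le_left V A hu, (Subgroup.mul_mem_cancel_right _ hr.1.2).1 hxA⟩, hu⟩
  rw [H1.centralizer_inf_commutator_eq_bot le_normalizer_of_normal (hc le_rfl hV), mem_bot] at h3
  rw [h3, one_mul]
  exact hr.2

omit [Finite G] in
theorem comm_inf_cen (P : Subgroup G) : IsMulCommutative (P ⊓ 𝒞 P : Subgroup G) :=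
  ⟨⟨fun a b => Subtype.ext (b.2.2 a a.2.1)⟩⟩

omit [Finite G] in
theorem exists_class_two {Y Z : Subgroup G} [Y.Normal] (hs : Group.IsSolvable Y) (h : ¬ Y ≤ Z) :
    ∃ P : Subgroup G, P.Normal ∧ P ≤ Y ∧ ¬ P ≤ Z ∧ ⁅P, P⁆ ≤ Z := by
  obtain ⟨n, hn⟩ := hs.solvable
  by_contra hne
  push Not at hne
  have key : ∀ m, ((derivedSeries Y m).map Y.subtype).Normal ∧
      ¬ (derivedSeries Y m).map Y.subtype ≤ Z := fun m => by
    induction m with
    | zero =>
      rw [derivedSeries_zero, ← MonoidHom.range_eq_map, range_subtype]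
      exact ⟨inferInstance, h⟩
    | succ m ih =>
      rw [derivedSeries_succ, map_commutator]
      have := ih.1
      exact ⟨inferInstance, hne _ ih.1 (map_subtype_le _) ih.2⟩
  exact (key n).2 (by rw [hn, Subgroup.map_bot]; exact bot_le)

/-- the class two step -/
theorem class_two_step {A P : Subgroup G} [IsMulCommutative A] (hAP : A ≤ 𝒩 P)
    (hcop : (Nat.card A).Coprime (Nat.card P)) (hs : Group.IsSolvable P) (hP : ⁅P, P⁆ ≤ 𝒞 A)
    {B : Subgroup G} (hB : B ≤ A) (h : ⁅⁅P ⊓ 𝒞 B, A⁆, ⁅P ⊓ 𝒞 B, A⁆⁆ = ⊥) :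
    ⁅P ⊓ 𝒞 B, A⁆ ≤ 𝒞 P := by
  have F : ∀ D ≤ A, ⁅P, D⁆ ≤ 𝒞 (P ⊓ 𝒞 D : Subgroup G) := fun D hD => by
    rw [← commutator_eq_bot_iff_le_centralizer]
    refine commutator_commutator_eq_bot_of_rotate ?_ ?_
    · rw [commutator_comm D, commutator_eq_bot_iff_le_centralizer.2 inf_le_right,
        commutator_bot_left]
    · exact commutator_eq_bot_iff_le_centralizer.2
        (((commutator_mono inf_le_left le_rfl).trans hP).trans (centralizer_le hD))
  have hAB : A ≤ 𝒩 (P ⊓ 𝒞 B : Subgroup G) :=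
    H98.le_normalizer_inf hAP (H98.le_normalizer_of_le (comm_le_cen hB))
  have e1 := H1.commutator_sup_centralizer (hB.trans hAP)
    (hcop.coprime_dvd_left (card_dvd_of_le hB)) (Or.inr hs)
  have e2 := H1.commutator_sup_centralizer hAB (hcop.coprime_dvd_right (card_dvd_of_le inf_le_left))
    (Or.inr (H1.isSolvable_of_le inf_le_left hs))
  rw [le_centralizer_iff]
  refine e1.ge.trans (sup_le ((F B hB).trans (centralizer_le (H98.commutator_le_left' hAB)))
    (e2.ge.trans (sup_le (commutator_eq_bot_iff_le_centralizer.1 h) ?_)))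
  rw [le_centralizer_iff]
  exact ((commutator_mono inf_le_left le_rfl).trans (F A le_rfl)).trans
    (centralizer_le (inf_le_inf_right _ inf_le_left))

end basic

theorem core (n : ℕ) : ∀ (G : Type u) [Group G] [Finite G] (A Y L : Subgroup G)
    [IsMulCommutative A] [Y.Normal], Nat.card G = n → Y ⊔ A = ⊤ →
    (Nat.card A).Coprime (Nat.card Y) → Group.IsSolvable Y → ⁅Y, A⁆ = Y →
    (∀ B, Coc B A → (𝒞 A) ⊓ ⁅Y ⊓ 𝒞 B, A⁆ ≤ L) → Y ⊓ (𝒞 A) ≤ L := by
  induction n using Nat.strong_induction_on with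
  | _ n ih =>
  intro G _ _ A Y L _ _ hn htop hcop hs hY hL
  by_contra hne
  have hc : ∀ {U B : Subgroup G}, B ≤ A → U ≤ Y → (Nat.card B).Coprime (Nat.card U) :=
    fun h1 h2 => (hcop.coprime_dvd_left (card_dvd_of_le h1)).coprime_dvd_right (card_dvd_of_le h2)
  have dag : ∀ M : Subgroup G, M.Normal → M ⊓ (𝒞 A) ≤ L → M = ⊥ := fun M hM hML => by
    by_contra hM1
    apply hne
    let f := QuotientGroup.mk' M
    have hf : Function.Surjective f := QuotientGroup.mk'_surjective M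
    have := Subgroup.Normal.map ‹Y.Normal› f hf
    have h1 := ih _ (by
        rw [← hn, card_eq_card_quotient_mul_card_subgroup M]
        exact lt_mul_of_one_lt_right Nat.card_pos ((one_lt_card_iff_ne_bot M).2 hM1))
      (G ⧸ M) (A.map f) (Y.map f) ((L ⊓ 𝒞 A).map f) rfl
      (by rw [← Subgroup.map_sup, htop, map_top_of_surjective f hf])
      ((hcop.coprime_dvd_left (card_map_dvd A f)).coprime_dvd_right (card_map_dvd Y f))
      (Group.isSolvable_of_surjective (f.subgroupMap_surjective Y))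
      (by rw [← map_commutator, hY]) (fun B' hB' => by
        have hB := hB'.comap f le_rfl
        have e : (B'.comap f ⊓ A).map f = B' := by
          refine le_antisymm ((map_mono inf_le_left).trans (map_comap_le _ _)) fun y hy => ?_
          obtain ⟨x, hx, rfl⟩ := hB'.1 hy
          exact ⟨x, ⟨hy, hx⟩, rfl⟩
        generalize B'.comap f ⊓ A = B at hB e
        have hAB : A ≤ 𝒩 (Y ⊓ 𝒞 B : Subgroup G) :=
          H98.le_normalizer_inf le_normalizer_of_normal (H98.le_normalizer_of_le (comm_le_cen hB.1))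
        have hK := (H98.commutator_le_left' hAB).trans inf_le_left
        rw [← e, ← map_inf_cen f le_normalizer_of_normal (hc hB.1 le_rfl) hs, ← map_commutator,
          inf_comm, ← map_inf_cen f (normalizer_commutator_ge_right _ _) (hc le_rfl hK)
            (H1.isSolvable_of_le hK hs)]
        exact map_mono fun x hx => ⟨hL B hB ⟨hx.2, hx.1⟩, hx.2⟩)
    rw [← map_inf_cen f le_normalizer_of_normal hcop hs] at h1
    intro x hx
    obtain ⟨l, hl, e⟩ := h1 ⟨x, hx, rfl⟩
    have h2 : l⁻¹ * x ∈ M := QuotientGroup.eq.1 e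
    have h3 := hML ⟨h2, Subgroup.mul_mem _ (Subgroup.inv_mem _ hl.2) hx.2⟩
    simpa using L.mul_mem hl.1 h3
  have nm : ∀ M : Subgroup G, Y ≤ 𝒩 M → A ≤ 𝒩 M → M.Normal := fun M h1 h2 =>
    H98.normal_of_top_le_normalizer (htop ▸ sup_le h1 h2)
  have s1 : ∀ V : Subgroup G, V.Normal → IsMulCommutative V → V ≤ Y → V ≤ 𝒞 Y := fun V _ _ hV =>
    commutator_eq_bot_iff_le_centralizer.1
      (dag _ inferInstance (abelian_step le_normalizer_of_normal hcop hs hY hL hV))
  have s2 : Y ⊓ (𝒞 Y) ≤ 𝒞 A := by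
    have := comm_inf_cen Y
    have h1 := commutator_le_left (Y ⊓ 𝒞 Y) A
    refine commutator_eq_bot_iff_le_centralizer.1 (dag _ (nm _ (H98.le_normalizer_of_le_centralizer
      (le_centralizer_iff.1 (h1.trans inf_le_right))) (normalizer_commutator_ge_right _ _)) ?_)
    intro x hx
    have h3 : x ∈ ((Y ⊓ 𝒞 Y) ⊓ 𝒞 A) ⊓ ⁅Y ⊓ 𝒞 Y, A⁆ := ⟨⟨h1 hx.1, hx.2⟩, hx.1⟩
    rw [H1.centralizer_inf_commutator_eq_bot le_normalizer_of_normal (hc le_rfl inf_le_left),
      mem_bot] at h3
    exact h3 ▸ L.one_mem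
  obtain ⟨P, _, hPY, hP1, hP2⟩ := exists_class_two (Z := Y ⊓ 𝒞 Y) hs fun h => hne (by
    rw [← hY, commutator_eq_bot_iff_le_centralizer.2 (h.trans s2), bot_inf_eq]; exact bot_le)
  have hsP := H1.isSolvable_of_le hPY hs
  have s3 : P ≤ 𝒞 A := le_of_coc le_normalizer_of_normal (hc le_rfl hPY) fun B hB => by
    have hAB : A ≤ 𝒩 (P ⊓ 𝒞 B : Subgroup G) :=
      H98.le_normalizer_inf le_normalizer_of_normal (H98.le_normalizer_of_le (comm_le_cen hB.1))
    have hK := (H98.commutator_le_left' hAB).trans inf_le_left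
    have h1 := (commutator_mono hK hK).trans hP2
    have h2 := class_two_step le_normalizer_of_normal (hc le_rfl hPY) hsP (hP2.trans s2) hB.1
      (dag _ (nm _ (H98.le_normalizer_of_le_centralizer
          (le_centralizer_iff.1 (h1.trans inf_le_right)))
        (H98.le_normalizer_of_le_centralizer (le_centralizer_iff.1 (h1.trans s2))))
        fun x hx => hL B hB ⟨hx.2, commutator_mono (inf_le_inf_right _ hPY) le_rfl
          (H98.commutator_le_of_le le_rfl le_rfl hx.1)⟩)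
    have h3 := s1 _ inferInstance (comm_inf_cen P) (inf_le_left.trans hPY)
    have h4 : ⁅P ⊓ 𝒞 B, A⁆ ≤ 𝒞 A := (le_inf (hK.trans hPY) ((le_inf hK h2).trans h3)).trans s2
    exact commutator_eq_bot_iff_le_centralizer.1
      (H1.commutator_eq_bot_of_commutator_commutator_eq_bot hAB
        (hc le_rfl (inf_le_left.trans hPY)) (Or.inr (H1.isSolvable_of_le inf_le_left hsP))
        (commutator_eq_bot_iff_le_centralizer.2 h4))
  refine hP1 (le_inf hPY (le_centralizer_iff.1 (hY.ge.trans ?_)))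
  exact (commutator_mono le_rfl (le_centralizer_iff.1 s3)).trans (commutator_le_right _ _)

/-- **Goldschmidt's generation lemma.** -/
theorem gen {G : Type*} [Group G] [Finite G] {A Y L : Subgroup G} [IsMulCommutative A]
    (hAY : A ≤ 𝒩 Y) (hcop : (Nat.card A).Coprime (Nat.card Y)) (hs : Group.IsSolvable Y)
    (hY : ⁅Y, A⁆ = Y) (hL : ∀ B, Coc B A → (𝒞 A) ⊓ ⁅Y ⊓ 𝒞 B, A⁆ ≤ L) : Y ⊓ (𝒞 A) ≤ L := by
  let H := Y ⊔ A
  have hi := H.subtype_injective
  have eA : (A.subgroupOf H).map H.subtype = A := map_subgroupOf_eq_of_le le_sup_right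
  have eY : (Y.subgroupOf H).map H.subtype = Y := map_subgroupOf_eq_of_le le_sup_left
  have : (Y.subgroupOf H).Normal :=
    (normal_subgroupOf_iff_le_normalizer le_sup_left).2 (sup_le le_normalizer hAY)
  have h1 := core _ H (A.subgroupOf H) (Y.subgroupOf H) (L.subgroupOf H) rfl
    (map_injective hi (by rw [Subgroup.map_sup, eA, eY, ← MonoidHom.range_eq_map, range_subtype]))
    (by rwa [← card_map_of_injective hi, ← card_map_of_injective hi, eA, eY])
    (Group.isSolvable_of_isSolvable_injective (f := (subgroupOfEquivOfLe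
      (le_sup_left : Y ≤ H)).toMonoidHom) (subgroupOfEquivOfLe _).injective)
    (map_injective hi (by rw [map_commutator, eA, eY, hY])) (fun B hB => by
      have h2 := hL _ (eA ▸ hB.map H.subtype)
      rw [← eA, ← eY, ← H98.map_inf_centralizer hi, ← map_commutator, inf_comm,
        ← H98.map_inf_centralizer hi, map_le_iff_le_comap, inf_comm] at h2
      exact h2)
  rw [← eA, ← eY, ← H98.map_inf_centralizer hi, map_le_iff_le_comap]
  exact h1

end H19.Gold
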