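/- Tower KP (S4202): the numerics for `c ≥ 117`. -/
import Cfsg.Agent.H2.KpSpec
import Cfsg.Agent.H10.LnNL

set_option autoImplicit false

namespace H19.KpNB
open H2.Kp

theorem exists_h (c : ℕ) (hc : 1 ≤ c) : ∃ h, c ≤ 6 * h ^ 2 ∧ 6 * (h - 1) ^ 2 < c := by
  classical
  have hex : ∃ h, c ≤ 6 * h ^ 2 := ⟨c, by nlinarith⟩
  refine ⟨Nat.find hex, Nat.find_spec hex, ?_⟩
  rcases Nat.eq_zero_or_pos (Nat.find hex) with h0 | h0
  · rw [h0]; simp only [Nat.zero_sub]; omega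
  · exact not_le.1 (Nat.find_min hex (by omega))

theorem jobNB : H2.Kp.CF → CJ4 → CJ3 → CT → H2.Kp.NB := by
  intro hCF h4 h3 hT c hc w t l hw t1 t6 _ hl
  obtain ⟨h, hu, hd⟩ := exists_h c (by omega)
  have h5 : 5 ≤ h := by
    by_contra hlt
    have : h ^ 2 ≤ 4 ^ 2 := Nat.pow_le_pow_left (by omega) 2
    omega
  have hX : 4 * (h - 1) ≤ (h - 1) ^ 2 := by
    rw [sq]; exact Nat.mul_le_mul_right _ (by omega)
  have top : ∀ m, 2 * h ≤ m + 1 → ∀ k k1 k2, k1 ^ 4 ≤ Dc w h m (c - t) →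
      k2 ^ 4 ≤ Dc w h m (c - t - 1) → k ≤ cA w t * k1 + cB w t * ((c - t) * k2) →
      QB (w * c) k := fun m hm k k1 k2 e1 e2 e3 => by
    have hb := (hCF.2 w h m hw (by omega) hm).2
    refine Or.inr (Or.inr (hT w h c t k k1 k2 hw h5 hc hu hd t1 t6 ?_ ?_ e3))
    · exact (Nat.mul_le_mul_right _ e1).trans (hb _ (by omega))
    · exact (Nat.mul_le_mul_right _ e2).trans (hb _ (by omega))
  by_cases l3 : l = 3
  · subst l3
    have hm : 2 * h ≤ (c - t + 4) / 2 + 1 := by omega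
    have hV := (hCF.2 w h _ hw (by omega) hm).1 (c - t)
    refine ⟨4, (c - t + 4) / 2, g4, Dc w h ((c - t + 4) / 2), fun a _ => hCF.1 a,
      Or.inr ⟨rfl, by omega⟩, ⟨hV.zero, hV.mono, hV.v1, ?_⟩,
      fun k k1 k2 e1 e2 e3 _ => top _ hm k k1 k2 e1 e2 e3⟩
    rintro s sN ms ⟨-, j1, j2⟩ d rfl
    refine Or.inr ⟨((c - t + 4) / 2 - 1) / 2, by omega, ?_⟩
    have key := h3 w h d (((c - t + 4) / 2 - 1) / 2) hw h5 (by omega) (by omega) (by omega)
      (by omega)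
    unfold Dc
    rw [if_pos (by omega), if_neg (by omega), Nat.le_div_iff_mul_le (by
      apply pow_pos; omega)]
    exact key
  · have hm : 2 * h ≤ 2 * h - 1 + 1 := by omega
    have hV := (hCF.2 w h _ hw (by omega) hm).1 (c - t)
    refine ⟨4, 2 * h - 1, g4, Dc w h (2 * h - 1), fun a _ => hCF.1 a,
      Or.inl ?_, ⟨hV.zero, hV.mono, hV.v1, ?_⟩,
      fun k k1 k2 e1 e2 e3 _ => top _ hm k k1 k2 e1 e2 e3⟩
    · rintro m0 hm0 ⟨o1, o2⟩
      rcases Nat.lt_or_ge t 2 with t2 | t2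
      · have a1 := o2 (by omega) (by omega)
        have a2 : m0 ^ 2 ≤ (2 * (h - 1)) ^ 2 := Nat.pow_le_pow_left (by omega) 2
        rw [mul_pow] at a2
        omega
      · have := (H10.LnN.jobMLB c t m0 (by omega) o1).1 t2
        omega
    · rintro s sN ms ⟨j0, j1, j2⟩ d hs
      have j3 : (c - t + 2 - s) * 3 ≤ (c - t + 2 - s) * (l - 1) :=
        Nat.mul_le_mul_left _ (by omega)
      have j4 : 3 * d ≤ s := hs ▸ Nat.mul_le_mul_right _ (by omega)
      refine Or.inl ?_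
      have key := h4 w h s d hw h5 (by omega) (by omega) j4
      unfold Dc
      rw [if_neg (by omega), Nat.le_div_iff_mul_le (by apply pow_pos; omega)]
      exact key

end H19.KpNB
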