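/- Tower O7, slot Deg: degenerate triples and affine lines of roots. -/
import Cfsg.Agent.H31.O7A

set_option autoImplicit false

namespace H19.O7

open H56 QuadraticMap Module H31.O7 Polynomial

universe u

variable {K : Type u} [Field K] {V : Type u} [AddCommGroup V] [Module K V] {Q : QuadraticForm K V}
  {Φ : Set V} {W : Submodule K V} {f : V}

/-- Translations along `f` realised in the reflection group. -/
def Tl (Q : QuadraticForm K V) (Φ : Set V) (W : Submodule K V) (f y : V) : Prop :=
  y ∈ W ∧ ∃ g ∈ reflGroup Q Φ, ∀ x ∈ W, g x = x + polar Q y x • f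

theorem refl_mem_sub {r x : V} (hr : r ∈ W) (hx : x ∈ W) : refl Q r x ∈ W := by
  rw [refl_apply]; exact W.sub_mem hx (W.smul_mem _ hr)

theorem Tl.zero : Tl Q Φ W f 0 := ⟨W.zero_mem, 1, one_mem _, fun x _ => by simp⟩

theorem Tl.sub (hW : f ∈ W) (hf : ∀ x ∈ W, polar Q x f = 0) {y z : V} (hy : Tl Q Φ W f y)
    (hz : Tl Q Φ W f z) : Tl Q Φ W f (y - z) := by
  obtain ⟨y1, g, g1, g2⟩ := hy
  obtain ⟨z1, h, h1, h2⟩ := hz
  refine ⟨W.sub_mem y1 z1, h⁻¹ * g, mul_mem (inv_mem h1) g1, fun x hx => ?_⟩
  rw [O.mul_apply, O.inv_apply_eq, g2 x hx, h2 _ (W.add_mem hx (W.smul_mem _ hW)), polar_add_right,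
    polar_smul_right, hf z z1, polar_sub_left]
  module

theorem Tl.refl (hf : ∀ x ∈ W, polar Q x f = 0) {r y : V} (hr : r ∈ Φ) (hr' : r ∈ W)
    (hy : Tl Q Φ W f y) : Tl Q Φ W f (refl Q r y) := by
  obtain ⟨y1, g, g1, g2⟩ := hy
  have m := refl_mem_reflGroup (Q := Q) hr
  refine ⟨refl_mem_sub hr' y1, H56.refl Q r * g * H56.refl Q r, mul_mem (mul_mem m g1) m,
    fun x hx => ?_⟩
  rw [O.mul_apply, O.mul_apply, g2 _ (refl_mem_sub hr' hx), map_add, map_smul,
    refl_apply_of_orth (hf r hr'), ← O.mul_apply, refl_mul_self, O.polar_apply_right, refl_inv]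
  rfl

theorem Tl.proj (hW : f ∈ W) (hf : ∀ x ∈ W, polar Q x f = 0) {r y : V} (hr : r ∈ Φ) (hr' : r ∈ W)
    (hy : Tl Q Φ W f y) : Tl Q Φ W f (((Q r)⁻¹ * polar Q r y) • r) := by
  have := hy.sub hW hf (hy.refl hf hr hr')
  rwa [refl_apply, sub_sub_cancel] at this

/-- The multipliers of `{b | b • u ∈ T}`. -/
def mulF [Finite K] (hW : f ∈ W) (hf : ∀ x ∈ W, polar Q x f = 0) (Φ : Set V) (u : V) : Subfield K where
  carrier := {m | ∀ b, Tl Q Φ W f (b • u) → Tl Q Φ W f ((m * b) • u)}
  mul_mem' ha hb c hc := by rw [mul_assoc]; exact ha _ (hb _ hc)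
  one_mem' c hc := by rwa [one_mul]
  add_mem' ha hb c hc := by
    have := (ha c hc).sub hW hf (Tl.zero.sub hW hf (hb c hc))
    rwa [zero_sub, sub_neg_eq_add, ← add_smul, ← add_mul] at this
  zero_mem' c hc := by rw [zero_mul, zero_smul]; exact Tl.zero
  neg_mem' ha c hc := by
    have := Tl.zero.sub hW hf (ha c hc)
    rwa [zero_sub, ← neg_smul, ← neg_mul] at this
  inv_mem' a ha := by
    have p : ∀ n : ℕ, ∀ b, Tl Q Φ W f (b • u) → Tl Q Φ W f ((a ^ n * b) • u) := fun n => by
      induction n with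
      | zero => exact fun b hb => by rwa [pow_zero, one_mul]
      | succ n ih => exact fun b hb => by rw [pow_succ', mul_assoc]; exact ha _ (ih b hb)
    by_cases a0 : a = 0
    · rwa [a0, inv_zero, ← a0]
    · have := Fintype.ofFinite K
      have h1 := Fintype.one_lt_card (α := K)
      have h2 := FiniteField.pow_card_sub_one_eq_one a a0
      rw [show Fintype.card K - 1 = Fintype.card K - 2 + 1 by omega, pow_succ] at h2
      rw [← eq_inv_of_mul_eq_one_left h2]
      exact p _

theorem deg [Finite K] (h : RS Q Φ) : Deg Q Φ := by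
  intro u hu v hv w hw li hd c0 c4
  have qu := h.ne u hu
  have qv := h.ne v hv
  have qw := h.ne w hw
  have h2 := h.two
  have p0 : polar Q u v ≠ 0 := mt (cc_eq_zero qu qv).2 c0
  have D : 4 * Q u * Q v - polar Q u v ^ 2 ≠ 0 := fun e => c4 (by
    rw [cc]; field_simp; linear_combination -e)
  obtain ⟨s, t, f, rfl, f1, f2, f3⟩ : ∃ (s t : K) (f : V), w = s • u + t • v + f ∧ polar Q u f = 0 ∧
      polar Q v f = 0 ∧ Q f = 0 := by
    obtain ⟨d, e⟩ : ∃ d, d * (4 * Q u * Q v - polar Q u v ^ 2) = 1 := ⟨_, inv_mul_cancel₀ D⟩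
    refine ⟨(2 * Q v * polar Q u w - polar Q u v * polar Q v w) * d,
      (2 * Q u * polar Q v w - polar Q u v * polar Q u w) * d, _,
      (add_sub_cancel ..).symm, ?_, ?_, ?_⟩
    · simp only [polar_sub_right, polar_add_right, polar_smul_right, polar_self', smul_eq_mul]
      linear_combination (-polar Q u w) * e
    · simp only [polar_sub_right, polar_add_right, polar_smul_right, polar_self', smul_eq_mul,
        polar_comm Q v u]
      linear_combination (-polar Q v w) * e
    · rw [Q_sub, H19.RC.Q_comb, polar_add_right, polar_smul_right, polar_smul_right,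
        polar_comm Q w u, polar_comm Q w v, smul_eq_mul, smul_eq_mul]
      rw [dt, cc, cc, cc, tau, polar_comm Q w u] at hd
      field_simp at hd
      linear_combination d * hd + (d * (Q v * polar Q u w ^ 2 + Q u * polar Q v w ^ 2 -
        polar Q u v * polar Q u w * polar Q v w) - Q w) * e
  set w := s • u + t • v with hw0
  have f0 : f ≠ 0 := by
    rintro rfl
    have := Fintype.linearIndependent_iff.1 li ![s, t, -1] (by simp [Fin.sum_univ_three, hw0]; module) 2
    simp at this
  have wf : polar Q w f = 0 := by simp [hw0, polar_add_left, polar_smul_left, f1, f2]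
  have q0 : Q (w + f) = Q w := by rw [Q_add, f3, wf, add_zero, add_zero]
  set W := Submodule.span K {u, v, w + f}
  have uW : u ∈ W := Submodule.subset_span (by simp)
  have vW : v ∈ W := Submodule.subset_span (by simp)
  have wW : w ∈ W := W.add_mem (W.smul_mem _ uW) (W.smul_mem _ vW)
  have fW : f ∈ W := (W.add_mem_iff_right wW).1 (Submodule.subset_span (by simp))
  have hf : ∀ x ∈ W, polar Q x f = 0 := mem_perp.1 ((le_perp_perp _) (Submodule.mem_span_singleton_self f)
    |> fun k => perp_anti (W' := perp Q (K ∙ f)) (Submodule.span_le.2 (by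
      rintro x (rfl | rfl | rfl) <;> refine mem_perp_span_singleton.2 ?_ <;> rw [polar_comm]
      exacts [f1, f2, by rw [polar_add_left, wf, polar_self', f3, mul_zero, add_zero]])) k)
  rw [q0] at qw
  obtain ⟨r, hr⟩ : ∃ r, refl Q u * refl Q v * refl Q w = refl Q r := ⟨_, H19.RC.refl_three qu qv qw⟩
  have rW : ∀ x ∈ W, refl Q r x ∈ W := fun x hx => by
    rw [← hr]; exact refl_mem_sub uW (refl_mem_sub vW (refl_mem_sub wW hx))
  have rf : refl Q r f = f := by
    rw [← hr, O.mul_apply, O.mul_apply, refl_apply_of_orth wf, refl_apply_of_orth f2,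
      refl_apply_of_orth f1]
  have g1 : ∀ x ∈ W, (refl Q u * refl Q v * refl Q (w + f)) x =
      refl Q r x - ((Q w)⁻¹ * polar Q w x) • f := fun x hx => by
    have : refl Q (w + f) x = refl Q w x - ((Q w)⁻¹ * polar Q w x) • f := by
      rw [refl_apply, refl_apply, q0, polar_add_left, polar_comm Q f, hf x hx]; module
    rw [← hr, O.mul_apply, this, map_sub, map_smul, O.mul_apply _ _ f, refl_apply_of_orth f2,
      refl_apply_of_orth f1]
    rfl
  have m : refl Q u * refl Q v * refl Q (w + f) ∈ reflGroup Q Φ :=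
    mul_mem (mul_mem (refl_mem_reflGroup hu) (refl_mem_reflGroup hv)) (refl_mem_reflGroup hw)
  have T1 : Tl Q Φ W f (-(Q w)⁻¹ • (w + refl Q r w)) := by
    refine ⟨W.smul_mem _ (W.add_mem wW (rW w wW)), _, mul_mem m m, fun x hx => ?_⟩
    rw [O.mul_apply, g1 x hx, map_sub, map_smul, g1 _ (rW x hx), g1 f fW, wf, rf, ← O.mul_apply,
      refl_mul_self, O.one_apply, polar_smul_left, polar_add_left Q w, O.polar_apply_left, refl_inv]
    module
  obtain ⟨b, b0, hb⟩ : ∃ b : K, b ≠ 0 ∧ Tl Q Φ W f (b • u) := by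
    by_contra! k
    have k1 : ∀ y, Tl Q Φ W f y → polar Q u y = 0 := fun y hy => by
      by_contra e
      exact k _ (mul_ne_zero (inv_ne_zero qu) e) (hy.proj fW hf hu uW)
    have a := k1 _ T1
    have b := k1 _ (T1.proj fW hf hv vW)
    rw [polar_smul_right, smul_eq_mul, mul_eq_zero, or_iff_left p0, mul_eq_zero,
      or_iff_right (inv_ne_zero qv)] at b
    rw [polar_smul_right, smul_eq_mul, mul_eq_zero, or_iff_right (neg_ne_zero.2 (inv_ne_zero qw)),
      ← hr, O.mul_apply, O.mul_apply, refl_apply_self qw, map_neg, map_neg, refl_apply v,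
      refl_apply u] at a b
    simp only [polar_add_right, polar_neg_right, polar_sub_right, polar_smul_right, polar_self',
      smul_eq_mul, polar_comm Q v u] at a b
    field_simp at a b
    have e : 2 * Q w = s * polar Q u w + t * polar Q v w := by
      rw [← polar_self']
      conv_lhs => rw [hw0, polar_add_left, polar_smul_left, polar_smul_left]
      rfl
    have e1 : polar Q v w = 0 := by
      refine (mul_eq_zero.1 (?_ : (4 * Q u * Q v - polar Q u v ^ 2) * _ = 0)).resolve_left D
      linear_combination 2 * b - polar Q u v * a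
    have e2 : polar Q u w = 0 := by
      refine (mul_eq_zero.1 (?_ : (2 * Q v) * _ = 0)).resolve_left (mul_ne_zero h2 qv)
      linear_combination a + polar Q u v * e1
    rw [e1, e2, mul_zero, mul_zero, add_zero] at e
    exact mul_ne_zero h2 qw e
  refine ⟨(b * (2 * Q u)) • f, smul_ne_zero (mul_ne_zero b0 (mul_ne_zero h2 qu)) f0,
    by rw [Q_smul, f3, mul_zero], by rw [polar_smul_right, f1, smul_zero], fun a ha => ?_⟩
  obtain ⟨-, g, g1, g2⟩ := (Subfield.closure_le (t := mulF fW hf Φ u)).2 (by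
    rintro _ (⟨x, ⟨x1, x2⟩, rfl⟩ | ⟨x, y, ⟨x1, x2⟩, ⟨y1, y2⟩, rfl⟩) <;> intro b hb
    · have := (hb.proj fW hf x1 x2).proj fW hf hu uW
      convert this using 2
      simp only [cc, polar_smul_right, smul_eq_mul, polar_comm Q x u]
      ring
    · have := ((hb.proj fW hf x1 x2).proj fW hf y1 y2).proj fW hf hu uW
      convert this using 2
      simp only [tau, polar_smul_right, smul_eq_mul, polar_comm Q x u, polar_comm Q y x,
        polar_comm Q u y]
      ring) ha b hb
  have := h.map g1 hu
  rwa [g2 u uW, polar_smul_left, polar_self', smul_eq_mul, mul_assoc, mul_smul] at this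

theorem cube_of_roots [Finite K] (h2 : (2 : K) ≠ 0) (h3 : (3 : K) = 0) (A : AddSubgroup K)
    (h1 : 1 ∈ A) {p : K[X]} (hp : p ≠ 0) (hd : p.natDegree ≤ 7) {c d : K} (d0 : d ≠ 0)
    (h : ∀ a ∈ A, p.eval (c + a * d) = 0) {a : K} (ha : a ∈ A) : a ^ 3 = a := by
  classical
  by_contra k
  have := Fintype.ofFinite K
  have : Fact (Nat.Prime 3) := ⟨by norm_num⟩
  have : CharP K 3 := (CharP.charP_iff_prime_eq_zero (by norm_num)).2 (by exact_mod_cast h3)
  obtain ⟨n, -, e⟩ := FiniteField.card K 3
  have d1 := AddSubgroup.card_addSubgroup_dvd_card A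
  rw [Nat.card_eq_fintype_card (α := K), e] at d1
  obtain ⟨i, -, hi⟩ := (Nat.dvd_prime_pow Nat.prime_three).1 d1
  have e1 : Nat.card A = (A : Set K).toFinset.card := by simp
  have l1 : ((A : Set K).toFinset.image fun a => c + a * d).card ≤ 7 :=
    (card_le_degree_of_subset_roots fun z hz => by
      obtain ⟨a, ha, rfl⟩ := Finset.mem_image.1 hz
      exact (mem_roots hp).2 (h a (by simpa using ha))).trans hd
  rw [Finset.card_image_of_injective _ fun x y e => mul_right_cancel₀ d0 (add_left_cancel e)] at l1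
  have l2 : ({a, 0, 1, -1} : Finset K) ⊆ (A : Set K).toFinset := by
    simp [Set.insert_subset_iff, ha, h1, A.zero_mem]
  have n1 : (1 : K) ≠ -1 := fun e => h2 (by linear_combination e)
  have a0 : a ≠ 0 := by rintro rfl; simp at k
  have a1 : a ≠ 1 := by rintro rfl; simp at k
  have a2 : a ≠ -1 := by rintro rfl; exact k (by ring)
  have l3 := Finset.card_le_card l2
  rw [Finset.card_insert_of_notMem (by simp [a0, a1, a2]), Finset.card_insert_of_notMem (by simp),
    Finset.card_pair n1, ← e1, hi] at l3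
  rw [← e1, hi] at l1
  rcases i with _ | _ | i
  · omega
  · omega
  · have := Nat.one_le_pow i 3 (by norm_num)
    rw [pow_succ, pow_succ] at l1
    omega

theorem line [Finite K] (h : RS Q Φ) (L : List3 Q Φ) : Line Q Φ := by
  intro u hu f f0 qf uf hf
  have qu := h.ne u hu
  have h2 := h.two
  have q : ∀ a : K, Q (u + a • f) = Q u := fun a => by
    rw [Q_add, Q_smul, qf, polar_smul_right, uf]; simp
  have pf : ∀ a : K, polar Q (u + a • f) f = 0 := fun a => by
    rw [polar_add_left, polar_smul_left, polar_self', uf, qf]; simp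
  have st : ∀ a b : K, u + a • f ∈ Φ → u + b • f ∈ Φ → u + (2 * a - b) • f ∈ Φ := fun a b ha hb => by
    convert h.neg (h.inv _ ha _ hb) using 1
    rw [refl_apply, q, polar_add_right, polar_smul_right, pf, polar_add_left, polar_smul_left,
      polar_comm Q f, uf, polar_self', smul_zero, smul_zero, add_zero, add_zero, mul_comm 2 (Q u),
      inv_mul_cancel_left₀ qu]
    module
  have m0 : u + (0 : K) • f ∈ Φ := by simpa using hu
  have m1 : u + (1 : K) • f ∈ Φ := by simpa using hf
  have ng : ∀ a : K, u + a • f ∈ Φ → u + (-a) • f ∈ Φ := fun a ha => by simpa using st 0 a m0 ha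
  obtain ⟨r, hr, be⟩ : ∃ r ∈ Φ, polar Q f r ≠ 0 := by
    by_contra! k
    rcases h.irr' (K ∙ f) fun v hv => .inr (mem_perp_span_singleton.2 (k v hv)) with e | e
    · exact f0 (Submodule.span_singleton_eq_bot.1 e)
    · obtain ⟨c, rfl⟩ := Submodule.mem_span_singleton.1 (e.ge (Submodule.mem_top (x := u)))
      exact qu (by rw [Q_smul, qf, mul_zero])
  have qr := h.ne r hr
  have c1 : ∀ a : K, cc Q (u + a • f) r = (polar Q u r + a * polar Q f r) ^ 2 / (Q u * Q r) :=
    fun a => by rw [cc, q, polar_add_left, polar_smul_left, smul_eq_mul]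
  have pu : polar Q u (u + f) = 2 * Q u := by rw [polar_add_right, uf, polar_self', add_zero]
  have qq : Q (u + f) = Q u := by simpa using q 1
  have c4 : cc Q u (u + f) = 4 := by rw [cc, pu, qq]; field_simp; norm_num
  have iu : ∀ a : K, u + a • f ∈ Φ → In3 (K := K) Φ u (u + f) r (u + a • f) := fun a ha =>
    ⟨ha, Submodule.mem_span_insert.2 ⟨1 - a, a • (u + f), Submodule.smul_mem _ _
      (Submodule.subset_span (by simp)), by module⟩⟩
  have ir : In3 (K := K) Φ u (u + f) r r := ⟨hr, Submodule.subset_span (by simp)⟩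
  have n1 : ¬ Par K u (u + f) := by
    rintro ⟨a, e⟩
    have e1 : f = (a - 1) • u := by rw [sub_smul, ← e]; module
    rw [e1, Q_smul, mul_eq_zero, or_iff_left qu, mul_self_eq_zero] at qf
    exact f0 (by rw [e1, qf, zero_smul])
  have n2 : ∀ a : K, ¬ Par K (u + a • f) r := by
    rintro a ⟨b, e⟩
    exact be (by rw [e, polar_comm, polar_smul_left, pf, smul_zero])
  have h4 : (4 : K) ≠ 0 := by rw [show (4 : K) = 2 * 2 by norm_num]; exact mul_ne_zero h2 h2
  have fin : (3 : K) = 0 → ∀ p : K[X], p ≠ 0 → p.natDegree ≤ 7 → (∀ a : K, u + a • f ∈ Φ →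
      p.eval (polar Q u r + a * polar Q f r) = 0) → ∀ a : K, u + a • f ∈ Φ → a ^ 3 = a :=
    fun h3 p p0 hp k a ha => cube_of_roots h2 h3
      { carrier := {a | u + a • f ∈ Φ}
        zero_mem' := m0
        neg_mem' := ng _
        add_mem' := fun {a b} ha hb => by
          have := ng _ (st a b ha hb)
          rwa [show -(2 * a - b) = a + b by linear_combination (-a) * h3] at this } m1 p0 hp be k ha
  have i0 := iu 0 m0
  have i1 := iu 1 m1
  rw [zero_smul, add_zero] at i0
  rw [one_smul] at i1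
  have D := mul_ne_zero qu qr
  rcases L u hu (u + f) hf r hr (by
      rw [dt, c4, cc, cc, tau, pu, qq, polar_add_left, polar_comm Q r u]
      intro e
      field_simp at e
      exact be (pow_eq_zero_iff two_ne_zero |>.1 (by linear_combination -e)))
    (by rw [pu]; exact mul_ne_zero h2 qu) (by
      by_contra! k
      exact be (by simpa [polar_add_left, k.1] using k.2)) with ⟨k, k1, k2⟩ | ⟨k, -⟩ | ⟨h5, k⟩
  · have k3 := fun a ha => c1 a ▸ k2 _ _ (iu a ha) ir
    have k4 : ∀ a : K, u + a • f ∈ Φ → 2 * a ^ 2 * (polar Q f r ^ 2 / (Q u * Q r)) ∈ k := fun a ha => by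
      convert sub_mem (sub_mem (add_mem (k3 a ha) (k3 _ (ng a ha))) (k3 0 m0)) (k3 0 m0) using 1
      ring
    have k5 : ∀ a : K, u + a • f ∈ Φ → a ^ 2 ∈ k := fun a ha => by
      convert div_mem (k4 a ha) (k4 1 m1) using 1
      field_simp
    refine .inl ⟨k, k1, fun a ha => ?_⟩
    convert add_mem (one_mem k) (div_mem (sub_mem (k5 a ha) (k5 _ (st 1 a m1 ha))) (ofNat_mem k 4))
      using 1
    field_simp
    ring
  · have h3 : (3 : K) = 0 := by
      rcases k _ _ i0 i1 with e | e | e | e
      exacts [absurd (c4 ▸ e) h4, by linear_combination e - c4,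
        absurd (by linear_combination e - c4) h2, absurd e n1]
    refine .inr ⟨h3, fin h3 (X * (X ^ 2 - C (Q u * Q r)) * (X ^ 2 - C (2 * (Q u * Q r))))
      (Monic.ne_zero (by monicity!)) (by compute_degree!) fun a ha => ?_⟩
    simp only [eval_mul, eval_sub, eval_pow, eval_X, eval_C]
    rcases k _ _ (iu a ha) ir with e | e | e | e
    · rw [c1, div_eq_iff D, zero_mul, pow_eq_zero_iff two_ne_zero] at e
      rw [e, zero_mul, zero_mul]
    · rw [c1, div_eq_iff D] at e
      rw [e, one_mul, sub_self, mul_zero, zero_mul]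
    · rw [c1, div_eq_iff D] at e
      rw [e, sub_self, mul_zero]
    · exact absurd e (n2 a)
  · have h3 : (3 : K) = 0 := by
      rcases k _ _ i0 i1 with e | e | e | e
      exacts [absurd (c4 ▸ e) h4, by linear_combination e - c4,
        absurd (by rw [c4, Gold] at e; linear_combination e) h5, absurd e n1]
    refine .inr ⟨h3, fin h3 (X * (X ^ 2 - C (Q u * Q r)) * (X ^ 4 + C ((Q u * Q r) ^ 2)))
      (Monic.ne_zero (by monicity!)) (by compute_degree!) fun a ha => ?_⟩
    simp only [eval_mul, eval_sub, eval_add, eval_pow, eval_X, eval_C]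
    rcases k _ _ (iu a ha) ir with e | e | e | e
    · rw [c1, div_eq_iff D, zero_mul, pow_eq_zero_iff two_ne_zero] at e
      rw [e, zero_mul, zero_mul]
    · rw [c1, div_eq_iff D] at e
      rw [e, one_mul, sub_self, mul_zero, zero_mul]
    · rw [c1, Gold, h3, zero_mul, sub_zero] at e
      field_simp at e
      refine mul_eq_zero_of_right _ ?_
      linear_combination e
    · exact absurd e (n2 a)

theorem jobDeg : JobDeg.{u} := fun _ _ _ _ _ _ _ _ _ h => ⟨deg h, line h⟩

end H19.O7
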