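/- Tower O7, slot QF: facts on finite quadratic spaces. -/
import Cfsg.Agent.H31.O7A
import Cfsg.Agent.H60.NonDeg

set_option autoImplicit false

namespace H19.O7

open H56 QuadraticMap Module H19.RC

universe u

variable {K V : Type*} [Field K] [Finite K] [AddCommGroup V] [Module K V] [FiniteDimensional K V]
  {Q : QuadraticForm K V}

theorem exists_sq_ne (h : 5 ≤ Nat.card K) {c : K} (hc : c ≠ 0) (m : K) :
    ∃ t : K, t ≠ 0 ∧ t * t * c ≠ m := by
  classical
  by_contra! k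
  have := Fintype.ofFinite K
  have h1 : (Finset.univ : Finset K) ⊆ {0, 1, -1} := fun t _ => by
    by_cases t0 : t = 0
    · simp [t0]
    · have := mul_right_cancel₀ hc ((k t t0).trans (k 1 one_ne_zero).symm)
      rw [one_mul, mul_self_eq_one_iff] at this
      simp [this]
  have := (Finset.card_le_card h1).trans Finset.card_le_three
  rw [Finset.card_univ, ← Nat.card_eq_fintype_card] at this
  omega

omit [Finite K] in
theorem rank_perp (hQ : Q.polarBilin.Nondegenerate) {y : V} (hy : y ≠ 0) :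
    finrank K (perp Q (K ∙ y)) + 1 = finrank K V := by
  rw [← finrank_perp hQ (K ∙ y), finrank_span_singleton hy]

theorem exists_perp (h2 : (2 : K) ≠ 0) (hQ : Q.polarBilin.Nondegenerate) (h3 : 3 ≤ finrank K V)
    {y : V} (hy : Q y ≠ 0) (s : K) : ∃ x, polar Q y x = 0 ∧ Q x = s := by
  by_cases s0 : s = 0
  · exact ⟨0, by simp, by simp [s0]⟩
  have := rank_perp hQ (y := y) (by rintro rfl; simp at hy)
  obtain ⟨x, a, b⟩ := H60.Nondeg.exists_Q_eq (Q := Q) (U := perp Q (K ∙ y)) (fun x hx h => by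
    obtain ⟨c, rfl⟩ := Submodule.mem_span_singleton.1
      ((perp_perp hQ (K ∙ y)).le (mem_perp.2 h))
    have := mem_perp_span_singleton.1 hx
    rw [polar_smul_right, polar_self', smul_eq_mul] at this
    rw [(mul_eq_zero.1 this).resolve_right (mul_ne_zero h2 hy), zero_smul]) (by omega) s0
  exact ⟨x, mem_perp_span_singleton.1 a, b⟩

omit [Finite K] [FiniteDimensional K V] in
theorem exists_of_sing (hQ : Q.polarBilin.Nondegenerate) {y : V} (y0 : y ≠ 0) (hy : Q y = 0)
    (n : K) {r : K} (hr : r ≠ 0) : ∃ v, Q v = n ∧ polar Q v y = r := by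
  obtain ⟨f, -, a, b⟩ := (H60.nondeg_top hQ).exists_partner trivial y0 hy
  have H : IsHyp Q y f := ⟨hy, a, b⟩
  refine ⟨(n / r) • y + r • f, by rw [H.Q_comb, div_mul_cancel₀ _ hr], ?_⟩
  simp [polar_add_left, polar_smul_left, H.ee, H.fe]

theorem span_eq (h2 : (2 : K) ≠ 0) (hQ : Q.polarBilin.Nondegenerate)
    (h : 5 ≤ Nat.card K ∧ 2 ≤ finrank K V ∨ 3 ≤ finrank K V) {n : K} (hn : n ≠ 0) :
    Submodule.span K {x | Q x = n} = ⊤ := by
  have key : ∀ z, (∀ x, Q x = n → polar Q x z = 0) → z = 0 := fun z hz => by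
    by_contra z0
    by_cases c : Q z = 0
    · obtain ⟨v, a, b⟩ := exists_of_sing hQ z0 c n one_ne_zero
      exact one_ne_zero (b.symm.trans (hz v a))
    rcases h with ⟨h, d⟩ | h
    · obtain ⟨x, hx⟩ := H58.exists_Q_eq hQ d n
      obtain ⟨t, t0, ht⟩ := exists_sq_ne h c (-n)
      have e := hz x hx
      have a : Q (x + t • z) = n + t * t * Q z := by
        rw [Q_add, Q_smul, polar_smul_right, e, hx, smul_zero, add_zero]
      have b := hz (refl Q (x + t • z) x) (by rw [O.map_Q, hx])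
      rw [refl_apply, polar_sub_left, polar_smul_left, e, a, polar_add_left, polar_add_left,
        polar_smul_left, polar_smul_left,
        polar_comm Q z x, e, polar_self', polar_self', hx] at b
      have : n + t * t * Q z ≠ 0 := fun k => ht (by linear_combination k)
      simp [this, h2, hn, t0, c] at b
    · obtain ⟨x, a, b⟩ := exists_perp h2 hQ h c (n - Q z)
      have := hz (z + x) (by rw [Q_add, a, b]; ring)
      rw [polar_add_left, polar_comm Q x z, a, polar_self', add_zero] at this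
      exact mul_ne_zero h2 c this
  have := finrank_perp hQ (Submodule.span K {x | Q x = n})
  rw [show perp Q (Submodule.span K {x | Q x = n}) = ⊥ from
    eq_bot_iff.2 fun z hz => key z (mem_perp_span.1 hz), finrank_bot, zero_add] at this
  exact Submodule.eq_top_of_finrank_eq this

theorem exists_vec (h2 : (2 : K) ≠ 0) (hQ : Q.polarBilin.Nondegenerate)
    (h : 5 ≤ Nat.card K ∧ 3 ≤ finrank K V ∨ 5 ≤ finrank K V) (y : V) (n r : K) (y0 : y ≠ 0)
    (hn : n ≠ 0) (hr : r ≠ 0) : (∃ v, Q v = n ∧ polar Q v y = r ∧ v ≠ y) ∨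
      (5 ≤ Nat.card K ∧ Q y = n ∧ r = 2 * n) := by
  by_cases c : Q y = 0
  · obtain ⟨v, a, b⟩ := exists_of_sing hQ y0 c n hr
    exact .inl ⟨v, a, b, fun e => hn (by rw [← a, e, c])⟩
  by_cases e : Q y = n ∧ r = 2 * n
  · refine h.symm.imp (fun h => ?_) fun h => ⟨h.1, e⟩
    have := rank_perp hQ y0
    obtain ⟨x, a, x0, b⟩ := H60.exists_sing (Q := Q) (perp Q (K ∙ y)) (by omega)
    have a := mem_perp_span_singleton.1 a
    refine ⟨y + x, by rw [Q_add, a, b, e.1]; ring, ?_, by simpa using x0⟩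
    rw [polar_add_left, polar_comm Q x y, a, polar_self', add_zero, e.1, e.2]
  · obtain ⟨x, a, b⟩ := exists_perp h2 hQ (by omega) c (n - r / (2 * Q y) * (r / (2 * Q y)) * Q y)
    have e1 : Q ((r / (2 * Q y)) • y + x) = n := by
      rw [Q_add, Q_smul, polar_smul_left, a, b, smul_zero]; ring
    have e2 : polar Q ((r / (2 * Q y)) • y + x) y = r := by
      rw [polar_add_left, polar_comm Q x y, a, polar_smul_left, polar_self', add_zero, smul_eq_mul,
        div_mul_cancel₀ _ (mul_ne_zero h2 c)]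
    refine .inl ⟨_, e1, e2, fun k => e ?_⟩
    rw [k] at e1 e2
    exact ⟨e1, by rw [← e2, polar_self', e1]⟩

theorem exists_move (h2 : (2 : K) ≠ 0) (hQ : Q.polarBilin.Nondegenerate)
    (h : 5 ≤ Nat.card K ∧ 3 ≤ finrank K V ∨ 5 ≤ finrank K V) (x y : V) (x0 : x ≠ 0) (y0 : y ≠ 0)
    (e : Q x = Q y) (hx : Q x ≠ 0 ∨ 4 ≤ finrank K V) :
    ∃ g ∈ reflGroup Q {v | ∃ t, t ≠ 0 ∧ Q v = t ^ 2}, g x = y := by
  have hn : (∃ k : K, k ≠ 0 ∧ k * k ≠ 4) ∨ finrank K V ≤ 2 ∨ 5 ≤ finrank K V := by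
    refine h.imp (fun h => ?_) .inr
    simpa only [mul_one] using exists_sq_ne h.1 one_ne_zero 4
  have hi := index_RG h2 hQ (by omega) hn one_ne_zero
  have le : RG Q 1 ≤ reflGroup Q {v | ∃ t, t ≠ 0 ∧ Q v = t ^ 2} := (Subgroup.closure_le _).2 (by
    rintro _ ⟨v, a, b, rfl⟩
    obtain ⟨t, t0, ht⟩ := (sqcl_eq_iff one_ne_zero a).1 b.symm
    exact refl_mem_reflGroup ⟨t, t0, by rw [ht]; ring⟩)
  obtain ⟨d, d0, hd⟩ : ∃ d : K, d ≠ 0 ∧ sqcl d ≠ 1 := by
    have : Nontrivial (SqCl K) := Finite.one_lt_card_iff_nontrivial.1 (by rw [card_SqCl h2]; omega)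
    obtain ⟨x, hx⟩ := exists_ne (1 : SqCl K)
    obtain ⟨a, a0, rfl⟩ := sqcl_surjective x
    exact ⟨a, a0, hx⟩
  obtain ⟨w, w1, rfl⟩ : ∃ w, polar Q x w = 0 ∧ Q w = d := by
    by_cases c : Q x = 0
    · obtain ⟨w, -, a⟩ := H60.exists_Q_eq_of_four (H60.nondeg_top hQ)
        (by rw [finrank_top]; exact hx.resolve_left (not_not.2 c)) trivial x0 c d0
      exact ⟨w, a⟩
    · exact exists_perp h2 hQ (by omega) c d
  have n : refl Q w ∉ RG Q 1 := fun m => by
    rw [eq_top_of_refl_mem hQ (not_isExc_of_two_ne h2) (H := RG Q 1) fun v hv => ?_,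
      Subgroup.index_top] at hi
    · omega
    by_cases k : sqcl (Q v) = 1
    · exact refl_mem hv (k.trans sqcl_one.symm)
    · exact (Subgroup.mul_mem_cancel_right _ m).1
        (mul_mem_RG h2 hQ hn one_ne_zero hv d0 (SqCl.eq_of_ne_one k hd))
  obtain ⟨g, hg⟩ := witt_one hQ x0 y0 e.symm
  by_cases m : g ∈ RG Q 1
  · exact ⟨g, le m, hg⟩
  · refine ⟨g * refl Q w, le ((Subgroup.mul_mem_iff_of_index_two hi).2 (iff_of_false m n)), ?_⟩
    rw [O.mul_apply, refl_apply_of_orth (by rw [polar_comm, w1]), hg]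

theorem jobQF : H31.O7.JobQF.{u} := fun _ _ _ _ _ _ _ _ h2 hQ h =>
  ⟨fun _ hn => span_eq h2 hQ (h.imp_right (le_trans (by norm_num))) hn,
    fun k => ⟨exists_vec h2 hQ k, exists_move h2 hQ k⟩⟩

end H19.O7
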