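/- `Ω(Q)` lies in no member of a geometric class (dimension at least 7). -/
import Cfsg.Agent.H25.RowSp
import Cfsg.Agent.H60.Bridge
import Cfsg.Agent.H19.AschOdd

set_option autoImplicit false

namespace H19
open Cfsg Cfsg.Geo Matrix QuadraticMap H56 H60 Module Submodule
open scoped MatrixGroups

variable {ι : Type} [Fintype ι] [DecidableEq ι] {F : Type*} [Field F]
  {Q : QuadraticForm F (ι → F)}

theorem toGL_mem_omega {g : O Q} (hg : g ∈ commutator (O Q)) : toGL Q g ∈ omegaGL ⇑Q :=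
  omegaGL_eq (Q := Q) ▸ Subgroup.mem_map_of_mem _ hg

theorem omega_le_isometryGroup (q : (ι → F) → F) : omegaGL q ≤ isometryGroup F q :=
  Subgroup.map_subtype_le _

theorem exists_toGL {g : GL ι F} (hg : g ∈ isometryGroup F ⇑Q) : ∃ k : O Q, toGL Q k = g :=
  ⟨toO Q rfl ⟨g, hg⟩, by simp [toGL]⟩

theorem Q_mulVec {g : GL ι F} (hg : g ∈ isometryGroup F ⇑Q) (v : ι → F) :
    Q ((g : Matrix ι ι F) *ᵥ v) = Q v := H56.mem_isometryGroup.1 hg v

theorem polar_mulVec {g : GL ι F} (hg : g ∈ isometryGroup F ⇑Q) (u v : ι → F) :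
    polar Q ((g : Matrix ι ι F) *ᵥ u) ((g : Matrix ι ι F) *ᵥ v) = polar Q u v := by
  simp only [polar, ← mulVec_add, Q_mulVec hg]

omit [DecidableEq ι] in
theorem le_finrank_ort (u : ι → F) : Fintype.card ι ≤ finrank F (ort Q u) + 1 := by
  have := finrank_le_inf_ort (Q := Q) ⊤ u
  rwa [top_inf_eq, finrank_top, Module.finrank_fintype_fun_eq_card] at this

variable [Finite F] (hQ : Q.polarBilin.Nondegenerate)
include hQ

omit [DecidableEq ι] in
theorem hasHyp_of_finrank {W : Submodule F (ι → F)} (h : Fintype.card ι + 3 ≤ 2 * finrank F W) :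
    HasHyp Q W := (nondeg_top hQ).hasHyp_of_le hQ le_top (by simpa using h)

theorem add_sing_mem (h5 : 5 ≤ Fintype.card ι) {M : Subgroup (GL ι F)} (hM : omegaGL ⇑Q ≤ M)
    {S : Set (ι → F)} (hS : H25.Pres M S) (h0 : (0 : ι → F) ∈ S) {u e : ι → F} (hu : u ∈ S)
    (hu0 : u ≠ 0) (he : Q e = 0) (hue : polar Q u e = 0) : u + e ∈ S := by
  by_cases h : u + e = 0
  · exact h ▸ h0
  have h5' : 5 ≤ finrank F (ι → F) := by simpa using h5
  obtain ⟨g, hg, hgu⟩ := exists_EOin_apply_eq hQ (nondeg_top hQ) (by simpa using h5) trivial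
    trivial hu0 h (by rw [H56.Q_add, he, hue]; ring)
  have := hS _ (hM (toGL_mem_omega (EOin_le_commutator hQ h5' _ hg))) u hu
  rwa [toGL_mulVec, hgu] at this

theorem omega_not_le_subspace (h5 : 5 ≤ Fintype.card ι) {W : Submodule F (ι → F)} (h0 : W ≠ ⊥)
    (h1 : W ≠ ⊤) : ¬ omegaGL ⇑Q ≤ subspaceStabilizer W := fun hM => by
  have key : ∀ u ∈ W, u ≠ 0 → ort Q u ≤ W := fun u hu hu0 =>
    (hasHyp_of_finrank hQ (by have := le_finrank_ort (Q := Q) u; omega)).le_of_sing
      fun e he hQe => (W.add_mem_iff_right hu).1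
        (add_sing_mem hQ h5 hM (H25.pres_subspace W) W.zero_mem hu hu0 hQe (mem_ort.1 he))
  obtain ⟨u, hu, hu0⟩ := Submodule.exists_mem_ne_zero_of_ne_bot h0
  obtain ⟨x, hx⟩ : ∃ x, x ∉ W := by
    by_contra! hc; exact h1 (eq_top_iff.2 fun x _ => hc x)
  have h2 := Submodule.finrank_mono (key u hu hu0)
  obtain ⟨v, hv0, hv, hvx⟩ := H25.exists_mem_inf_of_finrank (U := W) (W := ort Q x) (by
    have := le_finrank_ort (Q := Q) u; have := le_finrank_ort (Q := Q) x; omega)
  exact hx (key v hv hv0 (mem_ort'.2 (mem_ort.1 hvx)))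

theorem omega_not_le_decomp (h7 : 7 ≤ Fintype.card ι) {t k : ℕ}
    {D : Fin t → Submodule F (ι → F)} (hD : IsMDecomposition k D) :
    ¬ omegaGL ⇑Q ≤ decompositionStabilizer D := fun hM => by
  have ht := hD.two_le
  let i : Fin t := ⟨0, by omega⟩
  have hk : 2 * k ≤ Fintype.card ι := by
    rw [H25.card_eq_of_decomp hD]; exact Nat.mul_le_mul_right k ht
  obtain ⟨u, hu, hu0⟩ := H25.exists_ne_zero_mem_part hD i
  have key : ∀ e, polar Q u e = 0 → Q e = 0 → e ∉ D i → u + e ∈ ⨆ (j) (_ : j ≠ i), D j := by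
    intro e h1 h2 h3
    obtain ⟨j, hj⟩ := Set.mem_iUnion.1 (add_sing_mem hQ (by omega) hM (H25.pres_decomp D)
      (Set.mem_iUnion.2 ⟨i, (D i).zero_mem⟩) (Set.mem_iUnion.2 ⟨i, hu⟩) hu0 h2 h1)
    refine (le_iSup₂_of_le j ?_ le_rfl : D j ≤ _) hj
    rintro rfl
    exact h3 (((D i).add_mem_iff_right hu).1 hj)
  have h1 := le_finrank_ort (Q := Q) u
  obtain ⟨a, ha, hQa, ha'⟩ := (hasHyp_of_finrank hQ (W := ort Q u) (by omega)).exists_sing_not_mem
    (T := D i) fun h => by have := Submodule.finrank_mono h; rw [hD.finrank_eq] at this; omega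
  have h2 := finrank_le_inf_ort (Q := Q) (ort Q u) a
  obtain ⟨b, ⟨hb, hab⟩, hQb, hb'⟩ := (hasHyp_of_finrank hQ (W := ort Q u ⊓ ort Q a)
    (by omega)).exists_sing_not_mem (T := D i ⊔ span F {a}) fun h => by
      have := (Submodule.finrank_mono h).trans (finrank_sup_le _ _)
      have := finrank_span_singleton_le (F := F) a
      rw [hD.finrank_eq] at *; omega
  have c1 := key a (mem_ort.1 ha) hQa ha'
  have c2 := key b (mem_ort.1 hb) hQb fun h => hb' (mem_sup_left h)
  have c3 := key (a + b) (by rw [polar_add_right, mem_ort.1 ha, mem_ort.1 hb, add_zero])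
    (by rw [H56.Q_add, hQa, hQb, mem_ort.1 hab]; ring) fun h => hb' (by
      simpa using sub_mem (mem_sup_left h) (mem_sup_right (mem_span_singleton_self a)))
  have := sub_mem (add_mem c1 c2) c3
  rw [show u + a + (u + b) - (u + (a + b)) = u by abel] at this
  exact hu0 (Submodule.disjoint_def.1 (hD.indep i) u hu this)

theorem omega_not_le_subfield [Fintype F] (h5 : 5 ≤ Fintype.card ι) {F₀ : Subfield F} {r : ℕ}
    (hr : r.Prime) (hc : Fintype.card F = Nat.card F₀ ^ r) (P : GL ι F) :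
    ¬ omegaGL ⇑Q ≤ subfieldSubgroup F₀ P := fun hM => by
  obtain ⟨i⟩ : Nonempty ι := Fintype.card_pos_iff.1 (by omega)
  let φ : (ι → F) →ₗ[F] F :=
    (LinearMap.proj i).comp (Matrix.toLin' ((P⁻¹ : GL ι F) : Matrix ι ι F))
  let u := (P : Matrix ι ι F) *ᵥ Pi.single i 1
  have h1 := le_finrank_ort (Q := Q) u
  have h2 := finrank_le_inf_ker (ort Q u) φ
  obtain ⟨e, ⟨he, he'⟩, he0, hQe⟩ := exists_sing (Q := Q) (ort Q u ⊓ LinearMap.ker φ) (by omega)
  obtain ⟨y, rfl⟩ : ∃ y, e = (P : Matrix ι ι F) *ᵥ y := ⟨_, (mulVec_inv_mulVec P e).symm⟩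
  have hy : y i = 0 := by simpa [φ] using he'
  obtain ⟨j, hj⟩ : ∃ j, y j ≠ 0 := Function.ne_iff.1 fun h : y = 0 => he0 (by simp [h])
  have hij : j ≠ i := fun h => hj (h ▸ hy)
  refine H25.ne_top_of_card_eq_pow hr hc (eq_top_iff.2 fun c _ => ?_)
  obtain ⟨d, w, hw, h⟩ := add_sing_mem hQ h5 hM (H25.pres_subfield F₀ P)
    ⟨0, 0, fun _ => zero_mem _, by simp⟩ (u := u) (e := (c / y j) • (P : Matrix ι ι F) *ᵥ y)
    ⟨1, Pi.single i 1, fun l => by by_cases h : l = i <;> simp [h], by simp [u]⟩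
    (fun h => by simpa using gl_mulVec_eq_zero h) (by rw [H56.Q_smul, hQe, mul_zero])
    (by rw [polar_smul_right, mem_ort.1 he, smul_zero])
  have h3 := congrArg (fun v => ((P⁻¹ : GL ι F) : Matrix ι ι F) *ᵥ v) h
  simp only [u, mulVec_add, mulVec_smul, inv_mulVec_mulVec] at h3
  have a1 := congrFun h3 i
  have a2 := congrFun h3 j
  simp only [Pi.add_apply, Pi.smul_apply, smul_eq_mul, hy, Pi.single_eq_same,
    Pi.single_eq_of_ne hij, div_mul_cancel₀ _ hj] at a1 a2
  have a3 : w i ≠ 0 := fun h => by simp [h] at a1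
  rw [show c = w j / w i by field_simp; linear_combination w i * a2 - w j * a1]
  exact F₀.div_mem (hw j) (hw i)

theorem omega_not_le_wreath (h2 : (2 : F) ≠ 0) (e : ι ≃ (Fin 2 → Fin 3)) (P : GL ι F) :
    ¬ omegaGL ⇑Q ≤ tensorWreathSubgroup 3 2 e P := fun hM => by
  have hn : Fintype.card ι = 9 := H25.card_eq_of_equiv_fun e
  let u := trV e P (Pi.single ![0, 0] 1)
  have hu : u = H25.pureT e P fun _ => Pi.single 0 1 := by
    refine congrArg (trV e P) (funext fun a => ?_)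
    by_cases h : a = ![0, 0]
    · simp [h]
    · have : a 0 ≠ 0 ∨ a 1 ≠ 0 := by revert a; decide
      rcases this with h' | h' <;> simp [h, h']
  have key : ∀ x : (Fin 2 → Fin 3) → F, trV e P x ∈ ort Q u → x ![1, 1] = 0 ∧ x ![2, 2] = 0 := by
    intro x hx
    let φ : (Fin 2 → Fin 3) → (ι → F) →ₗ[F] F := fun a =>
      (LinearMap.proj a).comp (trV e P).symm.toLinearMap
    have : ort Q u ≤ LinearMap.ker (φ ![1, 1]) ⊓ LinearMap.ker (φ ![2, 2]) := by
      refine (hasHyp_of_finrank hQ (by have := le_finrank_ort (Q := Q) u; omega)).le_of_sing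
        fun v hv hQv => ?_
      obtain ⟨y, rfl⟩ := (trV e P).surjective v
      have k : ∀ c : F, ∃ z : Fin 2 → Fin 3 → F,
          Pi.single ![0, 0] 1 + c • y = fun a : Fin 2 → Fin 3 => ∏ i, z i (a i) := fun c => by
        obtain ⟨z, hz⟩ := add_sing_mem hQ (by omega) hM (H25.pres_wreath e P)
          ⟨0, ((trV e P).map_eq_zero_iff.2 (funext fun _ => by simp)).symm⟩ (u := u) (e := c • trV e P y) ⟨_, hu⟩
          (by simp [u]) (by rw [H56.Q_smul, hQv, mul_zero])
          (by rw [polar_smul_right, mem_ort.1 hv, smul_zero])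
        exact ⟨z, (trV e P).injective (by rw [map_add, map_smul]; exact hz)⟩
      have k2 : ∀ (j : Fin 3), j ≠ 0 → ∀ c : F, (1 + c * y ![0, 0]) * (c * y ![j, j]) =
          c * y ![0, j] * (c * y ![j, 0]) := fun j hj c => by
        obtain ⟨z, hz⟩ := k c
        have b1 := congrFun hz ![0, 0]
        have b2 := congrFun hz ![j, j]
        have b3 := congrFun hz ![0, j]
        have b4 := congrFun hz ![j, 0]
        simp [hj] at b1 b2 b3 b4
        rw [b1, b2, b3, b4]; ring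
      have k3 : ∀ (j : Fin 3), j ≠ 0 → y ![j, j] = 0 := fun j hj =>
        mul_left_cancel₀ h2 (by linear_combination k2 j hj 1 - k2 j hj (-1))
      exact ⟨by simpa [φ] using k3 1 (by decide), by simpa [φ] using k3 2 (by decide)⟩
    simpa [φ] using this hx
  by_cases h : polar Q u (trV e P (Pi.single ![1, 1] 1)) = 0
  · simpa using (key _ (mem_ort.2 h)).1
  · refine h ?_
    have := (key (polar Q u (trV e P (Pi.single ![2, 2] 1)) • Pi.single ![1, 1] 1 -
      polar Q u (trV e P (Pi.single ![1, 1] 1)) • Pi.single ![2, 2] 1) (by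
        simp [mem_ort, mul_comm])).2
    rw [Pi.sub_apply, Pi.smul_apply, Pi.smul_apply, Pi.single_eq_of_ne (by decide)] at this
    simpa using this

theorem omega_small (h5 : 5 ≤ Fintype.card ι) : H25.Small (omegaGL ⇑Q) 2 := by
  have h5' : 5 ≤ finrank F (ι → F) := by simpa using h5
  obtain ⟨u, -, hu0, hu⟩ := exists_sing (Q := Q) ⊤ (by simp; omega)
  refine ⟨u, hu0, {t | ∃ w, polar Q u w = 0 ∧ t = toGL Q (eich Q u w)}, ?_, fun k hk => ?_⟩
  · rintro _ ⟨w, -, rfl⟩
    refine ⟨toGL_mem_omega (eich_mem_commutator hQ h5' u w), H25.fixCodim_of_finrank_range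
      (span F {u, w}) (finrank_span_pair_le u w) fun v => ?_⟩
    rw [toGL_mulVec]
    exact eich_sub_mem (subset_span (by simp)) (subset_span (by simp)) v
  obtain ⟨w, hw, hw'⟩ := exists_mem_not_mem_of_finrank_lt (A := span F {u, k *ᵥ u}) (B := ort Q u)
    (by have := finrank_span_pair_le (F := F) u (k *ᵥ u); have := le_finrank_ort (Q := Q) u; omega)
  obtain ⟨x, hx, hx'⟩ : ∃ x, polar Q u x = 0 ∧ polar Q w x ≠ 0 := by
    by_contra! hc
    obtain ⟨c, rfl⟩ := exists_smul_of_orth hQ hc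
    exact hw' (smul_mem _ _ (subset_span (by simp)))
  have h1 := congrArg (fun a => a *ᵥ x) (hk _ ⟨w, mem_ort.1 hw, rfl⟩)
  simp only [← mulVec_mulVec, toGL_mulVec, eich_apply hu (mem_ort.1 hw), hx, mulVec_add,
    mulVec_smul, mul_zero, zero_smul, sub_zero] at h1
  have h2 : polar Q u (k *ᵥ x) = 0 := by
    by_contra h
    refine hw' ((smul_mem_iff _ h).1 ?_)
    rw [show polar Q u (k *ᵥ x) • w = (polar Q w (k *ᵥ x) - Q w * polar Q u (k *ᵥ x)) • u -
      polar Q w x • k *ᵥ u by linear_combination (norm := module) -h1]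
    exact sub_mem (smul_mem _ _ (subset_span (by simp))) (smul_mem _ _ (subset_span (by simp)))
  refine ⟨polar Q w (k *ᵥ x) / polar Q w x, smul_right_injective _ hx' ?_⟩
  simp only [h2, zero_smul, sub_zero, mul_zero, add_right_inj] at h1
  simp only [smul_smul, mul_div_cancel₀ _ hx', h1]

end H19
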