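/- The type of a quadratic form carrying a geometric structure. -/
import Cfsg.Agent.H19.ORowProper
import Cfsg.Agent.H60.Types
import Cfsg.Agent.H60.NonMax1
import Cfsg.Agent.H60.SubfMat
import Cfsg.Agent.H58.QDisc
import Cfsg.Agent.H56.OmegaFin

set_option autoImplicit false

namespace H19
open Cfsg Cfsg.Geo Matrix QuadraticMap H56 H60 Module Submodule
open scoped MatrixGroups Kronecker commutatorElement

variable {ι : Type} [Fintype ι] {F : Type*} [Field F] {Q : QuadraticForm F (ι → F)}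

omit [Fintype ι] in
theorem isPlusTypeOn_iff {W : Submodule F (ι → F)} :
    IsPlusTypeOn ⇑Q W ↔ H58.IsPlus (Q.restrict W) := by
  constructor
  · rintro ⟨U, h1, h2, h3⟩
    exact ⟨U.comap W.subtype, by rw [(comapSubtypeEquivOfLe h1).finrank_eq, h3],
      fun u hu => h2 u hu⟩
  · rintro ⟨U, h1, h2⟩
    exact ⟨U.map W.subtype, map_subtype_le _ _, by rintro _ ⟨u, hu, rfl⟩; exact h2 u hu,
      by rw [finrank_map_subtype_eq, h1]⟩

omit [Fintype ι] in
theorem isPlusTypeOn_top : IsPlusTypeOn ⇑Q ⊤ ↔ H58.IsPlus Q :=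
  exists_congr fun U => by simp [IsTotallySingularQuad, eq_comm, and_comm]

theorem plus_top_of {U : Submodule F (ι → F)} (h1 : ∀ u ∈ U, Q u = 0)
    (h2 : 2 * finrank F U = Fintype.card ι) : IsPlusTypeOn ⇑Q ⊤ := ⟨U, le_top, h1, by simp [h2]⟩

omit [Fintype ι] in
theorem IsoFor.plus_iff {W W' : Submodule F (ι → F)} (h : AreIsometricFor ⇑Q W W') :
    IsPlusTypeOn ⇑Q W' ↔ IsPlusTypeOn ⇑Q W := by
  obtain ⟨e, he⟩ := h
  rw [isPlusTypeOn_iff, isPlusTypeOn_iff]
  exact H58.isPlus_congr e he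

theorem isometric_of_type [Finite F] {W W' : Submodule F (ι → F)} (hW : Nondeg Q W)
    (hW' : Nondeg Q W') (hd : finrank F W = finrank F W') (hev : Even (finrank F W))
    (h : IsPlusTypeOn ⇑Q W ↔ IsPlusTypeOn ⇑Q W') : AreIsometricFor ⇑Q W W' :=
  H58.exists_equiv_of_isPlus_iff hW.restrict hW'.restrict hd hev
    (by rwa [← isPlusTypeOn_iff, ← isPlusTypeOn_iff])

omit [Fintype ι] in
theorem nondeg_sup {A B : Submodule F (ι → F)} (hA : Nondeg Q A) (hB : Nondeg Q B)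
    (h : B ≤ perp Q A) : Nondeg Q (A ⊔ B) := fun x hx hy => by
  obtain ⟨a, ha, b, hb, rfl⟩ := mem_sup.1 hx
  rw [hA a ha fun y hy' => by simpa [mem_perp.1 (h hb) y hy'] using hy y (mem_sup_left hy'),
    hB b hb fun y hy' => by simpa [mem_perp'.1 (h hy') a ha] using hy y (mem_sup_right hy'),
    add_zero]

theorem ts_sup {A U U' : Submodule F (ι → F)} (hA : Nondeg Q A) (h : U ≤ A) (h' : U' ≤ perp Q A)
    (hU : ∀ u ∈ U, Q u = 0) (hU' : ∀ u ∈ U', Q u = 0) : (∀ u ∈ U ⊔ U', Q u = 0) ∧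
      finrank F ↥(U ⊔ U') = finrank F U + finrank F U' := by
  refine ⟨H58.singular_sup hU hU' (h'.trans (perp_anti h)), ?_⟩
  have := finrank_sup_add_finrank_inf_eq U U'
  rwa [le_bot_iff.1 ((inf_le_inf h h').trans hA.inf_perp.le), finrank_bot, add_zero] at this

variable (hQ : Q.polarBilin.Nondegenerate)
include hQ

theorem finrank_perp_card (W : Submodule F (ι → F)) :
    finrank F (perp Q W) + finrank F W = Fintype.card ι := by simpa using finrank_perp hQ W

theorem exists_img_of_isometric {W W' : Submodule F (ι → F)} (h : AreIsometricFor ⇑Q W W') :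
    ∃ g : O Q, img g W = W' := by
  obtain ⟨e, he⟩ := h
  obtain ⟨g, hg⟩ := witt_sub hQ W (W'.subtype ∘ₗ e.toLinearMap) he
    (W'.injective_subtype.comp e.injective)
  refine ⟨g, eq_of_le_of_finrank_eq ?_ (by rw [finrank_img, e.finrank_eq])⟩
  rintro _ ⟨w, hw, rfl⟩
  exact (hg ⟨w, hw⟩).symm ▸ (e ⟨w, hw⟩).2

theorem plus_top_of_perp {W : Submodule F (ι → F)} (hW : Nondeg Q W) (h : IsPlusTypeOn ⇑Q W)
    (h' : IsPlusTypeOn ⇑Q (perp Q W)) : IsPlusTypeOn ⇑Q ⊤ := by
  obtain ⟨U, a1, a2, a3⟩ := h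
  obtain ⟨U', b1, b2, b3⟩ := h'
  obtain ⟨c1, c2⟩ := ts_sup hW a1 b1 a2 b2
  exact plus_top_of c1 (by have := finrank_perp_card hQ W; omega)

theorem plus_perp {W : Submodule F (ι → F)} (hW : Nondeg Q W) (hp : IsPlusTypeOn ⇑Q ⊤)
    (h : IsPlusTypeOn ⇑Q W) : IsPlusTypeOn ⇑Q (perp Q W) := by
  obtain ⟨U, a1, a2, a3⟩ := h
  obtain ⟨X, -, b2, b3⟩ := hp
  rw [finrank_top] at b3
  obtain ⟨Y, c1, c2, c3⟩ := exists_max_ts_ge hQ b2 b3.symm a2
  have h1 := H58.finrank_pairing hQ Y W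
  rw [H58.perp_eq_of_singular hQ c2 (by omega)] at h1
  have h2 := Submodule.finrank_mono (le_inf c1 a1)
  have h3 := (hW.perp hQ).two_mul_finrank_le hQ (inf_le_right (a := Y))
    (polar_eq_zero_of_ts fun x hx => c2 x hx.1)
  have h4 := finrank_perp hQ W
  exact ⟨Y ⊓ perp Q W, inf_le_right, fun x hx => c2 x hx.1, by omega⟩

theorem isometric_perp [Finite F] {W : Submodule F (ι → F)} (hW : Nondeg Q W)
    (hp : IsPlusTypeOn ⇑Q ⊤) (hd : 2 * finrank F W = Fintype.card ι) (hev : Even (finrank F W)) :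
    AreIsometricFor ⇑Q W (perp Q W) :=
  isometric_of_type hW (hW.perp hQ) (by have := finrank_perp_card hQ W; omega) hev
    ⟨plus_perp hQ hW hp, fun h => perp_perp hQ W ▸ plus_perp hQ (hW.perp hQ) hp h⟩

section decomp
variable [Finite F] {t k : ℕ} {D : Fin t → Submodule F (ι → F)}

omit hQ [Fintype ι] [Finite F] in
theorem le_perp_of_decomp (hD : IsNondegenerateMDecomposition (polar ⇑Q) k D) {i j : Fin t}
    (h : i ≠ j) : D j ≤ perp Q (D i) := fun x hx y hy => hD.orthogonal i j h y hy x hx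

theorem exists_ts_of_even (hD : IsOrthogonalMDecomposition ⇑Q k D) (hk : Even k) (m : ℕ) :
    ∀ s : Finset (Fin t), s.card = 2 * m → ∃ U : Submodule F (ι → F), U ≤ ⨆ i ∈ s, D i ∧
      (∀ u ∈ U, Q u = 0) ∧ finrank F U = m * k := by
  induction m with
  | zero => exact fun s _ => ⟨⊥, bot_le, by simp, by simp⟩
  | succ m ih =>
    intro s hs
    obtain ⟨i, hi, j, hj, hij⟩ := Finset.one_lt_card.1 (show 1 < s.card by omega)
    have hj' : j ∈ s.erase i := Finset.mem_erase.2 ⟨hij.symm, hj⟩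
    obtain ⟨U, a1, a2, a3⟩ := ih ((s.erase i).erase j) (by
      rw [Finset.card_erase_of_mem hj', Finset.card_erase_of_mem hi]; omega)
    obtain ⟨g, hg⟩ := exists_img_of_isometric hQ (hD.isometric i j)
    have hn := fun l => nondeg_of_on (hD.decomp.nondegenerate l)
    obtain ⟨U', b1, b2, b3⟩ := exists_ts_of_img_le_perp (hn i)
      (hD.decomp.decomp.finrank_eq i ▸ hk) (hg ▸ le_perp_of_decomp hD.decomp hij)
    rw [hg] at b1
    obtain ⟨c1, c2⟩ := ts_sup (nondeg_sup (hn i) (hn j) (le_perp_of_decomp hD.decomp hij)) b1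
      (a1.trans (iSup₂_le fun l hl => by
        simp only [Finset.mem_erase] at hl
        rw [H58.perp_sup]
        exact le_inf (le_perp_of_decomp hD.decomp hl.2.1.symm)
          (le_perp_of_decomp hD.decomp hl.1.symm))) b2 a2
    refine ⟨_, sup_le (b1.trans (sup_le (le_iSup₂_of_le i hi le_rfl) (le_iSup₂_of_le j hj le_rfl)))
      (a1.trans (iSup₂_le fun l hl => le_iSup₂_of_le l (Finset.mem_of_mem_erase
        (Finset.mem_of_mem_erase hl)) le_rfl)), c1, ?_⟩
    rw [c2, a3, b3, hD.decomp.decomp.finrank_eq]; ring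

variable [DecidableEq ι]

theorem plus_of_even (hD : IsOrthogonalMDecomposition ⇑Q k D) (hk : Even k) (ht : Even t) :
    IsPlusTypeOn ⇑Q ⊤ := by
  obtain ⟨m, rfl⟩ := ht
  obtain ⟨U, -, a2, a3⟩ := exists_ts_of_even hQ hD hk m Finset.univ (by simp [two_mul])
  exact plus_top_of a2 (by rw [a3, H25.card_eq_of_decomp hD.decomp.decomp]; ring)

theorem plus_iff_of_odd (hD : IsOrthogonalMDecomposition ⇑Q k D) (hk : Even k) (ht : Odd t)
    (i : Fin t) : IsPlusTypeOn ⇑Q ⊤ ↔ IsPlusTypeOn ⇑Q (D i) := by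
  obtain ⟨m, hm⟩ := ht
  obtain ⟨U, a1, a2, a3⟩ := exists_ts_of_even hQ hD hk m (Finset.univ.erase i) (by simp [hm])
  have hn := nondeg_of_on (hD.decomp.nondegenerate i)
  have h1 : IsPlusTypeOn ⇑Q (perp Q (D i)) := ⟨U, a1.trans (iSup₂_le fun l hl =>
    le_perp_of_decomp hD.decomp (Finset.ne_of_mem_erase hl).symm), a2, by
      have := finrank_perp_card hQ (D i)
      rw [H25.card_eq_of_decomp hD.decomp.decomp, hD.decomp.decomp.finrank_eq, hm] at this
      rw [a3]; linarith⟩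
  exact ⟨fun h => perp_perp hQ (D i) ▸ plus_perp hQ (hn.perp hQ) h h1,
    fun h => plus_top_of_perp hQ hn h h1⟩

theorem plus_iff_gram (h2 : (2 : F) ≠ 0) (hD : IsNondegenerateMDecomposition (polar ⇑Q) k D)
    (b : ∀ i, Basis (Fin k) F (D i)) {m : ℕ} (hm : Fintype.card ι = 2 * m) :
    IsPlusTypeOn ⇑Q ⊤ ↔ IsSquare ((-1) ^ m * ∏ i, H58.gram (Q.restrict (D i)) (b i)) := by
  obtain ⟨e, P, hb, -⟩ := H25.exists_tr_of_bases hD.decomp b
  rw [isPlusTypeOn_top, H58.isPlus_iff_isSquare h2 hQ (m := m) (by simpa using hm)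
    ((Pi.basisFun F _).map (trV e P))]
  simp only [H58.gram, ← det_blockDiagonal]
  congr! 3
  ext ⟨j, i⟩ ⟨j', i'⟩
  simp only [of_apply, Basis.map_apply, Pi.basisFun_apply, hb, blockDiagonal_apply,
    H58.polar_restrict]
  split_ifs with h
  · subst h; rfl
  · exact hD.orthogonal i i' h _ (b i j).2 _ (b i' j').2

theorem plus_iff_of_even (h2 : (2 : F) ≠ 0) (hD : IsOrthogonalMDecomposition ⇑Q k D) (ht : Even t)
    {m : ℕ} (hm : Fintype.card ι = 2 * m) : IsPlusTypeOn ⇑Q ⊤ ↔ IsSquare ((-1 : F) ^ m) := by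
  let b := fun i => finBasisOfFinrankEq F _ (hD.decomp.decomp.finrank_eq i)
  let z : Fin t := ⟨0, by have := hD.decomp.decomp.two_le; omega⟩
  choose c hc0 hc using fun i => (hD.isometric z i).elim fun e he =>
    H58.exists_gram_eq_of_equiv (Q := Q.restrict (D z)) (Q' := Q.restrict (D i)) e he (b z) (b i)
  obtain ⟨s, rfl⟩ := ht
  rw [plus_iff_gram hQ h2 hD.decomp b hm, ← H58.isSquare_sq_mul (x := (-1 : F) ^ m)
    (mul_ne_zero (Finset.prod_ne_zero_iff.2 fun i (_ : i ∈ Finset.univ) => hc0 i) (pow_ne_zero s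
      (H58.gram_ne_zero (nondeg_of_on (hD.decomp.nondegenerate z)).restrict (b z))))]
  rw [Finset.prod_congr rfl fun i _ => hc i, Finset.prod_mul_distrib, Finset.prod_pow,
    Finset.prod_const, Finset.card_univ, Fintype.card_fin]
  congr! 1
  ring

theorem plus_iff_of_not_isometric (h2 : (2 : F) ≠ 0) {D : Fin 2 → Submodule F (ι → F)}
    (hD : IsNondegenerateMDecomposition (polar ⇑Q) k D) (h : ¬ AreIsometricFor ⇑Q (D 0) (D 1)) :
    IsPlusTypeOn ⇑Q ⊤ ↔ ¬ IsSquare ((-1 : F) ^ k) := by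
  let b := fun i => finBasisOfFinrankEq F _ (hD.decomp.finrank_eq i)
  have hn := fun i => (nondeg_of_on (hD.nondegenerate i)).restrict
  rw [plus_iff_gram hQ h2 hD b (two_mul_of_decomp hD.decomp).symm, Fin.prod_univ_two,
    H58.isSquare_mul_iff (by simp)
      (mul_ne_zero (H58.gram_ne_zero (hn 0) _) (H58.gram_ne_zero (hn 1) _))]
  exact iff_congr Iff.rfl (iff_false_intro fun h' => h (H58.exists_equiv_of_isSquare_gram h2 (hn 0)
    (hn 1) (by rw [hD.decomp.finrank_eq, hD.decomp.finrank_eq]) _ _ h')) |>.trans (by simp)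

end decomp

variable [DecidableEq ι]

theorem plus_of_extraspecial [Finite F] (h2 : (2 : F) ≠ 0) (h8 : Fintype.card ι = 8)
    {R : Subgroup (GL ι F)} (hR : IsSymplecticTypeGroup 2 R)
    (ha : ActsAbsolutelyIrreducibly (matrixSet R)) (hI : R ≤ isometryGroup F ⇑Q)
    (hz : Nat.card (Subgroup.center R) = 2) : IsPlusTypeOn ⇑Q ⊤ := by
  have : Nonempty ι := Fintype.card_pos_iff.1 (by omega)
  obtain ⟨h1, h3, -, h4⟩ := H25.sympType_struct hR ha (.inr (.inr ⟨rfl, hz⟩))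
  obtain ⟨y, hy, hy'⟩ : ∃ y ∈ R, y ∉ scalars ι F := by
    by_contra! hc
    rw [(Subgroup.eq_top_iff' _).2 fun x => (H25.mem_center_iff_scalars h1 x).2 (hc x x.2),
      Subgroup.card_top] at hz h4
    rw [hz, h8] at h4; omega
  obtain ⟨w, hw, ζ, hζ, h⟩ := H25.exists_conj_eq_smul h1 h3 hy hy'
  obtain ⟨y, rfl⟩ := exists_toGL (hI hy)
  obtain ⟨w, rfl⟩ := exists_toGL (hI hw)
  have h5 : ∀ v, ⁅w, y⁆ v = ζ • v := fun v => by
    have := congrArg (fun a => a *ᵥ (y⁻¹ v)) h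
    simp only [cj_apply, ← mulVec_mulVec, toGL_inv_mulVec, toGL_mulVec, smul_mulVec] at this
    simpa [commutatorElement_def] using this
  obtain ⟨v, hv⟩ := H58.exists_Q_eq hQ (by simp; omega) 1
  have h6 := (⁅w, y⁆).map_Q v
  rw [h5, H56.Q_smul, hv, mul_one] at h6
  have h7 : ⁅w, y⁆ = O.negOne Q := O.ext fun v => by
    rw [h5, (mul_self_eq_one_iff.1 h6).resolve_left hζ]; simp
  rw [isPlusTypeOn_top, H58.isPlus_iff_isSquare h2 hQ (m := 4) (by simpa using h8)
    (Pi.basisFun F ι), Even.neg_one_pow (by decide), one_mul]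
  exact ((negOne_mem_commutator_iff hQ h2 _).1
    (h7 ▸ Subgroup.commutator_mem_commutator trivial trivial)).2

theorem four_dvd_of_unitary {K : Subalgebra F (Matrix ι ι F)} (hK : IsFieldSubalgebra 2 K)
    (hc : IsAdjointClosedFor (polar ⇑Q) K) (hs : ∀ k ∈ K, ∃ c : F, ∀ v, Q (k *ᵥ v) = c * Q v)
    (hp : IsPlusTypeOn ⇑Q ⊤) : 4 ∣ Fintype.card ι := by
  rcases isEmpty_or_nonempty ι with h | h
  · simp
  obtain ⟨U, ⟨h1, h2⟩, hU⟩ := (wellFounded_gt (α := Submodule F (ι → F))).has_min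
    {U | (∀ u ∈ U, Q u = 0) ∧ ∀ k ∈ K, ∀ u ∈ U, k *ᵥ u ∈ U} ⟨⊥, by simp, by simp⟩
  obtain ⟨X, -, b2, b3⟩ := hp
  have h3 := H58.finrank_le_of_max_singular hQ h1 (fun W hW hW' => le_antisymm (fun v hv => ?_) hW) b2
  · obtain ⟨c, hc⟩ := H25.dvd_finrank_of_field hK U h2
    have := H58.two_mul_finrank_le_of_singular hQ h1
    simp only [finrank_top, Module.finrank_fintype_fun_eq_card] at b3 this
    omega
  let L : K →ₗ[F] ι → F := (mulVecBilin F F).flip v ∘ₗ K.val.toLinearMap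
  by_contra hv'
  refine hU (U ⊔ LinearMap.range L) ⟨H58.singular_sup h1 ?_ ?_, fun k hk u hu => ?_⟩
    (left_lt_sup.2 fun hle => hv' (by simpa [L] using hle ⟨1, rfl⟩))
  · rintro _ ⟨k, rfl⟩
    obtain ⟨c, hc⟩ := hs k k.2
    simp [L, hc, hW' v hv]
  · rintro _ ⟨k, rfl⟩
    obtain ⟨k', hk', hc⟩ := hc k k.2
    exact mem_perp'.2 fun u hu => (hc v u).trans
      (polar_eq_zero_of_ts hW' v hv _ (hW (h2 k' hk' u hu)))
  · obtain ⟨a, ha, _, ⟨l, rfl⟩, rfl⟩ := mem_sup.1 hu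
    rw [mulVec_add]
    exact add_mem_sup (h2 k hk a ha) ⟨⟨k, hk⟩ * l, by simp [L]⟩

omit hQ in
theorem exists_root_of_card_sq [Fintype F] {F₀ : Subfield F}
    (hc : Fintype.card F = Nat.card F₀ ^ 2) (a b : F₀) : ∃ s : F, s ^ 2 + a * s + b = 0 := by
  classical
  let p : Polynomial F₀ := Polynomial.X ^ 2 + Polynomial.C a * Polynomial.X + Polynomial.C b
  have hd : p.natDegree = 2 := by simp only [p]; compute_degree!
  by_contra! h
  have : Fact (Irreducible p) := ⟨(Polynomial.irreducible_iff_roots_eq_zero_of_degree_le_three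
    hd.ge (by omega)).2 (Multiset.eq_zero_of_forall_notMem fun s hs => h s (by
      simpa [p] using congrArg F₀.subtype (Polynomial.isRoot_of_mem_roots hs)))⟩
  have h1 : finrank F₀ F = 2 := by
    have := Fintype.ofFinite F₀
    rw [Module.card_eq_pow_finrank (K := F₀), Nat.card_eq_fintype_card] at hc
    exact Nat.pow_right_injective Fintype.one_lt_card hc
  obtain ⟨f⟩ := FiniteField.nonempty_algHom_of_finrank_dvd (F := F₀) (K := AdjoinRoot p) (L := F)
    (by rw [(AdjoinRoot.powerBasis this.out.ne_zero).finrank, AdjoinRoot.powerBasis_dim, hd, h1])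
  refine h (f (AdjoinRoot.root p)) ?_
  have := Polynomial.aeval_algHom_apply f (AdjoinRoot.root p) p
  rw [AdjoinRoot.aeval_eq, AdjoinRoot.mk_self, map_zero] at this
  generalize f (AdjoinRoot.root p) = s at this
  simp only [p, map_add, map_mul, map_pow, Polynomial.aeval_X, Polynomial.aeval_C] at this
  exact this

theorem plus_of_subfield_two [Fintype F] {F₀ : Subfield F}
    (hc : Fintype.card F = Nat.card F₀ ^ 2) {P : GL ι F} {ζ : F} (hζ : ζ ≠ 0)
    (hP : IsQuadFormRationalStructure (fun v => ζ * Q v) F₀ P) (hev : Even (Fintype.card ι)) :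
    IsPlusTypeOn ⇑Q ⊤ := by
  obtain ⟨Q₀, h⟩ := exists_ratStr (H58.nondeg_smul Q hζ hQ) (F₀ := F₀) (P := P) hP
  rw [isPlusTypeOn_top, ← H58.isPlus_smul hζ]
  generalize ζ • Q = Q' at h
  obtain ⟨_ | m, hm⟩ := hev
  · exact ⟨⊥, by simpa using hm, by simp⟩
  obtain ⟨e, f, hef⟩ := H58.exists_frame_of_lt h.nondeg₀ m (by simp; omega)
  have h1 : H58.IsHypFrame Q' (fun i => ratEmb F₀ P (e i)) fun i => ratEmb F₀ P (f i) :=
    ⟨fun i => by simp [h.map_Q, hef.qe], fun i => by simp [h.map_Q, hef.qf],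
      fun i j => by simp [h.pol, hef.ef, apply_ite], fun i j => by simp [h.pol, hef.ee],
      fun i j => by simp [h.pol, hef.ff]⟩
  obtain ⟨x, hx⟩ := exists_linearIndependent_of_le_finrank (R := F₀) (M := H58.framePerp Q₀ e f)
    (n := 2) (by have := hef.finrank_perp; simp at this; omega)
  have h2 := h.linearIndependent (hx.map' _ (ker_subtype _))
  have h3 : ∀ i, ratEmb F₀ P (x i) ∈ H58.framePerp Q' (fun i => ratEmb F₀ P (e i))
      fun i => ratEmb F₀ P (f i) := fun i j => by simp [h.pol, (x i).2 j]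
  obtain ⟨u, hu, hu0, hQu⟩ : ∃ u ∈ H58.framePerp Q' (fun i => ratEmb F₀ P (e i))
      fun i => ratEmb F₀ P (f i), u ≠ 0 ∧ Q' u = 0 := by
    by_cases h0 : Q₀ (x 0) = 0
    · exact ⟨_, h3 0, h2.ne_zero 0, by simp [h.map_Q, h0]⟩
    obtain ⟨s, hs⟩ := exists_root_of_card_sq hc (polar Q₀ (x 0) (x 1) / Q₀ (x 0))
      (Q₀ (x 1) / Q₀ (x 0))
    refine ⟨s • ratEmb F₀ P (x 0) + (1 : F) • ratEmb F₀ P (x 1),
      add_mem (smul_mem _ _ (h3 0)) (smul_mem _ _ (h3 1)), fun h4 => ?_, ?_⟩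
    · simpa using Fintype.linearIndependent_iff.1 h2 ![s, 1] (by simpa using h4) 1
    · have h5 : ((Q₀ (x 0) : F₀) : F) ≠ 0 := by simpa using h0
      rw [H58.Q_lin2, h.pol, h.map_Q, h.map_Q]
      simp only [Subfield.coe_subtype, Subfield.coe_div] at hs ⊢
      field_simp at hs
      linear_combination hs
  obtain ⟨w, hw⟩ := h1.exists_snoc h.nondeg hu hu0 hQu
  exact ⟨_, by rw [hw.finrank_span_e]; simp; omega, hw.singular_span_e⟩

end H19
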