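/- Self-adjoint extension fields of half the dimension. -/
import Cfsg.Agent.H19.ORowType

set_option autoImplicit false

namespace H19
open Cfsg Cfsg.Geo Matrix QuadraticMap H56 H60 Module Submodule
open scoped MatrixGroups

section abstract
variable {F K V : Type*} [Field F] [Field K] [Algebra F K] [AddCommGroup V] [Module F V]
  [Module K V] [IsScalarTower F K V] [Finite K] {Q : QuadraticForm F V}

omit [Algebra F K] [IsScalarTower F K V] [Finite K] [Module K V] in
theorem polar_add_of_diag {a : V → V} (ha : ∀ u v, a (u + v) = a u + a v) {c : F}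
    (h : ∀ v, polar Q v (a v) = c * Q v) (u v : V) :
    polar Q u (a v) + polar Q v (a u) = c * polar Q u v := by
  have := h (u + v)
  rw [ha, polar_add_left, polar_add_right, polar_add_right, h, h, H56.Q_add] at this
  linear_combination this

variable (sa : ∀ (k : K) (u v : V), polar Q (k • u) v = polar Q u (k • v))
include sa

omit [IsScalarTower F K V] in
theorem polar_smul_alt {a : V →ₗ[K] V} (h : ∀ v, polar Q v (a v) = 0) (k : K) (v : V) :
    polar Q (k • v) (a v) = 0 := by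
  by_cases h2 : (2 : F) = 0
  · obtain ⟨l, rfl⟩ := exists_sq_eq (F := K) (by rw [← map_ofNat (algebraMap F K), h2, map_zero]) k
    rw [pow_two, mul_smul, sa, ← map_smul, h]
  · have := polar_add_of_diag (Q := Q) a.map_add (c := 0) (by simpa using h) (k • v) v
    rw [map_smul, ← sa] at this
    exact mul_left_cancel₀ h2 (by linear_combination this)

variable (hQ : Q.polarBilin.Nondegenerate) (hd : finrank K V = 2)
include hQ hd

omit [IsScalarTower F K V] in
theorem alt_eq_zero {a : V →ₗ[K] V} (h : ∀ v, polar Q v (a v) = 0) {u : V} (hu : u ≠ 0)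
    (ha : a u = 0) (v : V) : a v = 0 := by
  by_cases hv : v ∈ K ∙ u
  · obtain ⟨k, rfl⟩ := mem_span_singleton.1 hv
    rw [map_smul, ha, smul_zero]
  have : FiniteDimensional K V := .of_finrank_pos (by omega)
  have h1 : span K {u, v} = ⊤ := eq_top_of_finrank_eq (by
    rw [hd, finrank_span_pair ((LinearIndependent.pair_iff' hu).2 fun k hk =>
      hv (mem_span_singleton.2 ⟨k, hk⟩))])
  refine eq_zero_of_polar hQ fun x => ?_
  obtain ⟨k, l, rfl⟩ := mem_span_pair.1 (h1 ▸ mem_top : x ∈ _)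
  have := polar_add_of_diag (Q := Q) a.map_add (c := 0) (by simpa using h) (k • u) v
  rw [polar_comm, polar_add_left, polar_smul_alt sa h]
  simpa [ha] using this

omit [IsScalarTower F K V] in
theorem alt_eq_smul {a b : V →ₗ[K] V} (ha : ∀ v, polar Q v (a v) = 0)
    (hb : ∀ v, polar Q v (b v) = 0) (h0 : ∃ v, b v ≠ 0) : ∃ k : K, ∀ v, a v = k • b v := by
  obtain ⟨u, hu⟩ := h0
  have hu0 : u ≠ 0 := fun h => hu (by simp [h])
  have : FiniteDimensional K V := .of_finrank_pos (by omega)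
  let W : Submodule K V :=
    { carrier := {x | ∀ k : K, polar Q (k • u) x = 0}
      add_mem' := fun hx hy k => by rw [polar_add_right, hx k, hy k, add_zero]
      zero_mem' := fun k => by simp
      smul_mem' := fun c x hx k => by rw [← sa, smul_smul, hx] }
  have h1 : finrank K W < 2 := hd ▸ finrank_lt fun h => hu0
    (eq_zero_of_polar hQ fun x => by simpa using (h ▸ mem_top : x ∈ W) 1)
  have h2 : K ∙ b u = W := eq_of_le_of_finrank_le
    ((span_singleton_le_iff_mem _ _).2 fun k => polar_smul_alt sa hb k u)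
    (by rw [finrank_span_singleton hu]; omega)
  obtain ⟨k, hk⟩ := mem_span_singleton.1 (h2 ▸ fun k => polar_smul_alt sa ha k u : a u ∈ K ∙ b u)
  exact ⟨k, fun v => sub_eq_zero.1 (alt_eq_zero sa hQ hd (a := a - k • b)
    (fun v => by simp [ha, ← sa, polar_smul_alt sa hb]) hu0 (by simp [hk]) v)⟩

theorem exists_diag_not_scalar [FiniteDimensional F V] : ∃ s : V →ₗ[K] V,
    (∀ v, polar Q v (s v) = Q v) ∧ ∀ k : K, ∃ v, s v ≠ k • v := by
  classical
  have : FiniteDimensional K V := .of_finrank_pos (by omega)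
  let b := finBasisOfFinrankEq K V hd
  by_cases h2 : (2 : F) = 0
  · have := Fintype.ofFinite K
    let β := Q.toBilin (finBasis F V)
    let s₁ : V →ₗ[F] V := (LinearMap.BilinForm.toDual _ hQ).symm.toLinearMap ∘ₗ β
    have h1 : ∀ v, polar Q v (s₁ v) = Q v := fun v => by
      rw [polar_comm]
      exact (LinearMap.BilinForm.apply_toDual_symm_apply (hB := hQ) (β v) v).trans
        (DFunLike.congr_fun (Q.toQuadraticMap_toBilin (finBasis F V)) v)
    have h3 : ∀ v, polar Q v (∑ k : Kˣ, (k⁻¹ : Kˣ) • s₁ (k • v)) = Q v := fun v => by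
      rw [H58.polar_sum_right, ← Finset.add_sum_erase _ _ (Finset.mem_univ 1),
        Finset.sum_involution (fun k _ => k⁻¹) (fun k _ => ?_) (fun k hk _ h => ?_)
          (fun k hk => by simpa using hk) (fun k _ => inv_inv k)]
      · simp [h1]
      · have := polar_add_of_diag (Q := Q) s₁.map_add (c := 1) (by simpa using h1) (k⁻¹ • v) (k • v)
        simp only [Units.smul_def, sa, inv_inv, smul_smul, Units.inv_mul, one_smul,
          H56.polar_self', h2, zero_mul, mul_zero] at this ⊢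
        exact this
      · have h4 : (2 : K) = 0 := by rw [← map_ofNat (algebraMap F K), h2, map_zero]
        have h5 : (k : K) * k = 1 := by rw [← Units.val_mul]; nth_rw 1 [← h]; simp
        exact Finset.ne_of_mem_erase hk (Units.ext (sub_eq_zero.1 ((pow_eq_zero_iff two_ne_zero).1
          (by rw [Units.val_one]; linear_combination h5 + (1 - k) * h4))))
    refine ⟨⟨⟨fun v => ∑ k : Kˣ, (k⁻¹ : Kˣ) • s₁ (k • v), fun u v => by
      simp [Finset.sum_add_distrib]⟩, fun l v => ?_⟩, h3, fun k => ?_⟩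
    · rcases eq_or_ne l 0 with rfl | hl
      · simp
      obtain ⟨l, rfl⟩ := Ne.isUnit hl
      simp only [RingHom.id_apply, Finset.smul_sum]
      refine Fintype.sum_equiv (Equiv.mulRight l) _ _ fun k => ?_
      simp only [Equiv.coe_mulRight, ← Units.smul_def, smul_smul, _root_.mul_inv_rev,
        mul_inv_cancel_left]
    · by_contra! h
      obtain ⟨v, hv⟩ := exists_Q_ne_zero hQ (b.ne_zero 0)
      refine hv ((h3 v).symm.trans ?_)
      rw [show (∑ k : Kˣ, (k⁻¹ : Kˣ) • s₁ (k • v)) = k • v from h v, ← sa]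
      exact polar_smul_alt sa (a := .id) (fun v => by simp [h2]) k v
  have key : ∃ a : V →ₗ[K] V, ∃ u v, polar Q (a u) v ≠ polar Q u (a v) := by
    by_contra! h
    have h1 := fun k : K => h (b.constr ℕ ![b 0, 0]) (k • b 0) (b 1)
    have h3 := h (b.constr ℕ ![b 0, -b 0]) (b 0) (b 0 + b 1)
    have h4 := fun k : K => h (b.constr ℕ ![b 0, -b 0]) (k • b 0) (b 0 + b 1)
    simp only [map_smul, map_add, Basis.constr_basis, Matrix.cons_val, polar_zero_right,
      add_neg_cancel, polar_add_right] at h1 h4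
    refine b.ne_zero 0 (eq_zero_of_polar hQ fun x => ?_)
    rw [← b.sum_repr x, Fin.sum_univ_two, polar_add_right, ← sa, ← sa, h1, add_zero]
    simpa [h1] using h4 _
  obtain ⟨a, u, w, ha⟩ := key
  let a' := LinearMap.BilinForm.leftAdjointOfNondegenerate _ hQ (a.restrictScalars F)
  have h1 : ∀ x y, polar Q (a' x) y = polar Q x (a y) :=
    LinearMap.BilinForm.isAdjointPairLeftAdjointOfNondegenerate _ hQ (a.restrictScalars F)
  let a'' : V →ₗ[K] V := ⟨⟨a', a'.map_add⟩, fun k v => sub_eq_zero.1 (eq_zero_of_polar hQ fun x => by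
    simp [h1, sa])⟩
  have h3 : ∀ v, polar Q v ((a - a'') v) = 0 := fun v => by
    rw [LinearMap.sub_apply, polar_sub_right, ← h1, polar_comm, sub_eq_zero]; rfl
  refine ⟨algebraMap F K 2⁻¹ • LinearMap.id + (a - a''), fun v => ?_, fun k => ?_⟩
  · rw [LinearMap.add_apply, polar_add_right, h3, LinearMap.smul_apply, algebraMap_smul]
    simp [h2]
  · by_contra! h
    have h4 : ∀ v, (a - a'') v = (k - algebraMap F K 2⁻¹) • v := fun v => by
      rw [sub_smul, ← h v]; simp
    have h5 := polar_add_of_diag (Q := Q) (a - a'').map_add (c := 0) (by simpa using h3) u w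
    rw [h4 u, ← sa, polar_comm Q (_ • w), ← h4, ← two_mul, zero_mul, mul_eq_zero] at h5
    refine ha ?_
    have h6 := h5.resolve_left h2
    rw [LinearMap.sub_apply, polar_sub_right, sub_eq_zero] at h6
    rw [h6, polar_comm, ← h1, polar_comm]; rfl

theorem exists_diag_gen [FiniteDimensional F V] : ∃ s : V →ₗ[K] V,
    (∀ v, polar Q v (s v) = Q v) ∧ (∀ k : K, ∃ v, s v ≠ k • v) ∧ ∀ s' : V →ₗ[K] V,
      (∀ v, polar Q v (s' v) = Q v) → ∃ k l : K, ∀ v, s' v = k • v + l • s v := by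
  obtain ⟨s, h1, h2⟩ := exists_diag_not_scalar sa hQ hd
  refine ⟨s, h1, h2, fun s' h => ?_⟩
  obtain ⟨k, hk⟩ := alt_eq_smul sa hQ hd (a := s' - s) (b := s + s - LinearMap.id)
    (fun v => by simp [h, h1]) (fun v => by simp [h1, two_mul]) (by
      by_contra! h3
      by_cases h4 : (2 : K) = 0
      · obtain ⟨v, hv⟩ := h2 0
        have := h3 v
        rw [LinearMap.sub_apply, LinearMap.add_apply, ← two_smul K, h4] at this
        exact hv (by simp_all)
      · obtain ⟨v, hv⟩ := h2 2⁻¹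
        refine hv ((eq_inv_smul_iff₀ h4).2 ?_)
        simpa [two_smul, sub_eq_zero] using h3 v)
  refine ⟨-k, 1 + 2 * k, fun v => ?_⟩
  have := hk v
  simp only [LinearMap.sub_apply, LinearMap.add_apply, LinearMap.id_apply] at this
  linear_combination (norm := module) this

end abstract

variable {ι : Type} [Fintype ι] [DecidableEq ι] {F : Type*} [Field F] [Fintype F]

attribute [-instance] Matrix.Module.matrixModule in
theorem exists_comm_of_half {q : (ι → F) → F} (hq : IsNondegenerateQuadraticForm q) [Nonempty ι]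
    {r : ℕ} {K : Subalgebra F (Matrix ι ι F)} (hK : IsFieldSubalgebra r K)
    (hs : IsSelfAdjointFor (polar q) K) (hn : Fintype.card ι = 2 * r) {H : Subgroup (GL ι F)}
    (hH : H ≤ isometryGroup F q) (hN : H ≤ subalgebraNormalizer K) :
    ∃ L : Subalgebra F (Matrix ι ι F), Inv H L ∧ (oFrm hq).Closed L ∧
      (∀ x ∈ L, ∀ y ∈ L, x * y = y * x) ∧ K < L := by
  obtain ⟨Q, rfl, hQ⟩ := exists_quadraticForm hq
  let _ : Field K := (isField_of_subalgebra hK.comm hK.inv).toField
  let _ : Module K (ι → F) :=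
    { smul := fun k v => (k : Matrix ι ι F) *ᵥ v
      one_smul := fun v => one_mulVec _
      mul_smul := fun a b v => (mulVec_mulVec _ _ _).symm
      smul_zero := fun a => mulVec_zero _
      smul_add := fun a v w => mulVec_add _ _ _
      add_smul := fun a b v => add_mulVec _ _ _
      zero_smul := fun v => zero_mulVec _ }
  have : IsScalarTower F K (ι → F) := ⟨fun c k v => smul_mulVec _ _ _⟩
  have hm : ∀ (k : K) (v : ι → F), k • v = (k : Matrix ι ι F) *ᵥ v := fun _ _ => rfl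
  have h0 := Module.finrank_mul_finrank F K (ι → F)
  rw [hK.finrank_eq, Module.finrank_fintype_fun_eq_card, hn, mul_comm] at h0
  obtain ⟨s, h1, h2, h3⟩ := exists_diag_gen (K := K) (fun k => hs k k.2) hQ
    (Nat.eq_of_mul_eq_mul_right (by have := Fintype.card_pos (α := ι); omega) h0)
  obtain ⟨S, hS⟩ : ∃ S : Matrix ι ι F, ∀ v, S *ᵥ v = s v :=
    ⟨LinearMap.toMatrix' (s.restrictScalars F), fun v => LinearMap.toMatrix'_mulVec _ v⟩
  have h4 : ∀ k ∈ K, S * k = k * S := fun k hk => matrix_ext_mulVec fun v => by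
    rw [← mulVec_mulVec, ← mulVec_mulVec, hS, hS]; exact s.map_smul ⟨k, hk⟩ v
  have h5 : ∀ x ∈ K, x ∈ Algebra.adjoin F (insert S (K : Set (Matrix ι ι F))) := fun x hx =>
    Algebra.subset_adjoin (.inr hx)
  have h6 : S ∈ Algebra.adjoin F (insert S (K : Set (Matrix ι ι F))) :=
    Algebra.subset_adjoin (.inl rfl)
  refine ⟨Algebra.adjoin F (insert S K), fun g hg => (?_ : Algebra.adjoin F (insert S K) ≤
    (Algebra.adjoin F (insert S K)).comap (cj g).toAlgHom), Frm.closed_adjoin _ ?_, fun x hx y hy => ?_,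
    lt_of_le_of_ne h5 fun h => ?_⟩
  · have hc : ∀ {g}, g ∈ H → ∀ k ∈ K, cj g k ∈ K := fun hg k hk => (hN hg k).1 hk
    obtain ⟨k, l, hkl⟩ := h3 ⟨⟨fun v => cj g S *ᵥ v, mulVec_add _⟩, fun k v => by
      obtain ⟨k', hk⟩ := (cj g).surjective k
      have := h4 k' (by simpa [← hk, ← cj_mul, cj_apply 1] using hc (inv_mem hg) k k.2)
      simp only [hm, mulVec_mulVec, RingHom.id_apply, ← hk, ← map_mul, this]⟩ fun v => by
        obtain ⟨v, rfl⟩ : ∃ u, (g : Matrix ι ι F) *ᵥ u = v :=
          ⟨(g⁻¹ : GL ι F) *ᵥ v, by simp [mulVec_mulVec]⟩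
        change polar Q _ (cj g S *ᵥ _) = _
        rw [cj_mulVec, polar_mulVec (hH hg), Q_mulVec (hH hg), hS, h1]
    refine Algebra.adjoin_le ?_
    rintro a (rfl | ha)
    · change cj g a ∈ Algebra.adjoin F _
      rw [show cj g a = k + l * a from matrix_ext_mulVec fun v => by
        rw [add_mulVec, ← mulVec_mulVec, hS]; exact hkl v]
      exact add_mem (h5 _ k.2) (mul_mem (h5 _ l.2) h6)
    · exact h5 _ (hc hg a ha)
  · rintro a (rfl | ha)
    · rw [(oFrm hq).adj_eq_of (b := 1 - a) fun u v => ?_]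
      · exact sub_mem (one_mem _) h6
      · have := polar_add_of_diag (Q := Q) s.map_add (c := 1) (by simpa using h1) u v
        change polar Q _ _ = polar Q _ _
        rw [sub_mulVec, one_mulVec, hS, hS, polar_sub_right, polar_comm]
        linear_combination this
    · rw [(oFrm hq).isSelfAdjointFor_iff.1 hs a ha]; exact h5 a ha
  · refine Algebra.commute_of_mem_adjoin_of_forall_mem_commute hy fun b hb =>
      (Algebra.commute_of_mem_adjoin_of_forall_mem_commute hx fun a ha => ?_).symm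
    rcases ha with rfl | ha <;> rcases hb with rfl | hb
    exacts [rfl, (h4 b hb).symm, h4 a ha, hK.comm b hb a ha]
  · obtain ⟨v, hv⟩ := h2 ⟨S, h ▸ h6⟩
    exact hv (hS v).symm

theorem exists_subfield_of_dvd [Nonempty ι] {K : Subalgebra F (Matrix ι ι F)} {r d : ℕ}
    (hK : IsFieldSubalgebra (r * d) K) : ∃ K' : Subalgebra F (Matrix ι ι F),
      IsFieldSubalgebra r K' ∧ ∀ x, x ∈ K' ↔ x ∈ K ∧ x ^ Fintype.card F ^ r = x := by
  let _ : Field K := (isField_of_subalgebra hK.comm hK.inv).toField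
  let φ := FiniteField.frobeniusAlgEquivOfAlgebraic F K
  have hφ : orderOf φ = r * d :=
    (FiniteField.orderOf_frobeniusAlgEquivOfAlgebraic F K).trans hK.finrank_eq
  have h0 : 0 < r * d := hK.finrank_eq ▸ Module.finrank_pos (R := F) (M := K)
  let E := IntermediateField.fixedField (Subgroup.zpowers (φ ^ r))
  have hE : finrank F E = r := by
    have h1 := IntermediateField.finrank_fixedField_eq_card (Subgroup.zpowers (φ ^ r))
    rw [Nat.card_zpowers, orderOf_pow_of_dvd (Nat.pos_of_mul_pos_right h0).ne'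
      (hφ ▸ dvd_mul_right r d), hφ, Nat.mul_div_cancel_left _ (Nat.pos_of_mul_pos_right h0)] at h1
    have h2 := Module.finrank_mul_finrank F E K
    rw [h1, hK.finrank_eq] at h2
    exact Nat.eq_of_mul_eq_mul_right (Nat.pos_of_mul_pos_left h0) h2
  have hmem : ∀ x, x ∈ E ↔ x ^ Fintype.card F ^ r = x := fun x => by
    have h1 : (φ ^ r) x = x ^ Fintype.card F ^ r := by
      rw [AlgEquiv.coe_pow, FiniteField.coe_frobeniusAlgEquivOfAlgebraic_iterate]
    rw [IntermediateField.mem_fixedField_iff, ← h1]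
    exact ⟨fun h => h _ (Subgroup.mem_zpowers _), fun h f hf =>
      (Subgroup.zpowers_le (H := MulAction.stabilizer _ x)).2 h hf⟩
  refine ⟨E.toSubalgebra.map K.val, ⟨?_, ?_, ?_⟩, fun x => ⟨?_, ?_⟩⟩
  · rintro _ ⟨x, -, rfl⟩ _ ⟨y, -, rfl⟩
    exact hK.comm _ x.2 _ y.2
  · rintro _ ⟨x, hx, rfl⟩ h0
    have h1 : x ≠ 0 := fun h => h0 (by simp [h])
    exact ⟨_, ⟨x⁻¹, E.inv_mem hx, rfl⟩, congrArg Subtype.val (mul_inv_cancel₀ h1)⟩
  · rw [← hE]
    exact (E.toSubalgebra.equivMapOfInjective K.val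
      Subtype.val_injective).toLinearEquiv.finrank_eq.symm
  · rintro ⟨y, hy, rfl⟩
    exact ⟨y.2, congrArg Subtype.val ((hmem y).1 hy)⟩
  · rintro ⟨hx, h⟩
    exact ⟨⟨x, hx⟩, (hmem _).2 (Subtype.ext h), rfl⟩

/-- The normaliser of a self-adjoint field of half the dimension lies in another class. -/
theorem comm_half_cases {Q : (ι → F) → F} (hQ : IsNondegenerateQuadraticForm Q)
    (hn : 3 ≤ Fintype.card ι) {r : ℕ} {K₀ : Subalgebra F (Matrix ι ι F)}
    (hK : IsFieldSubalgebra r K₀) (hs : IsSelfAdjointFor (polar Q) K₀)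
    (hr : Fintype.card ι = 2 * r) {H : Subgroup (GL ι F)} (hH : H ≤ isometryGroup F Q)
    (hirr : Irr H) (hN : H ≤ subalgebraNormalizer K₀) :
    (∃ (t k : ℕ) (D : Fin t → Submodule F (ι → F)), IsOrthogonalMDecomposition Q k D ∧
      (k = 1 → (Fintype.card F).Prime) ∧ H ≤ decompositionStabilizer D) ∨
    (∃ (k : ℕ) (D : Fin 2 → Submodule F (ι → F)), IsMDecomposition k D ∧
      (∀ i, IsTotallySingularQuad Q (D i)) ∧ H ≤ decompositionStabilizer D) ∨
    (∃ (F₀ : Subfield F) (r : ℕ) (P : GL ι F) (ζ : F), r.Prime ∧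
      Fintype.card F = Nat.card F₀ ^ r ∧ ζ ≠ 0 ∧
      IsQuadFormRationalStructure (fun v : ι → F => ζ * Q v) F₀ P ∧ H ≤ subfieldSubgroup F₀ P) ∨
    (∃ K : Subalgebra F (Matrix ι ι F), IsFieldSubalgebra 2 K ∧ IsSelfAdjointFor (polar Q) K ∧
      H ≤ subalgebraNormalizer K) ∨
    (∃ K : Subalgebra F (Matrix ι ι F), IsFieldSubalgebra 2 K ∧
      IsAdjointClosedFor (polar Q) K ∧ ¬ IsSelfAdjointFor (polar Q) K ∧
      (∀ k ∈ K, ∃ c : F, ∀ v : ι → F, Q (k *ᵥ v) = c * Q v) ∧ H ≤ subalgebraNormalizer K) := by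
  let B := oFrm hQ
  have hσ : B.σ = RingEquiv.refl F := rfl
  have hI : H ≤ B.Iso := hH.trans (isometryGroup_le_Iso hQ)
  have hS := hI.trans B.Iso_le_sim
  have : Nonempty ι := Fintype.card_pos_iff.1 (by omega)
  obtain ⟨K, h1, h2, h3, h4⟩ := exists_comm_of_half hQ hK hs hr hH hN
  by_cases he : ∃ e ∈ K, e * e = e ∧ e ≠ 0 ∧ e ≠ 1
  · obtain ⟨e, he, h5, h6, h7⟩ := he
    rcases B.idem_cases hS hirr h1 h2 h3 he h5 h6 h7 with ⟨t, k, D, a1, a2, a3⟩ |
      ⟨k, D, a1, a2, a3, -⟩
    · by_cases hk : k = 1 → (Fintype.card F).Prime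
      · refine .inl ⟨t, k, D, ⟨a1, fun i j => ?_⟩, hk, a2⟩
        obtain ⟨g, hg, hg'⟩ := a3 i j
        exact isometric_of_map (hH hg) hg'
      · push Not at hk
        obtain ⟨rfl, hk⟩ := hk
        obtain ⟨F₁, r, -, -, b1, -, b2, -⟩ :=
          exists_maximal_subfield (mt prime_card_of_bot_eq_top hk)
        obtain ⟨P, ζ, b3, b4, b5⟩ := rational_of_frame hQ hH a1 a2 a3 F₁
        exact .inr (.inr (.inl ⟨F₁, r, P, ζ, b1, b2, b3, b4, b5⟩))
    · refine .inr (.inl ⟨k, D, a1, fun i w hw => ?_, a3⟩)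
      by_cases h2 : (2 : F) = 0
      · obtain ⟨Q', b1, b2, b3, b4⟩ := B.exists_quad_of_pair hσ h2 a1 a2 hI a3
        rw [← hirr.quad_eq (by omega) h2 b1 hQ b2 b3 hH]
        exact b4 i w hw
      · exact quad_eq_zero_of_polar hQ h2 (a2 i w hw w hw)
  have hL : IsFieldSubalgebra (finrank F K) K := ⟨h3, fun x hx h0 => by
    obtain ⟨y, hy, hyx⟩ := (inv_or_idem (isSemisimpleRing_of_irr hirr h1) hx h0).resolve_right he
    exact ⟨y, hy, by rw [h3 x hx y hy, hyx]⟩, rfl⟩
  obtain ⟨d, hd⟩ := H25.dvd_card_of_field hL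
  have h5 : r < finrank F K := hK.finrank_eq ▸ Submodule.finrank_lt_finrank_of_lt
    (s := Subalgebra.toSubmodule K₀) (t := Subalgebra.toSubmodule K) h4
  obtain rfl : d = 1 := by
    rcases d with _ | _ | d
    · omega
    · rfl
    · nlinarith
  obtain ⟨K', h6, h8⟩ := exists_subfield_of_dvd (r := 2) (d := r) (K := K)
    (by rwa [← hr, hd, mul_one])
  have h7 : Inv H K' := fun g hg a ha =>
    (h8 _).2 ⟨h1 g hg a ((h8 a).1 ha).1, by rw [← map_pow, ((h8 a).1 ha).2]⟩
  have hc := B.closed_of_mem_iff h2 h8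
  by_cases hs : ∀ a ∈ K', B.adj a = a
  · exact .inr (.inr (.inr (.inl ⟨K', h6, B.isSelfAdjointFor_iff.2 hs,
      h7.le_subalgebraNormalizer⟩)))
  obtain ⟨-, a1⟩ := (B.selfAdj_or_two (fun _ => rfl) Nat.prime_two h6 hc).resolve_left hs
  refine .inr (.inr (.inr (.inr ⟨K', h6, hc.isAdjointClosedFor,
    mt B.isSelfAdjointFor_iff.1 hs, fun k hk => ?_, h7.le_subalgebraNormalizer⟩)))
  obtain ⟨c, hc'⟩ := a1 (B.adj k * k) (mul_mem (hc k hk) hk) (by rw [B.adj_mul, B.adj_adj])
  have a2 : ∀ u v, B.f (k *ᵥ u) (k *ᵥ v) = c * B.f u v := fun u v => by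
    rw [B.adj_right, mulVec_mulVec, hc', smul_mulVec, one_mulVec, B.smul_left]
  refine ⟨c, fun v => ?_⟩
  by_cases h2 : (2 : F) = 0
  · obtain ⟨ω, hω, b1, b2, b3⟩ := B.exists_quad_of_field hσ h2
      (fun v => (polar_self_eq hQ v).trans (by rw [h2, zero_mul])) hc a1 hs hI h7
    rw [← hirr.quad_eq (by omega) h2 b1 hQ b2 b3 hH, ← hirr.quad_eq (by omega) h2 b1 hQ b2 b3 hH,
      mulVec_mulVec, h6.comm ω hω k hk, ← mulVec_mulVec, a2]
  · refine mul_left_cancel₀ h2 ?_
    rw [← polar_self_eq hQ, mul_left_comm, ← polar_self_eq hQ]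
    exact a2 v v

end H19
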