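/- Orthogonal decompositions with small parts over small fields. -/
import Cfsg.Agent.H19.ORowType

set_option autoImplicit false

namespace H19
open Cfsg Cfsg.Geo Matrix QuadraticMap H56 H60 Module Submodule
open scoped MatrixGroups

variable {ι : Type} {F : Type*} [Field F] {Q : QuadraticForm F (ι → F)}

theorem isometric_of_img (g : O Q) (W : Submodule F (ι → F)) : AreIsometricFor ⇑Q W (img g W) :=
  ⟨g.1.submoduleMap W, fun w => g.map_Q w⟩

theorem IsoFor.symm {q : (ι → F) → F} {W W' : Submodule F (ι → F)} (h : AreIsometricFor q W W') :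
    AreIsometricFor q W' W := h.elim fun e he => ⟨e.symm, fun w => by rw [← he]; simp⟩

theorem IsoFor.trans {q : (ι → F) → F} {W W' W'' : Submodule F (ι → F)}
    (h : AreIsometricFor q W W') (h' : AreIsometricFor q W' W'') : AreIsometricFor q W W'' :=
  h.elim fun e he => h'.elim fun e' he' => ⟨e.trans e', fun w => (he' _).trans (he w)⟩

theorem isometric_span {a b : ι → F} (ha : a ≠ 0) (hb : b ≠ 0) (h : Q b = Q a) :
    AreIsometricFor ⇑Q (F ∙ a) (F ∙ b) :=
  ⟨(LinearEquiv.toSpanNonzeroSingleton F _ a ha).symm.trans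
    (LinearEquiv.toSpanNonzeroSingleton F _ b hb), fun w => by
      obtain ⟨c, rfl⟩ := (LinearEquiv.toSpanNonzeroSingleton F _ a ha).surjective w
      rw [LinearEquiv.trans_apply, LinearEquiv.symm_apply_apply]
      simp [H56.Q_smul, h]⟩

/-- A canonical orthogonal splitting of `U`, determined by the vectors of norm `d`. -/
structure Refines (Q : QuadraticForm F (ι → F)) (U : Submodule F (ι → F)) {s : ℕ} (l : ℕ) (d : F)
    (E : Fin s → Submodule F (ι → F)) : Prop where
  le : ∀ j, E j ≤ U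
  dim : ∀ j, finrank F (E j) = l
  nondeg : ∀ j, Nondeg Q (E j)
  gen : ∀ j, ∃ a b, Q a = d ∧ Q b = d ∧ polar Q a b ≠ 0 ∧ E j = span F {a, b}
  orth : ∀ j j', j ≠ j' → E j' ≤ perp Q (E j)
  mem : ∀ v ∈ U, Q v = d → ∃ j, v ∈ E j
  iso : ∀ j j', AreIsometricFor ⇑Q (E j) (E j')

theorem Refines.maps {U : Submodule F (ι → F)} {s l : ℕ} {d : F} {E : Fin s → Submodule F (ι → F)}
    (h : Refines Q U l d E) {g : O Q} (hg : ∀ v ∈ U, g v ∈ U) (j : Fin s) :
    ∃ j', ∀ v ∈ E j, g v ∈ E j' := by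
  obtain ⟨a, b, ha, hb, hab, hE⟩ := h.gen j
  obtain ⟨i, hi⟩ := h.mem _ (hg a (h.le j (hE ▸ subset_span (by simp)))) (by simpa using ha)
  obtain ⟨i', hi'⟩ := h.mem _ (hg b (h.le j (hE ▸ subset_span (by simp)))) (by simpa using hb)
  obtain rfl : i = i' := by
    by_contra hn
    exact hab (by simpa using mem_perp.1 (h.orth i i' hn hi') _ hi)
  refine ⟨i, fun v hv => ?_⟩
  obtain ⟨x, y, rfl⟩ := mem_span_pair.1 (hE ▸ hv)
  rw [map_add, map_smul, map_smul]
  exact add_mem (smul_mem _ _ hi) (smul_mem _ _ hi')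

theorem refines_frame (h2 : (2 : F) ≠ 0) {U : Submodule F (ι → F)} [FiniteDimensional F U] {k : ℕ}
    (hU : finrank F U = k) {d : F} (hd : d ≠ 0) {w : Fin k → ι → F} (h1 : ∀ j, w j ∈ U)
    (h3 : ∀ j, Q (w j) = d) (h4 : ∀ j j', j ≠ j' → polar Q (w j) (w j') = 0)
    (h5 : ∀ x : Fin k → F, ∑ j, x j * x j = 1 → ∃ j, ∀ j', j' ≠ j → x j' = 0) :
    Refines Q U 1 d fun j => F ∙ w j := by
  have hp : ∀ j, polar Q (w j) (w j) ≠ 0 := fun j => by
    rw [H56.polar_self', h3]; exact mul_ne_zero h2 hd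
  have h0 : ∀ j, w j ≠ 0 := fun j h => hp j (by simp [h])
  refine ⟨fun j => (span_singleton_le_iff_mem _ _).2 (h1 j), fun j => finrank_span_singleton (h0 j),
    fun j x hx hy => ?_, fun j => ⟨w j, w j, h3 j, h3 j, hp j, by simp⟩, fun j j' hj =>
      (span_singleton_le_iff_mem _ _).2 (mem_perp_span_singleton.2 (h4 j j' hj)), fun v hv hQv => ?_,
    fun j j' => isometric_span (h0 j) (h0 j') (by rw [h3, h3])⟩
  · obtain ⟨c, rfl⟩ := mem_span_singleton.1 hx
    have := hy _ (mem_span_singleton_self _)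
    rw [polar_smul_right, smul_eq_mul, mul_eq_zero] at this
    rw [this.resolve_right (hp j), zero_smul]
  have hl : LinearIndependent F w :=
    LinearMap.linearIndependent_of_isOrthoᵢ (B := Q.polarBilin) h4 hp
  have hs : span F (Set.range w) = U := eq_of_le_of_finrank_eq
    (span_le.2 (Set.range_subset_iff.2 h1)) (by rw [finrank_span_eq_card hl, hU]; simp)
  obtain ⟨x, rfl⟩ := (mem_span_range_iff_exists_fun F).1 (hs ▸ hv)
  obtain ⟨j, hj⟩ := h5 x (mul_right_cancel₀ (mul_ne_zero h2 hd) (by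
    conv_rhs => rw [one_mul, ← hQv, ← H56.polar_self', H58.polar_sum_left]
    rw [Finset.sum_mul]
    symm
    refine Finset.sum_congr rfl fun i _ => ?_
    rw [H58.polar_sum_right, Finset.sum_eq_single i (fun i' _ hi => by simp [h4 i i' hi.symm])
      (by simp), polar_smul_left, polar_smul_right, H56.polar_self', h3]
    simp only [smul_eq_mul]; ring))
  exact ⟨j, by
    rw [Finset.sum_eq_single j (fun i _ hi => by simp [hj i hi]) (by simp)]
    exact smul_mem _ _ (mem_span_singleton_self _)⟩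

theorem sum_sq_of_card_three [Fintype F] (hF : Fintype.card F = 3) {k : ℕ} (hk : k ≤ 3)
    (x : Fin k → F) (h : ∑ j, x j * x j = 1) : ∃ j, ∀ j', j' ≠ j → x j' = 0 := by
  classical
  rw [← Finset.sum_filter_of_ne (p := fun j => x j ≠ 0) fun j _ h h' => h (by simp [h']),
    Finset.sum_congr rfl fun j hj => H25.mul_self_eq_one_of_card_three hF
      (Finset.mem_filter.1 hj).2, Finset.sum_const, nsmul_one] at h
  have h1 := (Finset.card_filter_le Finset.univ fun j => x j ≠ 0).trans (by simpa using hk)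
  have h3 := H25.three_eq_zero_of_card_three hF
  obtain ⟨j, hj⟩ := Finset.card_eq_one.1 (show (Finset.univ.filter fun j => x j ≠ 0).card = 1 by
    generalize (Finset.univ.filter fun j => x j ≠ 0).card = c at h h1
    interval_cases c
    · simp at h
    · rfl
    · exact absurd (by linear_combination (exp := 1) h) (one_ne_zero (α := F))
    · exact absurd (by linear_combination (exp := 1) h3 - h) (one_ne_zero (α := F)))
  exact ⟨j, fun j' hj' => by
    by_contra h0
    exact hj' (Finset.mem_singleton.1 (hj ▸ Finset.mem_filter.2 ⟨Finset.mem_univ _, h0⟩))⟩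

variable [Fintype ι]

theorem refines_three [Fintype F] (hF : Fintype.card F = 3) {U : Submodule F (ι → F)}
    (hU : Nondeg Q U) (h3 : finrank F U = 3) :
    ∃ (d : F) (E : Fin 3 → Submodule F (ι → F)), Refines Q U 1 d E := by
  have h0 := H25.three_eq_zero_of_card_three hF
  have h2 : (2 : F) ≠ 0 := fun h => one_ne_zero (α := F) (by linear_combination h0 - h)
  obtain ⟨e, he, f, hf, hQe, hQf, hef⟩ := hU.hasHyp h3.ge
  obtain ⟨c, ⟨⟨hc, hec⟩, hfc⟩, hQc⟩ := (hU.inf_ort_pair he hf hQe hQf hef).exists_Q_ne fun h => by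
    have h1 := finrank_le_inf_ort (Q := Q) U e
    have h2 := finrank_le_inf_ort (Q := Q) (U ⊓ ort Q e) f
    rw [h, finrank_bot] at h2; omega
  have a1 := mem_ort.1 hec
  have a2 := mem_ort.1 hfc
  replace hc : c ∈ U := hc
  have a3 := H25.mul_self_eq_one_of_card_three hF hQc
  refine ⟨-Q c, _, refines_frame h2 h3 (neg_ne_zero.2 hQc)
    (w := ![e - Q c • f, e + Q c • f + c, e + Q c • f - c]) (fun j => ?_) (fun j => ?_)
    (fun j j' hj => ?_) (sum_sq_of_card_three hF le_rfl)⟩
  · fin_cases j <;> simp [U.add_mem_iff_left hc, U.sub_mem_iff_left hc, add_mem, sub_mem, smul_mem,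
      he, hf]
  · fin_cases j <;> simp [H56.Q_add, H56.Q_sub, H56.Q_smul, hQe, hQf, hef, a1, a2] <;>
      linear_combination Q c * h0
  · fin_cases j <;> fin_cases j' <;> simp at hj <;>
      simp [polar_comm Q f e, polar_comm Q c, hQe, hQf, hef, a1, a2] <;> ring

theorem refines_minus_three [Fintype F] (hF : Fintype.card F = 3) {U : Submodule F (ι → F)}
    (hU : Nondeg Q U) (h2 : finrank F U = 2) (hm : ¬ IsPlusTypeOn ⇑Q U) :
    ∃ (d : F) (E : Fin 2 → Submodule F (ι → F)), Refines Q U 1 d E := by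
  have h0 := H25.three_eq_zero_of_card_three hF
  have h2' : (2 : F) ≠ 0 := fun h => one_ne_zero (α := F) (by linear_combination h0 - h)
  have ha : ∀ v ∈ U, v ≠ 0 → Q v ≠ 0 := fun v hv hv0 h => hm ⟨F ∙ v,
    (span_singleton_le_iff_mem _ _).2 hv, fun w hw => by
      obtain ⟨c, rfl⟩ := mem_span_singleton.1 hw
      simp [H56.Q_smul, h], by rw [finrank_span_singleton hv0, h2]⟩
  obtain ⟨a, haU, hQa⟩ := hU.exists_Q_ne fun h => by subst h; simp at h2
  obtain ⟨b, ⟨hb, hab⟩, hb0⟩ := exists_mem_ne_zero_of_ne_bot (p := U ⊓ ort Q a) fun h => by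
    have h1 := finrank_le_inf_ort (Q := Q) U a
    rw [h, finrank_bot] at h1; omega
  have a1 := mem_ort.1 hab
  replace hb : b ∈ U := hb
  have a2 : Q b = Q a := (mul_self_eq_mul_self_iff.1 ((H25.mul_self_eq_one_of_card_three hF
    (ha b hb hb0)).trans (H25.mul_self_eq_one_of_card_three hF hQa).symm)).resolve_right fun h =>
      ha _ (add_mem haU hb) (fun h' => mul_ne_zero h2' hQa (by
        have := congrArg (polar Q a) h'
        simpa [a1, H56.polar_self'] using this)) (by rw [H56.Q_add, a1, h]; ring)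
  refine ⟨Q a, _, refines_frame h2' h2 hQa (w := ![a, b]) (fun j => ?_) (fun j => ?_)
    (fun j j' hj => ?_) (sum_sq_of_card_three hF (by norm_num))⟩
  · fin_cases j <;> simp [haU, hb]
  · fin_cases j <;> simp [a2]
  · fin_cases j <;> fin_cases j' <;> simp at hj <;> simp [polar_comm Q b a, a1]

theorem refines_plus_five [Fintype F] (hF : Fintype.card F = 5) {U : Submodule F (ι → F)}
    (hU : Nondeg Q U) (h2 : finrank F U = 2) (hp : IsPlusTypeOn ⇑Q U) :
    ∃ (d : F) (E : Fin 2 → Submodule F (ι → F)), Refines Q U 1 d E := by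
  have h0 : (5 : F) = 0 := by simpa [hF] using FiniteField.cast_card_eq_zero F
  have h2' : (2 : F) ≠ 0 := fun h => one_ne_zero (α := F) (by linear_combination h0 - 2 * h)
  obtain ⟨e, he, f, hf, hQe, hQf, hef⟩ := hasHyp_of_isPlusTypeOn hU
    (fun h => by subst h; simp at h2) hp
  refine ⟨1, _, refines_frame h2' h2 one_ne_zero (w := ![e + f, (2 : F) • (e - f)]) (fun j => ?_)
    (fun j => ?_) (fun j j' hj => ?_) fun x hx => ?_⟩
  · fin_cases j <;> simp [add_mem, sub_mem, smul_mem, he, hf]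
  · fin_cases j <;> simp [H56.Q_add, H56.Q_sub, H56.Q_smul, hQe, hQf, hef]
    linear_combination -h0
  · fin_cases j <;> fin_cases j' <;> simp at hj <;>
      simp [polar_comm Q f e, hQe, hQf, hef]
  have hs : ∀ y : F, y ≠ 0 → y * y = 1 ∨ y * y = -1 := fun y hy => mul_self_eq_one_iff.1 (by
    have := FiniteField.pow_card_sub_one_eq_one y hy
    rw [hF] at this; linear_combination this)
  rw [Fin.sum_univ_two] at hx
  by_cases a0 : x 0 = 0
  · exact ⟨1, fun j hj => by fin_cases j <;> simp_all⟩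
  by_cases a1 : x 1 = 0
  · exact ⟨0, fun j hj => by fin_cases j <;> simp_all⟩
  exfalso
  rcases hs _ a0 with b0 | b0 <;> rcases hs _ a1 with b1 | b1 <;> rw [b0, b1] at hx
  · exact one_ne_zero (α := F) (by linear_combination hx)
  · exact one_ne_zero (α := F) (by linear_combination -hx)
  · exact one_ne_zero (α := F) (by linear_combination -hx)
  · exact h2' (by linear_combination h0 + hx)

theorem refines_four_two [Fintype F] (hF : Fintype.card F = 2) {U : Submodule F (ι → F)}
    (hU : Nondeg Q U) (h4 : finrank F U = 4) (hp : IsPlusTypeOn ⇑Q U) :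
    ∃ E : Fin 2 → Submodule F (ι → F), Refines Q U 2 1 E ∧ ∀ j, ¬ IsPlusTypeOn ⇑Q (E j) := by
  have h2 := H25.two_eq_zero_of_card_two hF
  have h01 := eq_zero_or_one_of_card_two hF
  obtain ⟨L, hL⟩ := (isPlusTypeOn_iff.1 hp).exists_equiv hU.restrict (m := 2) h4
  let e : Fin 2 → ι → F := fun i => L (Pi.single (.inl i) 1)
  let f : Fin 2 → ι → F := fun i => L (Pi.single (.inr i) 1)
  have h : H58.IsHypFrame Q e f := ((H58.frame_qPlus F 2).map L.toLinearMap hL).map U.subtype
    fun _ => rfl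
  let a : Fin 2 → ι → F := fun j => e j + f j
  let b : Fin 2 → ι → F := fun j => e j.rev + f j.rev + e j
  have ha : ∀ j, Q (a j) = 1 := fun j => by simp [a, H56.Q_add, h.qe, h.qf, h.ef]
  have hb : ∀ j, Q (b j) = 1 := fun j => by
    fin_cases j <;> simp [b, H56.Q_add, h.qe, h.qf, h.ef, h.ee, h.fe]
  have hab : ∀ j, polar Q (a j) (b j) = 1 := fun j => by
    fin_cases j <;> simp [a, b, h.ef, h.ee, h.fe, h.ff]
  have hQ : ∀ j (x y : F), Q (x • a j + y • b j) = 0 → x = 0 ∧ y = 0 := fun j x y hxy => by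
    rw [H58.Q_lin2, ha, hb, hab] at hxy
    rcases h01 x with rfl | rfl <;> rcases h01 y with rfl | rfl <;> simp at hxy ⊢
    exact one_ne_zero (α := F) (by linear_combination hxy - h2)
  have hn : ∀ j, Nondeg Q (span F {a j, b j}) := fun j v hv hy => by
    obtain ⟨x, y, rfl⟩ := mem_span_pair.1 hv
    have c1 := hy (a j) (subset_span (by simp))
    have c2 := hy (b j) (subset_span (by simp))
    simp only [polar_add_right, polar_smul_right, H56.polar_self', h2, hab, polar_comm Q (b j) (a j),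
      smul_eq_mul, zero_mul, mul_zero, zero_add, add_zero, mul_one] at c1 c2
    simp [c1, c2]
  have hd : ∀ j, finrank F (span F {a j, b j}) = 2 := fun j => finrank_span_pair
    (LinearIndependent.pair_iff.2 fun x y hxy => hQ j x y (by rw [hxy, map_zero]))
  have hm : ∀ j, ¬ IsPlusTypeOn ⇑Q (span F {a j, b j}) := fun j ⟨X, a1, a2, a3⟩ => by
    obtain ⟨v, hv, hv0⟩ := exists_mem_ne_zero_of_ne_bot (p := X) fun h => by
      rw [h, hd] at a3; simp at a3
    obtain ⟨x, y, rfl⟩ := mem_span_pair.1 (a1 hv)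
    obtain ⟨rfl, rfl⟩ := hQ j x y (a2 _ hv)
    simp at hv0
  refine ⟨_, ⟨fun j => span_le.2 ?_, hd, hn, fun j => ⟨_, _, ha j, hb j, by simp [hab], rfl⟩,
    fun j j' hj => span_le.2 ?_, fun v hv hQv => ?_, fun j j' => isometric_of_type (hn j) (hn j')
      (by rw [hd, hd]) (by rw [hd]; decide) (by simp [hm])⟩, hm⟩
  · rintro _ (rfl | rfl) <;> simp [a, b, e, f, add_mem]
  · rintro _ (rfl | rfl) <;> refine mem_perp_span_pair.2 ?_ <;> fin_cases j <;> fin_cases j' <;>
      simp at hj <;> simp [a, b, h.ef, h.ee, h.fe, h.ff, one_add_one_eq_two, h2]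
  obtain ⟨x, hx⟩ := L.surjective ⟨v, hv⟩
  have c1 : v = x (.inl 0) • e 0 + x (.inl 1) • e 1 + x (.inr 0) • f 0 + x (.inr 1) • f 1 := by
    have := congrArg (fun y => (L y : ι → F)) (pi_eq_sum_univ' x)
    simpa [hx, e, f, add_assoc] using this
  have c2 : x (.inl 0) * x (.inr 0) + x (.inl 1) * x (.inr 1) = 1 := by
    have := hL x
    rw [hx, H58.qPlus_apply, Fin.sum_univ_two] at this
    exact this.symm.trans hQv
  have k : ∀ (j : Fin 2) (s t : F), v = s • a j + t • b j → ∃ j, v ∈ span F {a j, b j} :=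
    fun j s t h => ⟨j, mem_span_pair.2 ⟨s, t, h.symm⟩⟩
  have h11 : (1 : F) + 1 = 0 := one_add_one_eq_two.trans h2
  have r0 : (0 : Fin 2).rev = 1 := rfl
  have r1 : (1 : Fin 2).rev = 0 := rfl
  rcases h01 (x (.inl 0)) with a0 | a0 <;> rcases h01 (x (.inl 1)) with a1 | a1 <;>
    rcases h01 (x (.inr 0)) with b0 | b0 <;> rcases h01 (x (.inr 1)) with b1 | b1 <;>
    simp only [a0, a1, b0, b1, mul_zero, mul_one, add_zero, zero_add, zero_ne_one,
      h11] at c1 c2
  all_goals first
    | (refine k 0 1 0 ?_; rw [c1]; simp only [a]; module)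
    | (refine k 0 0 1 ?_; rw [c1]; simp only [b, r0]; module)
    | (refine k 1 1 0 ?_; rw [c1]; simp only [a]; module)
    | (refine k 1 0 1 ?_; rw [c1]; simp only [b, r1]; module)
    | (refine k 0 1 1 ?_; rw [c1]; simp only [a, b, r0]; linear_combination (norm := module) -h11 • e 0)
    | (refine k 1 1 1 ?_; rw [c1]; simp only [a, b, r1]; linear_combination (norm := module) -h11 • e 1)

variable [DecidableEq ι] {t k : ℕ} {D : Fin t → Submodule F (ι → F)}

theorem Refines.decomp (hQ : Q.polarBilin.Nondegenerate) {s l : ℕ} (hs : 0 < s)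
    (hD : IsOrthogonalMDecomposition ⇑Q (s * l) D) {i₀ : Fin t} {d : F}
    {E : Fin s → Submodule F (ι → F)} (h : Refines Q (D i₀) l d E) :
    ∃ D' : Fin (t * s) → Submodule F (ι → F), IsOrthogonalMDecomposition ⇑Q l D' ∧
      (∀ x, ∃ j, AreIsometricFor ⇑Q (E j) (D' x)) ∧
      decompositionStabilizer D ⊓ isometryGroup F ⇑Q ≤ decompositionStabilizer D' := by
  choose g hg using fun i => exists_img_of_isometric hQ (hD.isometric i₀ i)
  let p : Fin (t * s) → Fin t × Fin s := finProdFinEquiv.symm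
  have h1 := hD.decomp.decomp
  have hD' : IsNondegenerateMDecomposition (polar ⇑Q) l fun x => img (g (p x).1) (E (p x).2) := by
    refine H25.isNondegMDec (H25.isSes_of_quadratic (isNondegenerateQuadraticForm_coe hQ))
      (h1.two_le.trans (Nat.le_mul_of_pos_right t hs)) (Nat.pos_of_mul_pos_left h1.pos)
      (fun x => by rw [finrank_img, h.dim]) (fun x => on_of_nondeg ((h.nondeg _).img _))
      (fun x y hxy u hu v hv => ?_) (by rw [H25.card_eq_of_decomp h1, mul_assoc])
    by_cases hi : (p x).1 = (p y).1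
    · rw [← hi] at hv
      have := h.orth (p x).2 (p y).2 (fun h' => hxy (finProdFinEquiv.symm.injective
        (Prod.ext hi h'))) (mem_img.1 hv) _ (mem_img.1 hu)
      simpa using this
    · exact hD.decomp.orthogonal _ _ hi u (hg _ ▸ img_mono _ (h.le _) hu) v
        (hg _ ▸ img_mono _ (h.le _) hv)
  refine ⟨_, ⟨hD', fun x y => IsoFor.trans (IsoFor.trans (IsoFor.symm (isometric_of_img _ _))
    (h.iso _ _)) (isometric_of_img _ _)⟩, fun x => ⟨_, isometric_of_img _ _⟩, ?_⟩
  rintro a ⟨ha, ha'⟩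
  obtain ⟨a, rfl⟩ := exists_toGL ha'
  obtain ⟨σ, hσ⟩ := H25.exists_perm_of_mem_decomp ha
  refine H25.mem_decomp_of_maps hD'.decomp fun x => ?_
  obtain ⟨j, hj⟩ := h.maps (g := (g (σ (p x).1))⁻¹ * a * g (p x).1) (fun v hv => by
    have := hσ (p x).1 _ (hg _ ▸ apply_mem_img.2 hv)
    rwa [← hg, mem_img, toGL_mulVec] at this) (p x).2
  refine ⟨finProdFinEquiv (σ (p x).1, j), fun v hv => ?_⟩
  simpa [p, mem_img] using hj _ (mem_img.1 hv)

theorem not_irr_of_small_plus [Finite F] (hF : Nat.card F ≤ 3)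
    (hD : IsNondegenerateMDecomposition (polar ⇑Q) 2 D) {i : Fin t} (hp : IsPlusTypeOn ⇑Q (D i))
    {H : Subgroup (GL ι F)} (hH : H ≤ decompositionStabilizer D) (hI : H ≤ isometryGroup F ⇑Q) :
    ¬ Irr H := fun hirr => by
  have h2 := hD.decomp.finrank_eq i
  obtain ⟨e, he, f, hf, hQe, hQf, hef⟩ := hasHyp_of_isPlusTypeOn (nondeg_of_on (hD.nondegenerate i))
    (fun h => by rw [h] at h2; simp at h2) hp
  rcases hirr.eq_bot_or_top (span F {v | Q v = 1 ∧ ∃ j, v ∈ D j}) (fun g hg w hw => by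
    obtain ⟨σ, hσ⟩ := H25.exists_perm_of_mem_decomp (hH hg)
    refine (span_le (p := (span F _).comap (Matrix.toLin' (g : Matrix ι ι F)))).2 ?_ hw
    rintro v ⟨h1, j, hj⟩
    exact subset_span ⟨(Q_mulVec (hI hg) v).trans h1, σ j, hσ j v hj⟩) with h | h
  · have : e + f = 0 := (span_eq_bot.1 h) _ ⟨by simp [H56.Q_add, hQe, hQf, hef], i, add_mem he hf⟩
    simpa [hQe, hef] using congrArg (polar Q e) this
  have : span F {v | Q v = 1 ∧ ∃ j, v ∈ D j} ≤ ort Q (e - f) := span_le.2 fun v ⟨h1, j, hj⟩ => by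
    by_cases hij : i = j
    · subst hij
      obtain ⟨x, y, rfl⟩ := mem_span_pair.1 (eq_span_of_hyp h2 he hf hQe hQf hef ▸ hj)
      have h3 : x * y = 1 := by simpa [H58.Q_lin2, hQe, hQf, hef] using h1
      have h4 := mul_self_eq_one_of_card_le hF (left_ne_zero_of_mul_eq_one h3)
      simp only [SetLike.mem_coe, mem_ort, polar_sub_left, polar_add_right, polar_smul_right,
        pself hQe, pself hQf, hef, polar_comm Q f e, smul_eq_mul]
      linear_combination x * h3 - y * h4
    · exact hD.orthogonal i j hij _ (sub_mem he hf) v hj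
  simpa [hQe, hef, polar_comm Q f e] using mem_ort.1 (this (h ▸ mem_top : e ∈ _))

theorem rational_of_cols {F₀ : Subfield F} {P : GL ι F}
    (h1 : ∀ i, Q ((P : Matrix ι ι F) *ᵥ Pi.single i 1) ∈ F₀) (h2 : ∀ i j, polar Q
      ((P : Matrix ι ι F) *ᵥ Pi.single i 1) ((P : Matrix ι ι F) *ᵥ Pi.single j 1) ∈ F₀) :
    IsQuadFormRationalStructure ⇑Q F₀ P := fun u hu => by
  rw [pi_eq_sum_univ' u, mulVec_sum]
  simp only [mulVec_smul]
  induction (Finset.univ : Finset ι) using Finset.induction_on with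
  | empty => simp
  | insert a s ha ih =>
    rw [Finset.sum_insert ha, H56.Q_add, H56.Q_smul, H58.polar_sum_right]
    refine add_mem (add_mem (mul_mem (mul_mem (hu a) (hu a)) (h1 a)) ih) (sum_mem fun j _ => ?_)
    rw [polar_smul_left, polar_smul_right]
    exact mul_mem (hu a) (mul_mem (hu j) (h2 a j))

theorem mem_subfield_of_cols {F₀ : Subfield F} {P g : GL ι F} (h : ∀ i, ∃ u : ι → F,
    (∀ j, u j ∈ F₀) ∧ (g : Matrix ι ι F) *ᵥ ((P : Matrix ι ι F) *ᵥ Pi.single i 1) =
      (P : Matrix ι ι F) *ᵥ u) : g ∈ subfieldSubgroup F₀ P :=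
  mem_subfieldSubgroup_iff.2 ⟨1, one_ne_zero, fun r i => by
    obtain ⟨u, hu, h⟩ := h i
    have := congrFun (congrArg (fun v => ((P⁻¹ : GL ι F) : Matrix ι ι F) *ᵥ v) h) r
    simp only [inv_mulVec_mulVec] at this
    rw [mulVec_mulVec, mulVec_mulVec, mulVec_single_one] at this
    rw [one_smul, cj_apply, inv_inv]
    exact Eq.subst (motive := (· ∈ F₀)) this.symm (hu r)⟩

theorem le_subfield_of_four [Fintype F] (hF : Fintype.card F = 4)
    (hD : IsNondegenerateMDecomposition (polar ⇑Q) 2 D) (hp : ∀ i, IsPlusTypeOn ⇑Q (D i)) :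
    ∃ (F₀ : Subfield F) (P : GL ι F), Fintype.card F = Nat.card F₀ ^ 2 ∧
      IsQuadFormRationalStructure ⇑Q F₀ P ∧
      decompositionStabilizer D ⊓ isometryGroup F ⇑Q ≤ subfieldSubgroup F₀ P := by
  classical
  have h2 : (2 : F) = 0 := two_eq_zero_of_not_odd (by rw [hF]; decide)
  have h3 : ∀ x : F, x ≠ 0 → x ^ 3 = 1 := fun x hx => by
    simpa [hF] using FiniteField.pow_card_sub_one_eq_one x hx
  obtain ⟨ω, -, hω⟩ := Finset.exists_mem_notMem_of_card_lt_card (s := ({0, 1} : Finset F))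
    (t := Finset.univ) (Finset.card_le_two.trans_lt (by rw [Finset.card_univ]; omega))
  simp only [Finset.mem_insert, Finset.mem_singleton, not_or] at hω
  have h4 : ω ^ 2 + ω + 1 = 0 := mul_left_cancel₀ (sub_ne_zero.2 hω.2) (by
    linear_combination h3 ω hω.1)
  have hb : ∀ i, ∃ b : Basis (Fin 2) F (D i), (∀ j, Q (b j) = 1) ∧ polar Q (b 0) (b 1) = 1 := by
    intro i
    have hd := hD.decomp.finrank_eq i
    obtain ⟨e, he, f, hf, hQe, hQf, hef⟩ := hasHyp_of_isPlusTypeOn
      (nondeg_of_on (hD.nondegenerate i)) (fun h => by rw [h] at hd; simp at hd) (hp i)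
    have a1 : Q (e + f) = 1 := by simp [H56.Q_add, hQe, hQf, hef]
    have a2 : Q (ω • e + ω ^ 2 • f) = 1 := by
      rw [H58.Q_lin2, hQe, hQf, hef]; linear_combination h3 ω hω.1
    have a3 : polar Q (e + f) (ω • e + ω ^ 2 • f) = 1 := by
      simp only [polar_add_left, polar_add_right, polar_smul_right, pself hQe, pself hQf, hef,
        polar_comm Q f e, smul_eq_mul]
      linear_combination h4 - h2
    have hl : LinearIndependent F ![(⟨e + f, add_mem he hf⟩ : D i),
        ⟨ω • e + ω ^ 2 • f, add_mem (smul_mem _ _ he) (smul_mem _ _ hf)⟩] := by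
      refine LinearIndependent.pair_iff.2 fun x y hxy => ?_
      have c1 := congrArg (fun v : D i => polar Q (e + f) v) hxy
      have c2 := congrArg (fun v : D i => polar Q v (ω • e + ω ^ 2 • f)) hxy
      simp only [Submodule.coe_add, Submodule.coe_smul, polar_add_left Q (x • _),
        polar_add_right Q _ (x • _), polar_smul_left, polar_smul_right, H56.polar_self', h2, a3,
        smul_eq_mul, zero_mul, mul_zero, zero_add, add_zero, mul_one, Submodule.coe_zero,
        polar_zero_left, polar_zero_right] at c1 c2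
      exact ⟨c2, c1⟩
    refine ⟨basisOfLinearIndependentOfCardEqFinrank hl (by simp [hd]), fun j => ?_, ?_⟩ <;>
      rw [coe_basisOfLinearIndependentOfCardEqFinrank]
    · fin_cases j <;> assumption
    · exact a3
  choose b hb1 hb2 using hb
  obtain ⟨e, P, hP, -⟩ := H25.exists_tr_of_bases hD.decomp b
  have hc : ∀ l, (P : Matrix ι ι F) *ᵥ Pi.single l 1 = b (e l).2 (e l).1 := fun l => by
    rw [← hP, trV_apply]; congr 1; ext r; simp [Pi.single_apply]
  have : CharP F 2 := (CharP.charP_iff_prime_eq_zero Nat.prime_two).2 h2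
  refine ⟨⊥, P, by rw [Subfield.card_bot F 2, hF]; rfl, rational_of_cols (fun l => by simp [hc, hb1])
    fun l l' => ?_, fun g ⟨hg, hg'⟩ => mem_subfield_of_cols fun l => ?_⟩
  · rw [hc, hc]
    obtain ⟨⟨j, i⟩, ⟨j', i'⟩⟩ := e l, e l'
    by_cases hi : i = i'
    · subst hi
      fin_cases j <;> fin_cases j' <;> simp [h2, hb2, polar_comm Q (b i 1)]
    · rw [hD.orthogonal i i' hi _ (b i j).2 _ (b i' j').2]; exact zero_mem _
  obtain ⟨σ, hσ⟩ := H25.exists_perm_of_mem_decomp hg
  rw [hc]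
  have a1 := (b _).sum_repr ⟨_, hσ _ _ (b (e l).2 (e l).1).2⟩
  have a2 := (Q_mulVec hg' _).trans (hb1 (e l).2 (e l).1)
  generalize (b _).repr _ = x at a1
  replace a1 := congrArg Subtype.val a1
  simp only [Fin.sum_univ_two, Submodule.coe_add, Submodule.coe_smul] at a1
  rw [← a1] at a2 ⊢
  rw [H58.Q_lin2, hb1, hb1, hb2] at a2
  have a3 : x 0 ∈ (⊥ : Subfield F) ∧ x 1 ∈ (⊥ : Subfield F) := by
    by_cases h0 : x 0 = 0
    · rw [h0, show x 1 = 1 by
        refine sub_eq_zero.1 (pow_eq_zero_iff two_ne_zero |>.1 ?_)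
        rw [h0] at a2; linear_combination a2 + (1 - x 1) * h2]
      simp
    by_cases h1 : x 1 = 0
    · rw [h1, show x 0 = 1 by
        refine sub_eq_zero.1 (pow_eq_zero_iff two_ne_zero |>.1 ?_)
        rw [h1] at a2; linear_combination a2 + (1 - x 0) * h2]
      simp
    have a4 : x 1 = x 0 := by linear_combination (x 0 - x 1) * a2 - h3 _ h0 + h3 _ h1
    rw [a4, show x 0 = 1 by
      refine sub_eq_zero.1 (pow_eq_zero_iff two_ne_zero |>.1 ?_)
      rw [a4] at a2; linear_combination a2 + (1 - x 0 - x 0 ^ 2) * h2]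
    simp
  refine ⟨(x 0 • Pi.single (0, σ (e l).2) 1 + x 1 • Pi.single (1, σ (e l).2) 1) ∘ e, fun j => ?_, ?_⟩
  · simp only [Function.comp, Pi.add_apply, Pi.smul_apply, Pi.single_apply, smul_eq_mul, mul_ite,
      mul_one, mul_zero]
    split_ifs <;> simp [a3, add_mem]
  · rw [← trV_apply, map_add, map_smul, map_smul, hP, hP]

end H19
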