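/- Tensor decompositions of orthogonal spaces of small dimension. -/
import Cfsg.Agent.H19.ORowType

set_option autoImplicit false

namespace H19
open Cfsg Cfsg.Geo Matrix QuadraticMap H56 H60 Module Submodule
open scoped MatrixGroups Kronecker

variable {ι : Type} [Fintype ι] [DecidableEq ι] {F : Type*} [Field F]

theorem det_eq_one_of_mem_omega {q : (ι → F) → F} {g : GL ι F} (hg : g ∈ omegaGL q) :
    (g : Matrix ι ι F).det = 1 := by
  obtain ⟨k, hk, rfl⟩ := hg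
  exact congrArg Units.val (Abelianization.commutator_subset_ker
    (GeneralLinearGroup.det.comp (isometryGroup F q).subtype) hk)

variable (F) in
/-- `x ↦ x ⊗ 1` in dimension four. -/
def kl4 : Matrix (Fin 2) (Fin 2) F →ₐ[F] Matrix (Fin 4) (Fin 4) F where
  toFun x := !![x 0 0, 0, x 0 1, 0; 0, x 0 0, 0, x 0 1; x 1 0, 0, x 1 1, 0; 0, x 1 0, 0, x 1 1]
  map_one' := by ext i j; fin_cases i <;> fin_cases j <;> simp
  map_mul' x y := by
    ext i j; fin_cases i <;> fin_cases j <;> simp [mul_apply, Fin.sum_univ_four]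
  map_zero' := by ext i j; fin_cases i <;> fin_cases j <;> simp
  map_add' x y := by ext i j; fin_cases i <;> fin_cases j <;> simp
  commutes' c := by ext i j; fin_cases i <;> fin_cases j <;> simp [algebraMap_matrix_apply]

theorem kl4_apply (x : Matrix (Fin 2) (Fin 2) F) : kl4 F x =
    !![x 0 0, 0, x 0 1, 0; 0, x 0 0, 0, x 0 1; x 1 0, 0, x 1 1, 0; 0, x 1 0, 0, x 1 1] := rfl

variable (F) in
/-- The Gram matrix `J ⊗ J`. -/
def gJJ : Matrix (Fin 4) (Fin 4) F := !![0, 0, 0, 1; 0, 0, -1, 0; 0, -1, 0, 0; 1, 0, 0, 0]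

theorem gJJ_mul_self : gJJ F * gJJ F = 1 := by
  ext i j; fin_cases i <;> fin_cases j <;> simp [gJJ, mul_apply, Fin.sum_univ_four]

/-- The Pfaffian of a `4 × 4` matrix. -/
def pf4 (A : Matrix (Fin 4) (Fin 4) F) : F := A 0 1 * A 2 3 - A 0 2 * A 1 3 + A 0 3 * A 1 2

theorem eq_of_skew (h2 : (2 : F) ≠ 0) {A : Matrix (Fin 4) (Fin 4) F} (h : Aᵀ = -A) :
    ∃ a b c d e f : F, A = !![0, a, b, c; -a, 0, d, e; -b, -d, 0, f; -c, -e, -f, 0] := by
  have h1 : ∀ i j, A j i = -A i j := fun i j => congrFun (congrFun h i) j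
  have h0 : ∀ i, A i i = 0 := fun i => mul_left_cancel₀ h2 (by linear_combination h1 i i)
  refine ⟨A 0 1, A 0 2, A 0 3, A 1 2, A 1 3, A 2 3, ?_⟩
  ext i j; fin_cases i <;> fin_cases j <;> simp [h0, ← h1]

theorem pf4_conj (h2 : (2 : F) ≠ 0) {A : Matrix (Fin 4) (Fin 4) F} (h : Aᵀ = -A)
    (M : Matrix (Fin 4) (Fin 4) F) : pf4 (Mᵀ * A * M) = M.det * pf4 A := by
  obtain ⟨a, b, c, d, e, f, rfl⟩ := eq_of_skew h2 h
  simp [pf4, mul_apply, det_succ_row_zero, Fin.sum_univ_succ, Fin.succAbove]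
  ring

theorem mem_kl4 (h2 : (2 : F) ≠ 0) {s : Matrix (Fin 4) (Fin 4) F} (h : (gJJ F * s)ᵀ = -(gJJ F * s))
    {l : F} (hl : l ≠ 0) (h1 : s * s = l • (1 : Matrix (Fin 4) (Fin 4) F))
    (h3 : pf4 (gJJ F * s) = -l) : s ∈ (kl4 F).range := by
  obtain ⟨a, b, c, d, e, f, h4⟩ := eq_of_skew h2 h
  rw [h4] at h3
  obtain rfl : s = !![-c, -e, -f, 0; b, d, 0, -f; a, 0, -d, -e; 0, a, b, c] := by
    rw [← one_mul s, ← gJJ_mul_self, mul_assoc, h4]
    ext i j; fin_cases i <;> fin_cases j <;> simp [gJJ, mul_apply, Fin.sum_univ_four]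
  have h5 := fun i j => congrFun (congrFun h1 i) j
  have a00 := h5 0 0
  have a11 := h5 1 1
  have a01 := h5 0 1
  have a02 := h5 0 2
  have a03 := h5 0 3
  have a10 := h5 1 0
  have a30 := h5 3 0
  simp [pf4, mul_apply, Fin.sum_univ_four, -mul_eq_zero] at h3 a00 a11 a01 a02 a03 a10 a30
  have h6 : (4 : F) * l ≠ 0 := mul_ne_zero (by rw [show (4 : F) = 2 * 2 by norm_num]; positivity) hl
  have k : 4 * l = (c - d) ^ 2 - 4 * a * f := by linear_combination -a00 - a11 + 2 * h3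
  obtain rfl : e = 0 := (mul_eq_zero.1 (by
    rw [k]; linear_combination (c - d) * a01 - 2 * a * a03)).resolve_left h6
  obtain rfl : b = 0 := (mul_eq_zero.1 (by
    rw [k]; linear_combination (d - c) * a10 - 2 * f * a30)).resolve_left h6
  obtain rfl : c = -d := eq_neg_of_add_eq_zero_left ((mul_eq_zero.1 (by
    rw [k]; linear_combination (c - d) * (a00 - a11) - 4 * a * a02)).resolve_left h6)
  exact ⟨!![d, -f; a, -d], by simp [kl4_apply]⟩

theorem cj_kl4_mem (h2 : (2 : F) ≠ 0) {b : GL (Fin 4) F} {l : F} (hl : l ≠ 0)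
    (hb : (b : Matrix (Fin 4) (Fin 4) F)ᵀ * gJJ F * b = l • gJJ F)
    (hd : (b : Matrix (Fin 4) (Fin 4) F).det = l ^ 2) (x : Matrix (Fin 2) (Fin 2) F) :
    cj b (kl4 F x) ∈ (kl4 F).range := by
  have key : ∀ p q r : F, p * p + q * r ≠ 0 → cj b (kl4 F !![p, q; r, -p]) ∈ (kl4 F).range := by
    intro p q r h
    set s := kl4 F !![p, q; r, -p] with hs
    have h1 : (b : Matrix (Fin 4) (Fin 4) F)ᵀ * (gJJ F * cj b s) * b = l • (gJJ F * s) := by
      rw [mul_assoc, mul_assoc, cj_mul_self, ← mul_assoc, ← mul_assoc, hb, smul_mul_assoc]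
    have h3 : (gJJ F * s)ᵀ = -(gJJ F * s) := by
      ext i j; fin_cases i <;> fin_cases j <;> simp [hs, kl4_apply, gJJ]
    have h4 : (gJJ F * cj b s)ᵀ = -(gJJ F * cj b s) := by
      have := congrArg transpose h1
      rw [transpose_smul, h3, smul_neg, ← h1, transpose_mul, transpose_mul, transpose_transpose,
        ← mul_assoc, ← neg_mul, ← mul_neg] at this
      exact ((isUnit_transpose _).2 b.isUnit).mul_left_cancel (b.isUnit.mul_right_cancel this)
    refine mem_kl4 h2 h4 h ?_ (mul_left_cancel₀ (pow_ne_zero 2 hl) ?_)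
    · rw [← map_mul, hs, ← map_mul, show !![p, q; r, -p] * !![p, q; r, -p] = (p * p + q * r) • 1 by
        ext i j; fin_cases i <;> fin_cases j <;> simp [mul_comm, add_comm]]
      simp
    · rw [← hd, ← pf4_conj h2 h4, h1, hd]
      simp [pf4, hs, kl4_apply, gJJ]
      ring
  rw [show x = (2⁻¹ * (x 0 0 + x 1 1)) • 1 + (2⁻¹ * (x 0 0 - x 1 1)) • !![1, 0; 0, -1] +
      (2⁻¹ * (x 0 1 + x 1 0)) • !![0, 1; 1, -0] + (2⁻¹ * (x 0 1 - x 1 0)) • !![0, 1; -1, -0] by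
    ext i j; fin_cases i <;> fin_cases j <;> simp <;> field_simp <;> ring]
  simp only [map_add, map_smul, map_one]
  exact add_mem (add_mem (add_mem (Subalgebra.smul_mem _ (one_mem _) _) (Subalgebra.smul_mem _
    (key _ _ _ (by simp)) _)) (Subalgebra.smul_mem _ (key _ _ _ (by simp)) _))
    (Subalgebra.smul_mem _ (key _ _ _ (by simp)) _)

variable (F) in
/-- The symmetric form with Gram matrix `J ⊗ J`. -/
def Frm.JJ : Frm (Fin 4) F :=
  .ofGram (.refl F) 1 (gJJ F) (fun _ => rfl) (.inl rfl) (.of_mul_eq_one _ gJJ_mul_self) (by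
    ext i j; fin_cases i <;> fin_cases j <;> simp [gJJ])

theorem Frm.gram_JJ : gramMatrix (Frm.JJ F).f = gJJ F := gramMatrix_formOfGram _ _

theorem Frm.adj_kl4 (x : Matrix (Fin 2) (Fin 2) F) :
    (Frm.JJ F).adj (kl4 F x) = kl4 F ((Frm.J F).adj x) := by
  rw [(Frm.J F).adj_eq_of_gram (c := 1) (b := !![x 1 1, -x 0 1; -x 1 0, x 0 0])
    (Frm.gram_J.trans (one_smul _ _).symm) (by
      ext i j; fin_cases i <;> fin_cases j <;> simp [Frm.J, Frm.ofGram, mul_apply])]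
  refine (Frm.JJ F).adj_eq_of_gram (c := 1) (Frm.gram_JJ.trans (one_smul _ _).symm) ?_
  ext i j
  fin_cases i <;> fin_cases j <;>
    simp [Frm.JJ, Frm.ofGram, mul_apply, gJJ, kl4_apply, Fin.sum_univ_four]

theorem Frm.gram_sim (B : Frm ι F) (hσ : B.σ = RingEquiv.refl F) {g : GL ι F} {c : F}
    (h : ∀ u v, B.f ((g : Matrix ι ι F) *ᵥ u) ((g : Matrix ι ι F) *ᵥ v) = c * B.f u v) :
    (g : Matrix ι ι F)ᵀ * gramMatrix B.f * g = c • gramMatrix B.f := by
  have := B.gram_tr g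
  rw [hσ] at this
  refine this.symm.trans ?_
  ext i j
  exact h _ _

omit [Fintype ι] [DecidableEq ι] in
theorem Frm.nondeg_toQuad (B : Frm ι F) (hσ : B.σ = RingEquiv.refl F) (hε : B.ε = 1)
    (h2 : (2 : F) ≠ 0) : (polarBilin (B.toBilin hσ).toQuadraticMap).Nondegenerate :=
  (H58.nondeg_iff _).2 fun v hv => B.nondeg' v fun x => (mul_eq_zero.1
    ((B.polar_diag hσ hε v x).symm.trans (hv x))).resolve_left h2

/-- A four-dimensional symmetric form of plus type is a product of two alternating forms. -/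
theorem Frm.exists_kl4 [Finite F] (h2 : (2 : F) ≠ 0) (B : Frm (Fin 4) F)
    (hσ : B.σ = RingEquiv.refl F) (hε : B.ε = 1) (hp : IsPlusTypeOn (fun v => B.f v v) ⊤) :
    ∃ ψ : Matrix (Fin 2) (Fin 2) F →ₐ[F] Matrix (Fin 4) (Fin 4) F,
      (∀ x, B.adj (ψ x) = ψ ((Frm.J F).adj x)) ∧ ∀ (b : GL (Fin 4) F) (l : F), l ≠ 0 →
        (∀ u v, B.f ((b : Matrix _ _ F) *ᵥ u) ((b : Matrix _ _ F) *ᵥ v) = l * B.f u v) →
        (b : Matrix (Fin 4) (Fin 4) F).det = l ^ 2 → ∀ x, cj b (ψ x) ∈ ψ.range := by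
  have h0 : IsPlusTypeOn ⇑((Frm.JJ F).toBilin rfl).toQuadraticMap ⊤ := by
    refine plus_top_of (U := span F {Pi.single 0 1, Pi.single 1 1}) (H60.ts_span_pair ?_ ?_ ?_) ?_
    iterate 3 simp [Frm.toBilin, polar, Frm.JJ, Frm.ofGram, formOfGram, gJJ, Fin.sum_univ_four]
    rw [finrank_span_pair ((LinearIndependent.pair_iff' (by simp)).2 fun a h => by
      simpa using congrFun h 1)]
    simp
  obtain ⟨L, hL⟩ := H58.exists_equiv_of_isPlus_iff ((Frm.JJ F).nondeg_toQuad rfl rfl h2)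
    (B.nondeg_toQuad hσ hε h2) rfl (by simp; decide) (iff_of_true (isPlusTypeOn_top.1 h0)
      (isPlusTypeOn_top.1 hp))
  obtain ⟨e, P, rfl⟩ := exists_trV_eq L
  have h1 : (B.tr e P).f = (Frm.JJ F).f := by
    ext u v
    refine mul_left_cancel₀ h2 ?_
    rw [← (Frm.JJ F).polar_diag rfl rfl, ← (B.tr e P).polar_diag hσ hε]
    congr 1
    exact funext hL
  have h3 : ∀ a, (B.tr e P).adj a = (Frm.JJ F).adj a := fun a =>
    (B.tr e P).adj_eq_of (h1 ▸ (Frm.JJ F).adj_left a)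
  refine ⟨(H19.tr e P).toAlgHom.comp (kl4 F), fun x => (B.adj_tr e P _).trans
    (congrArg (H19.tr e P) ((h3 _).trans (Frm.adj_kl4 x))), fun b l hl hb hd x => ?_⟩
  obtain ⟨b, rfl⟩ := (trGL e P).surjective b
  obtain ⟨y, hy⟩ := cj_kl4_mem h2 (b := b) hl (Frm.gram_JJ (F := F) ▸
    (Frm.JJ F).gram_sim rfl fun u v => by
      rw [← h1]
      simpa only [coe_trGL, tr_mulVec] using! hb (trV e P u) (trV e P v))
    (by rw [← hd, coe_trGL, tr_apply, cj_apply, det_units_conj, det_submatrix_equiv_self]) x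
  exact ⟨y, (congrArg (H19.tr e P) hy).trans (tr_cj e P b _)⟩

theorem gram_tr_of_tensor {B : Frm ι F} {k l : ℕ} {e : ι ≃ Fin k × Fin l} {P : GL ι F}
    {f₁ : (Fin k → F) → (Fin k → F) → F} {f₂ : (Fin l → F) → (Fin l → F) → F}
    (hT : IsTensorFormStructure B.σ B.f f₁ f₂ e P) :
    ∃ c : F, c ≠ 0 ∧ gramMatrix (B.tr e P).f = c • (gramMatrix f₁ ⊗ₖ gramMatrix f₂) := by
  obtain ⟨c, hc0, hc⟩ := hT
  refine ⟨c, hc0, ?_⟩
  rw [← gramMatrix_formOfGram B.σ (c • _)]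
  ext a b
  exact (hc _ _).trans (formOfGram_smul _ _ _ _ _).symm

theorem Frm.det_sq (B : Frm ι F) (hσ : B.σ = RingEquiv.refl F) {g : GL ι F} {c : F}
    (h : ∀ u v, B.f ((g : Matrix ι ι F) *ᵥ u) ((g : Matrix ι ι F) *ᵥ v) = c * B.f u v) :
    (g : Matrix ι ι F).det ^ 2 = c ^ Fintype.card ι := by
  have := congrArg det (B.gram_sim hσ h)
  rw [det_mul, det_mul, det_transpose, det_smul] at this
  exact mul_right_cancel₀ B.gram.det_ne_zero (by rw [B.coe_gram]; linear_combination this)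

/-- `O₃ ⊗ O₄⁺` lies in `Sp₂ ⊗ Sp₆`. -/
theorem le_sp_tensor [Finite F] (h2 : (2 : F) ≠ 0) {Q : (ι → F) → F}
    (hQ : IsNondegenerateQuadraticForm Q) {H : Subgroup (GL ι F)} (hH : H ≤ omegaGL Q)
    {e : ι ≃ Fin 3 × Fin 4} {P : GL ι F} {f₁ : (Fin 3 → F) → (Fin 3 → F) → F}
    {f₂ : (Fin 4 → F) → (Fin 4 → F) → F} (h₁ : IsSymmetricForm f₁) (h₂ : IsSymmetricForm f₂)
    (hT : IsTensorFormStructure id (polar Q) f₁ f₂ e P) (h : H ≤ tensorProductSubgroup 3 4 e P)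
    (hp : IsPlusTypeOn (fun v => f₂ v v) ⊤) :
    ∃ (e : ι ≃ Fin 2 × Fin 6) (P : GL ι F) (f₁ : (Fin 2 → F) → (Fin 2 → F) → F)
      (f₂ : (Fin 6 → F) → (Fin 6 → F) → F), IsSymplecticForm f₁ ∧ IsSymplecticForm f₂ ∧
      IsTensorFormStructure id (polar Q) f₁ f₂ e P ∧ (∀ (x₁ : Fin 2 → F) (x₂ : Fin 6 → F),
        Q ((P : Matrix ι ι F) *ᵥ ((fun a : Fin 2 × Fin 6 => x₁ a.1 * x₂ a.2) ∘ e)) = 0) ∧
      H ≤ tensorProductSubgroup 2 6 e P := by
  let B := oFrm hQ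
  let B₁ := Frm.ofSymmetric h₁
  let B₂ := Frm.ofSymmetric h₂
  have hI : H ≤ B.Iso := (hH.trans (omega_le_isometryGroup Q)).trans (isometryGroup_le_Iso hQ)
  have hS := hI.trans B.Iso_le_sim
  have hF := TenForm.of_class (B := B) (by omega) (by omega) (B₁ := B₁) (B₂ := B₂) rfl rfl
    (fun _ => rfl) (fun _ => rfl) hT h
  have := hF.ne
  obtain ⟨ψ, hψ, hb⟩ := B₂.exists_kl4 h2 rfl rfl hp
  obtain ⟨l, e', P', he⟩ := exists_tr_kl ((tR e P).comp ψ)
  obtain rfl : l = 6 := by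
    have := (Fintype.card_congr e).symm.trans (Fintype.card_congr e')
    simp at this; omega
  have h3 : ∀ x, tL e' P' x = tR e P (ψ x) := fun x => (he x).symm
  have h4 : ∀ x, B.adj (tL e' P' x) = tL e' P' ((Frm.J F).adj x) := fun x => by
    rw [h3, h3, hF.adj₂, hψ]
  obtain ⟨B', b1, -, b2⟩ := B.exists_frm_of_closed (tR e' P') (centralizer_range_tL e' P' ▸
    Frm.Closed.centralizer (by rintro _ ⟨x, rfl⟩; exact ⟨_, (h4 x).symm⟩))
  obtain ⟨b3, b4⟩ := B.tensorForm two_pos (by omega) (Frm.J F) B' rfl b1 e' P' h4 b2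
  have b5 := B'.alt_of_eps b1 (by
    have : (1 : F) = -1 * B'.ε := b4 rfl
    linear_combination this) h2
  refine ⟨e', P', _, _, (Frm.J F).isSymplecticForm rfl ((Frm.J F).alt_of_eps rfl rfl h2),
    B'.isSymplecticForm b1 b5, b3, fun x₁ x₂ => quad_eq_zero_of_polar hQ h2
      (tensor_pure_eq_zero b1 b5 b3 x₁ x₂), Inv.le_tensorProductSubgroup two_pos (by omega) ?_⟩
  rintro g hg _ ⟨x, rfl⟩
  obtain ⟨a, b, hab⟩ := (mem_map_map_iff e P _ g).1 (h hg)
  obtain ⟨g, rfl⟩ := (trGL e P).surjective g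
  rw [MulEquiv.symm_apply_apply] at hab
  have c1 : ∀ x, cj (trGL e P g) (tL e P x) = tL e P (cj a x) := fun x =>
    ((congrArg (tr e P) ((cj_eq_iff g _ _).2 (by
      rw [hab, AlgHom.coe_toRingHom, kl_apply, kl_apply, ← mul_kronecker_mul, ← mul_kronecker_mul,
        cj_mul_self, mul_one, one_mul])).symm).trans (tr_cj e P g _)).symm
  have c2 : ∀ x, cj (trGL e P g) (tR e P x) = tR e P (cj b x) := fun x =>
    ((congrArg (tr e P) ((cj_eq_iff g _ _).2 (by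
      rw [hab, AlgHom.coe_toRingHom, kr_apply, kr_apply, ← mul_kronecker_mul, ← mul_kronecker_mul,
        cj_mul_self, mul_one, one_mul])).symm).trans (tr_cj e P g _)).symm
  obtain ⟨μ, hμ⟩ := B.ind_le_sim B₁ hS hF.adj₁ ⟨_, hg, c1⟩
  obtain ⟨l, hl⟩ := B.ind_le_sim B₂ hS hF.adj₂ ⟨_, hg, c2⟩
  obtain ⟨c, hc0, hc⟩ := gram_tr_of_tensor (B := B) hT
  have d1 : (μ * l : F) = 1 := by
    have h5 := (B.tr e P).gram_sim rfl (g := g) (c := 1) fun u v => by
      simpa only [coe_trGL, tr_mulVec, one_mul] using! B.mem_Iso.1 (hI hg) (trV e P u) (trV e P v)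
    rw [hc, hab, Matrix.mul_smul, Matrix.smul_mul, ← kroneckerMap_transpose, ← mul_kronecker_mul,
      ← mul_kronecker_mul, show _ * gramMatrix f₁ * _ = _ from B₁.gram_sim rfl hμ,
      show _ * gramMatrix f₂ * _ = _ from B₂.gram_sim rfl hl, smul_kronecker, kronecker_smul,
      one_smul, smul_comm c, smul_comm c, smul_smul] at h5
    refine smul_left_injective F (hc ▸ (B.tr e P).isUnit_gram.ne_zero) (h5.trans ?_)
    exact (one_smul _ _).symm
  have d2 := det_eq_one_of_mem_omega (hH hg)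
  rw [coe_trGL, tr_apply, cj_apply, det_units_conj, det_submatrix_equiv_self, hab,
    det_kronecker] at d2
  have d3 := B₁.det_sq rfl hμ
  have d4 := B₂.det_sq rfl hl
  simp only [Fintype.card_fin] at d2 d3 d4
  obtain ⟨y, hy⟩ := hb b l l.ne_zero hl (by
    have d5 : (μ : F) ^ 6 * l ^ 4 * (b : Matrix (Fin 4) (Fin 4) F).det = 1 := by
      rw [← d2, show (a : Matrix (Fin 3) (Fin 3) F).det ^ 4 = (μ ^ 3) ^ 2 by rw [← d3]; ring, ← d4]
      ring
    refine mul_left_cancel₀ (pow_ne_zero 6 μ.ne_zero) (mul_left_cancel₀ (pow_ne_zero 4 l.ne_zero) ?_)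
    rw [← mul_assoc, mul_comm _ ((μ : F) ^ 6), d5, ← one_pow 6, ← d1]
    ring) x
  exact ⟨y, (h3 y).trans ((congrArg (tR e P) hy).trans ((c2 _).symm.trans
    (congrArg _ (h3 x).symm)))⟩

variable {Q : QuadraticForm F (ι → F)}

theorem plus_of_sp_tensor {l : ℕ} {e : ι ≃ Fin 2 × Fin l} {P : GL ι F}
    (h : ∀ (x₁ : Fin 2 → F) (x₂ : Fin l → F),
      Q ((P : Matrix ι ι F) *ᵥ ((fun a : Fin 2 × Fin l => x₁ a.1 * x₂ a.2) ∘ e)) = 0) :
    IsPlusTypeOn ⇑Q ⊤ :=
  plus_top_of (U := LinearMap.range (H25.pure2R e P 1)) (by rintro _ ⟨y, rfl⟩; exact h 1 y) (by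
    rw [LinearMap.finrank_range_of_inj (H25.pure2R_injective e P one_ne_zero),
      Fintype.card_congr e]
    simp)

theorem plus_of_sp_power {e : ι ≃ (Fin 3 → Fin 2)} {P : GL ι F}
    {f₁ : (Fin 2 → F) → (Fin 2 → F) → F} (h₁ : IsSymplecticForm f₁)
    (hT : IsTensorPowerFormStructure id (polar ⇑Q) f₁ e P) (h : ∀ x : Fin 3 → Fin 2 → F,
      Q ((P : Matrix ι ι F) *ᵥ ((fun a : Fin 3 → Fin 2 => ∏ i, x i (a i)) ∘ e)) = 0) :
    IsPlusTypeOn ⇑Q ⊤ := by
  obtain ⟨c, -, hc⟩ := hT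
  let b := (Pi.basisFun F (Fin 3 → Fin 2)).map (trV e P)
  have h1 : ∀ a, Q (b a) = 0 := fun a => by
    convert h fun i => Pi.single (a i) 1
    simp only [b, Basis.map_apply, Pi.basisFun_apply, trV_apply]
    congr 2
    ext a'
    simp [Pi.single_apply, Finset.prod_ite_zero, funext_iff]
  have h2 : ∀ a a', a 0 = 0 → a' 0 = 0 → polar Q (b a) (b a') = 0 := fun a a' ha ha' => by
    simp only [b, Basis.map_apply, Pi.basisFun_apply, trV_apply, hc]
    simp [Pi.single_apply, Fin.prod_univ_three, ha, ha', gramMatrix, h₁.alternating]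
  refine plus_top_of (U := span F (Set.range (b ∘ Subtype.val (p := fun a => a 0 = 0))))
    (fun u hu => ?_) ?_
  · obtain ⟨x, rfl⟩ := (mem_span_range_iff_exists_fun F).1 hu
    rw [QuadraticMap.map_sum', Finset.sum_eq_zero, Finset.sum_eq_zero, sub_zero]
    · simp [Q.map_smul, h1]
    · refine fun p _ => p.inductionOn fun a a' => ?_
      simp [h2 _ _ a.2 a'.2]
  · rw [finrank_span_eq_card (b.linearIndependent.comp _ Subtype.val_injective),
      Fintype.card_congr e]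
    decide

theorem plus_iff_of_tensor [Finite F] (hQ : Q.polarBilin.Nondegenerate) (h2 : (2 : F) ≠ 0)
    {e : ι ≃ Fin 3 × Fin 4} {P : GL ι F} {f₁ : (Fin 3 → F) → (Fin 3 → F) → F}
    {f₂ : (Fin 4 → F) → (Fin 4 → F) → F} (h₁ : IsSymmetricForm f₁) (h₂ : IsSymmetricForm f₂)
    (hT : IsTensorFormStructure id (polar ⇑Q) f₁ f₂ e P) :
    IsPlusTypeOn ⇑Q ⊤ ↔ IsPlusTypeOn (fun v => f₂ v v) ⊤ := by
  obtain ⟨c, hc0, hc⟩ := gram_tr_of_tensor (B := oFrm (isNondegenerateQuadraticForm_coe hQ)) hT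
  have h3 := (Frm.ofSymmetric h₂).nondeg_toQuad rfl rfl h2
  rw [isPlusTypeOn_top, H58.isPlus_iff_isSquare h2 hQ (m := 6) (by simp [Fintype.card_congr e])
    ((Pi.basisFun F _).map (trV e P))]
  refine Iff.trans ?_ (isPlusTypeOn_top.trans (H58.isPlus_iff_isSquare h2 h3 (m := 2) (by simp)
    (Pi.basisFun F _))).symm
  rw [show H58.gram Q ((Pi.basisFun F _).map (trV e P)) = _ from
      (congrArg det (by ext; simp [gramMatrix]; rfl)).trans (congrArg det hc),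
    show H58.gram _ (Pi.basisFun F (Fin 4)) = ((2 : F) • gramMatrix f₂).det from
      congrArg det (by
        ext i j
        simpa [gramMatrix] using! (Frm.ofSymmetric h₂).polar_diag rfl rfl (Pi.single i 1)
          (Pi.single j 1)),
    det_smul, det_smul, det_kronecker, ← H58.isSquare_sq_mul (pow_ne_zero 2 h2),
    ← H58.isSquare_sq_mul (x := _ * (_ * (gramMatrix f₂).det)) (mul_ne_zero (mul_ne_zero
      (pow_ne_zero 6 hc0) (pow_ne_zero 2 (Frm.ofSymmetric h₁).gram.det_ne_zero))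
      (Frm.ofSymmetric h₂).gram.det_ne_zero)]
  congr! 1
  simp only [Fintype.card_prod, Fintype.card_fin, Frm.coe_gram, Frm.ofSymmetric]
  ring

end H19
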