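/- Reduction of the maximal subgroups of `Ω(Q)` in dimensions 7 to 12. -/
import Cfsg.Agent.H19.ORowSmall
import Cfsg.Agent.H19.ORowField
import Cfsg.Agent.H19.ORowTensor
import Cfsg.Agent.H60.TsPair

set_option autoImplicit false

namespace H19
open Cfsg Cfsg.Geo Matrix QuadraticMap H56 H60 Module Submodule
open scoped MatrixGroups

variable {ι : Type} [Fintype ι] [DecidableEq ι] {F : Type*} [Field F] [Fintype F]

/-- The geometric subgroups which survive in dimensions 7 to 12. -/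
def OrthRow (Q : (ι → F) → F) (M : Subgroup (GL ι F)) : Prop :=
  (∃ W : Submodule F (ι → F), W ≠ ⊥ ∧ IsTotallySingularQuad Q W ∧
    ¬ (IsPlusTypeOn Q ⊤ ∧ 2 * (finrank F W + 1) = Fintype.card ι) ∧ M = subspaceStabilizer W) ∨
  (∃ W : Submodule F (ι → F), W ≠ ⊥ ∧ W ≠ ⊤ ∧ IsNondegenerateOn (polar Q) W ∧
    (Odd (finrank F W) → Odd (Fintype.card F)) ∧
    ¬ (Fintype.card F ≤ 3 ∧ finrank F W = 2 ∧ IsPlusTypeOn Q W) ∧
    (Odd (Fintype.card ι) → Even (finrank F W)) ∧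
    (Even (Fintype.card ι) → 2 * finrank F W < Fintype.card ι ∨
      2 * finrank F W = Fintype.card ι ∧ Even (finrank F W) ∧ ¬ IsPlusTypeOn Q ⊤) ∧
    M = subspaceStabilizer W) ∨
  (¬ Odd (Fintype.card F) ∧ ∃ v : ι → F, Q v ≠ 0 ∧ M = subspaceStabilizer (span F {v})) ∨
  (∃ (t k : ℕ) (D : Fin t → Submodule F (ι → F)), IsOrthogonalMDecomposition Q k D ∧
    Fintype.card ι = t * k ∧ 2 ≤ t ∧ (k = 1 → (Fintype.card F).Prime) ∧
    (Odd k → Odd (Fintype.card F)) ∧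
    (k = 2 → (∀ i, IsPlusTypeOn Q (D i)) ∧ 7 ≤ Fintype.card F ∨
      (∀ i, ¬ IsPlusTypeOn Q (D i)) ∧ Fintype.card F ≠ 3) ∧ (k = 3 → 5 ≤ Fintype.card F) ∧
    (k = 4 → 3 ≤ Fintype.card F ∨ ∀ i, ¬ IsPlusTypeOn Q (D i)) ∧
    (Even k → Even t → IsPlusTypeOn Q ⊤) ∧
    (Even k → Odd t → ∀ i, IsPlusTypeOn Q ⊤ ↔ IsPlusTypeOn Q (D i)) ∧
    (Odd k → ∀ s, t = 2 * s → (IsPlusTypeOn Q ⊤ ↔ ¬ (Fintype.card F % 4 = 3 ∧ Odd s))) ∧
    M = decompositionStabilizer D) ∨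
  (∃ (k : ℕ) (D : Fin 2 → Submodule F (ι → F)), Odd k ∧ Odd (Fintype.card F) ∧
    2 * k = Fintype.card ι ∧ IsNondegenerateMDecomposition (polar Q) k D ∧
    ¬ AreIsometricFor Q (D 0) (D 1) ∧ (IsPlusTypeOn Q ⊤ ↔ Fintype.card F % 4 = 3) ∧
    M = decompositionStabilizer D) ∨
  (∃ (k : ℕ) (D : Fin 2 → Submodule F (ι → F)), Even k ∧ 2 * k = Fintype.card ι ∧
    IsPlusTypeOn Q ⊤ ∧ IsMDecomposition k D ∧ (∀ i, IsTotallySingularQuad Q (D i)) ∧
    M = decompositionStabilizer D) ∨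
  (∃ (r : ℕ) (K : Subalgebra F (Matrix ι ι F)), r.Prime ∧ r ∣ Fintype.card ι ∧
    Fintype.card ι ≠ r ∧ (¬ Odd (Fintype.card F) → 2 * r ∣ Fintype.card ι) ∧
    (r ≠ 2 → Fintype.card ι ≠ 2 * r) ∧ IsFieldSubalgebra r K ∧ IsSelfAdjointFor (polar Q) K ∧
    M = subalgebraNormalizer K) ∨
  (∃ K : Subalgebra F (Matrix ι ι F), 2 ∣ Fintype.card ι ∧
    (IsPlusTypeOn Q ⊤ → 4 ∣ Fintype.card ι) ∧ IsFieldSubalgebra 2 K ∧
    IsAdjointClosedFor (polar Q) K ∧ ¬ IsSelfAdjointFor (polar Q) K ∧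
    (∀ k ∈ K, ∃ c : F, ∀ v : ι → F, Q (k *ᵥ v) = c * Q v) ∧ M = subalgebraNormalizer K) ∨
  (¬ IsPlusTypeOn Q ⊤ ∧ Odd (Fintype.card F) ∧ 5 ≤ Fintype.card F ∧
    ∃ (e : ι ≃ Fin 3 × Fin 4) (P : GL ι F) (f₁ : (Fin 3 → F) → (Fin 3 → F) → F)
      (f₂ : (Fin 4 → F) → (Fin 4 → F) → F), IsSymmetricForm f₁ ∧ IsSymmetricForm f₂ ∧
      ¬ IsPlusTypeOn (fun v => f₂ v v) ⊤ ∧ IsTensorFormStructure id (polar Q) f₁ f₂ e P ∧
      M = tensorProductSubgroup 3 4 e P) ∨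
  (IsPlusTypeOn Q ⊤ ∧ 3 ≤ Fintype.card F ∧
    ∃ (e : ι ≃ Fin 2 × Fin 6) (P : GL ι F) (f₁ : (Fin 2 → F) → (Fin 2 → F) → F)
      (f₂ : (Fin 6 → F) → (Fin 6 → F) → F), IsSymplecticForm f₁ ∧ IsSymplecticForm f₂ ∧
      IsTensorFormStructure id (polar Q) f₁ f₂ e P ∧ (∀ (x₁ : Fin 2 → F) (x₂ : Fin 6 → F),
        Q ((P : Matrix ι ι F) *ᵥ ((fun a : Fin 2 × Fin 6 => x₁ a.1 * x₂ a.2) ∘ e)) = 0) ∧
      M = tensorProductSubgroup 2 6 e P) ∨
  (∃ (F₀ : Subfield F) (r : ℕ) (P : GL ι F) (ζ : F), r.Prime ∧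
    (¬ Odd r → Even (Fintype.card ι) → IsPlusTypeOn Q ⊤) ∧ Fintype.card F = Nat.card F₀ ^ r ∧
    ζ ≠ 0 ∧ IsQuadFormRationalStructure (fun v : ι → F => ζ * Q v) F₀ P ∧
    M = subfieldSubgroup F₀ P) ∨
  (Odd (Fintype.card F) ∧ 5 ≤ Fintype.card F ∧ ∃ (e : ι ≃ (Fin 2 → Fin 3)) (P : GL ι F)
    (f₁ : (Fin 3 → F) → (Fin 3 → F) → F), IsSymmetricForm f₁ ∧
      IsTensorPowerFormStructure id (polar Q) f₁ e P ∧ M = tensorWreathSubgroup 3 2 e P)

theorem not_le_of_between {G : Type*} [Group G] {Ω H S : Subgroup G} (hH : IsMaximalIn Ω H)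
    (h : ∃ K, S ⊓ Ω < K ∧ K < Ω) : ¬ H ≤ S := fun hS => by
  obtain ⟨K, h1, h2⟩ := h
  have h3 := (le_inf hS hH.1.le).trans_lt h1
  exact (hH.2 K h3.le h2.le).elim h3.ne' h2.ne

theorem five_le_card (h1 : Odd (Fintype.card F)) (h3 : Fintype.card F ≠ 3) :
    5 ≤ Fintype.card F := by
  have := Fintype.one_lt_card (α := F)
  obtain ⟨m, hm⟩ := h1
  omega

variable {Q : QuadraticForm F (ι → F)} (hQ : Q.polarBilin.Nondegenerate)
include hQ

theorem OrthRow.not_le (h7 : 7 ≤ Fintype.card ι) {M : Subgroup (GL ι F)} (h : OrthRow ⇑Q M) :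
    ¬ omegaGL ⇑Q ≤ M := by
  have h5 : 5 ≤ Fintype.card ι := by omega
  rcases h with ⟨W, a1, a2, -, rfl⟩ | ⟨W, a1, a2, -, -, -, -, -, rfl⟩ | ⟨-, v, a1, rfl⟩ |
    ⟨t, k, D, a1, -, -, -, -, -, -, -, -, -, -, rfl⟩ | ⟨k, D, -, -, -, a1, -, -, rfl⟩ |
    ⟨k, D, -, -, -, a1, -, rfl⟩ | ⟨r, K, a1, -, -, -, -, a2, -, rfl⟩ |
    ⟨K, -, -, a1, -, -, -, rfl⟩ | ⟨-, -, -, e, P, -, -, -, -, -, -, rfl⟩ |
    ⟨-, -, e, P, -, -, -, -, -, -, rfl⟩ | ⟨F₀, r, P, -, a1, -, a2, -, -, rfl⟩ |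
    ⟨a1, -, e, P, -, -, -, rfl⟩
  · obtain ⟨x, -, hx⟩ := (Submodule.ne_bot_iff W).1 a1
    obtain ⟨v, hv⟩ := exists_Q_ne_zero hQ hx
    exact omega_not_le_subspace hQ h5 a1 fun h => hv (a2 v (h ▸ mem_top))
  · exact omega_not_le_subspace hQ h5 a1 a2
  · refine omega_not_le_subspace hQ h5 (by rintro h; simp [span_singleton_eq_bot.1 h] at a1) ?_
    intro h
    have := finrank_span_singleton_le (F := F) v
    rw [h, finrank_top, finrank_fintype_fun_eq_card] at this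
    omega
  · exact omega_not_le_decomp hQ h7 a1.decomp.decomp
  · exact omega_not_le_decomp hQ h7 a1.decomp
  · exact omega_not_le_decomp hQ h7 a1
  · exact (omega_small hQ h5).not_le_field (by omega) a2 a1.two_le
  · exact (omega_small hQ h5).not_le_field (by omega) a1 le_rfl
  · exact (omega_small hQ h5).not_le_tensor_left (by omega) (by omega) e P
  · exact (omega_small hQ h5).not_le_tensor_left (by omega) (by omega) e P
  · exact omega_not_le_subfield hQ h5 a1 a2 P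
  · exact omega_not_le_wreath hQ (two_ne_zero_of_odd a1) e P

theorem odd_card_of_odd {W : Submodule F (ι → F)} (hW : IsNondegenerateOn (polar ⇑Q) W)
    (h : Odd (finrank F W)) : Odd (Fintype.card F) := by
  by_contra h2
  exact Nat.not_even_iff_odd.2 h ((H25.isSes_of_quadratic (isNondegenerateQuadraticForm_coe hQ)
    ).even_finrank (fun v => by simp [two_eq_zero_of_not_odd h2]) hW)

theorem row_decomp_base {t k : ℕ} {D : Fin t → Submodule F (ι → F)}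
    (hD : IsOrthogonalMDecomposition ⇑Q k D) (h1 : k = 1 → (Fintype.card F).Prime)
    (h2 : k = 2 → (∀ i, IsPlusTypeOn ⇑Q (D i)) ∧ 7 ≤ Fintype.card F ∨
      (∀ i, ¬ IsPlusTypeOn ⇑Q (D i)) ∧ Fintype.card F ≠ 3) (h3 : k = 3 → 5 ≤ Fintype.card F)
    (h4 : k = 4 → 3 ≤ Fintype.card F ∨ ∀ i, ¬ IsPlusTypeOn ⇑Q (D i)) :
    OrthRow ⇑Q (decompositionStabilizer D) := by
  have h5 := hD.decomp.decomp.two_le
  have h6 : Odd k → Odd (Fintype.card F) := fun hk => odd_card_of_odd hQ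
    (hD.decomp.nondegenerate ⟨0, by omega⟩) (by rwa [hD.decomp.decomp.finrank_eq])
  refine .inr (.inr (.inr (.inl ⟨t, k, D, hD, H25.card_eq_of_decomp hD.decomp.decomp, h5, h1, h6,
    h2, h3, h4, plus_of_even hQ hD, plus_iff_of_odd hQ hD, fun hk s hs => ?_, rfl⟩)))
  rw [plus_iff_of_even hQ (two_ne_zero_of_odd (h6 hk)) hD ⟨s, by omega⟩ (m := s * k)
    (by rw [H25.card_eq_of_decomp hD.decomp.decomp, hs, mul_assoc]), H58.isSquare_neg_one_pow_iff,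
    Nat.odd_mul, and_iff_left hk]

theorem row_subfield {F₀ : Subfield F} {r : ℕ} {P : GL ι F} {ζ : F} (h1 : r.Prime)
    (h2 : Fintype.card F = Nat.card F₀ ^ r) (h3 : ζ ≠ 0)
    (h4 : IsQuadFormRationalStructure (fun v : ι → F => ζ * Q v) F₀ P) :
    OrthRow ⇑Q (subfieldSubgroup F₀ P) :=
  .inr (.inr (.inr (.inr (.inr (.inr (.inr (.inr (.inr (.inr (.inl ⟨F₀, r, P, ζ, h1,
    fun h => plus_of_subfield_two hQ (h1.eq_two_or_odd'.resolve_right h ▸ h2) h3 h4,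
    h2, h3, h4, rfl⟩))))))))))

theorem row_unitary [Nonempty ι] {K : Subalgebra F (Matrix ι ι F)} (h1 : IsFieldSubalgebra 2 K)
    (h2 : IsAdjointClosedFor (polar ⇑Q) K) (h3 : ¬ IsSelfAdjointFor (polar ⇑Q) K)
    (h4 : ∀ k ∈ K, ∃ c : F, ∀ v : ι → F, Q (k *ᵥ v) = c * Q v) :
    OrthRow ⇑Q (subalgebraNormalizer K) :=
  .inr (.inr (.inr (.inr (.inr (.inr (.inr (.inl ⟨K, H25.dvd_card_of_field h1,
    four_dvd_of_unitary hQ h1 h2 h4, h1, h2, h3, h4, rfl⟩)))))))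

theorem row_field_base [Nonempty ι] {r : ℕ} {K : Subalgebra F (Matrix ι ι F)} (h1 : r.Prime)
    (h2 : Fintype.card ι ≠ r) (h3 : r ≠ 2 → Fintype.card ι ≠ 2 * r) (h4 : IsFieldSubalgebra r K)
    (h5 : IsSelfAdjointFor (polar ⇑Q) K) : OrthRow ⇑Q (subalgebraNormalizer K) := by
  have hq := isNondegenerateQuadraticForm_coe hQ
  exact .inr (.inr (.inr (.inr (.inr (.inr (.inl ⟨r, K, h1, H25.dvd_card_of_field h4, h2,
    fun h => H25.two_mul_dvd_of_field (H25.isSes_of_quadratic hq) h4 h5 ((oFrm hq).alt_of_selfAdj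
      rfl (fun v => (polar_self_eq hq v).trans (by rw [two_eq_zero_of_not_odd h, zero_mul])) h4
      ((oFrm hq).isSelfAdjointFor_iff.1 h5)), h3, h4, h5, rfl⟩))))))

variable (h7 : 7 ≤ Fintype.card ι) (h8 : Fintype.card ι = 8 → ¬ IsPlusTypeOn ⇑Q ⊤)
  {H : Subgroup (GL ι F)} (hH : IsMaximalIn (omegaGL ⇑Q) H)
include h7 hH

theorem row_pair {k : ℕ} {D : Fin 2 → Submodule F (ι → F)} (h1 : IsMDecomposition k D)
    (h2 : ∀ i, IsTotallySingularQuad ⇑Q (D i)) (h : H ≤ decompositionStabilizer D) :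
    OrthRow ⇑Q (decompositionStabilizer D) := by
  have h3 := two_mul_of_decomp h1
  refine .inr (.inr (.inr (.inr (.inr (.inl ⟨k, D, Nat.not_odd_iff_even.1 fun hk => ?_, h3,
    plus_top_of (h2 0) (by rwa [h1.finrank_eq]), h1, h2, rfl⟩)))))
  exact not_le_of_between hH (exists_between_GL (comap_decompositionStabilizer D ▸
    tsPair_not_maximal hQ (by omega) hk ⟨h2 0, h2 1, isCompl_of_decomp h1, h1.finrank_eq 0,
      h1.finrank_eq 1⟩)) h

include h8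

theorem row_reducible (hirr : ¬ Irr H) : ∃ M, OrthRow ⇑Q M ∧ H ≤ M := by
  have hq := isNondegenerateQuadraticForm_coe hQ
  let B := oFrm hq
  have hI := hH.1.le.trans (omega_le_isometryGroup ⇑Q)
  have hS := (hI.trans (isometryGroup_le_Iso hq)).trans B.Iso_le_sim
  have hts : ∀ W, W ≠ ⊥ → IsTotallySingularQuad ⇑Q W → Stab H W → ∃ M, OrthRow ⇑Q M ∧ H ≤ M :=
    fun W a1 a2 a3 => ⟨_, .inl ⟨W, a1, a2, fun ⟨⟨U, _, b1, b2⟩, b3⟩ => not_le_of_between hH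
      (exists_between_GL (comap_subspaceStabilizer W ▸ submax_not_maximal hQ (by simp; omega) b1
        (by simpa using b2.symm) a2 (by simpa using b3))) a3.le, rfl⟩, a3.le⟩
  rcases B.reducible_cases hS hirr with ⟨W, h1, h2, h3⟩ | ⟨W, h1, h2, h3, h4, h5⟩
  · by_cases h : Odd (Fintype.card F)
    · exact hts W h1 (fun w hw => quad_eq_zero_of_polar hq (two_ne_zero_of_odd h) (h2 w hw w hw)) h3
    · rcases singular_or_point hq (two_eq_zero_of_not_odd h) hI h1 h2 h3 with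
        ⟨W, a1, a2, a3⟩ | ⟨v, a1, rfl⟩
      · exact hts W a1 a2 a3
      · exact ⟨_, .inr (.inr (.inl ⟨h, v, a1, rfl⟩)), h3.le⟩
  have h6 : ¬ (Fintype.card F ≤ 3 ∧ finrank F W = 2 ∧ IsPlusTypeOn ⇑Q W) := fun ⟨b1, b2, b3⟩ =>
    not_le_of_between hH (exists_between_GL (comap_subspaceStabilizer W ▸ smallHyp_not_maximal hQ
      (by simpa using h7) (nondeg_of_on h3) ⟨by simpa using b1, b2,
        hasHyp_of_isPlusTypeOn (nondeg_of_on h3) h1 b3⟩)) h4.le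
  have h9 := B.finrank_add_perp h3
  have h10 := B.isNondegenerateOn_perp h3
  by_cases hc : (Odd (Fintype.card ι) → Even (finrank F W)) ∧
    (Even (Fintype.card ι) → 2 * finrank F W < Fintype.card ι ∨
      2 * finrank F W = Fintype.card ι ∧ Even (finrank F W) ∧ ¬ IsPlusTypeOn ⇑Q ⊤)
  · exact ⟨_, .inr (.inl ⟨W, h1, h2, h3, odd_card_of_odd hQ h3, h6, hc.1, hc.2, rfl⟩), h4.le⟩
  rcases Nat.even_or_odd (Fintype.card ι) with hn | hn
  · have h11 : 2 * finrank F W = Fintype.card ι := by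
      by_contra h
      exact hc ⟨fun h => (Nat.not_odd_iff_even.2 hn h).elim, fun _ => .inl (by omega)⟩
    obtain ⟨a1, a2⟩ := B.decomp_of_half hS h1 h3 h4 h11
    by_cases hi : AreIsometricFor ⇑Q W (B.perp W)
    · have a3 : IsOrthogonalMDecomposition ⇑Q (finrank F W) ![W, B.perp W] := ⟨a1, by
        simp only [Fin.forall_fin_two]
        exact ⟨⟨IsoFor.trans hi (IsoFor.symm hi), hi⟩, IsoFor.symm hi,
          IsoFor.trans (IsoFor.symm hi) hi⟩⟩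
      exact ⟨_, row_decomp_base hQ a3 (by omega) (by omega) (by omega) fun h => (h8 (by omega)
        (plus_of_even hQ a3 (by rw [h]; decide) even_two)).elim, a2⟩
    have hk : Odd (finrank F W) := Nat.not_even_iff_odd.1 fun hk => hc ⟨fun _ => hk, fun _ =>
      .inr ⟨h11, hk, fun hp => hi (by
        rw [show B.perp W = perp Q W from Submodule.ext fun _ => mem_perp'.symm]
        exact isometric_perp hQ (nondeg_of_on h3) hp h11 hk)⟩⟩
    have ho := odd_card_of_odd hQ h3 hk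
    exact ⟨_, .inr (.inr (.inr (.inr (.inl ⟨_, _, hk, ho, h11, a1, hi, by
      rw [plus_iff_of_not_isometric hQ (two_ne_zero_of_odd ho) a1 hi, H58.isSquare_neg_one_pow_iff,
        not_not, and_iff_left hk], rfl⟩)))), a2⟩
  · have hk : ¬ Even (finrank F W) := fun hk =>
      hc ⟨fun _ => hk, fun h => (Nat.not_odd_iff_even.2 h hn).elim⟩
    have h11 := (Submodule.one_le_finrank_iff (R := F)).2 h1
    refine ⟨_, .inr (.inl ⟨B.perp W, fun h => ?_, fun h => ?_, h10, odd_card_of_odd hQ h10,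
      fun h => by omega, fun _ => ?_, fun h => (Nat.not_odd_iff_even.2 h hn).elim, rfl⟩),
      Stab.le (B.perp_invariant hS h4)⟩
    · rw [h, finrank_bot] at h9; omega
    · rw [h, finrank_top, finrank_fintype_fun_eq_card] at h9; omega
    · rw [← h9, Nat.odd_add] at hn
      exact hn.1 (Nat.not_even_iff_odd.1 hk)

theorem row_decomp {t k : ℕ} {D : Fin t → Submodule F (ι → F)}
    (hD : IsOrthogonalMDecomposition ⇑Q k D) (h1 : k = 1 → (Fintype.card F).Prime)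
    (h : H ≤ decompositionStabilizer D) : ∃ M, OrthRow ⇑Q M ∧ H ≤ M := by
  have hI := hH.1.le.trans (omega_le_isometryGroup ⇑Q)
  have h' := le_inf h hI
  let z : Fin t := ⟨0, by have := hD.decomp.decomp.two_le; omega⟩
  have hz := nondeg_of_on (hD.decomp.nondegenerate z)
  have hd := hD.decomp.decomp.finrank_eq z
  have hp : ∀ i, IsPlusTypeOn ⇑Q (D i) ↔ IsPlusTypeOn ⇑Q (D z) := fun i =>
    IsoFor.plus_iff (hD.isometric z i)
  have frame : ∀ {s : ℕ} {d : F} {E : Fin s → Submodule F (ι → F)}, k = s * 1 →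
      (Fintype.card F).Prime → Refines Q (D z) 1 d E → ∃ M, OrthRow ⇑Q M ∧ H ≤ M :=
    fun hk hF hE => by
      subst hk
      obtain ⟨D', a1, -, a2⟩ := hE.decomp hQ (Nat.pos_of_mul_pos_right hD.decomp.decomp.pos) hD
      exact ⟨_, row_decomp_base hQ a1 (fun _ => hF) (by omega) (by omega) (by omega), h'.trans a2⟩
  by_cases a2 : k = 2 ∧ ¬ ((∀ i, IsPlusTypeOn ⇑Q (D i)) ∧ 7 ≤ Fintype.card F ∨
      (∀ i, ¬ IsPlusTypeOn ⇑Q (D i)) ∧ Fintype.card F ≠ 3)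
  · obtain ⟨rfl, a2⟩ := a2
    by_cases hz' : IsPlusTypeOn ⇑Q (D z)
    · have h3 : Fintype.card F < 7 := by
        by_contra! h3; exact a2 (.inl ⟨fun i => (hp i).2 hz', h3⟩)
      by_cases h4 : Fintype.card F ≤ 3
      · exact row_reducible hQ h7 h8 hH (not_irr_of_small_plus (by simpa) hD.decomp hz' h hI)
      by_cases h5 : Fintype.card F = 4
      · obtain ⟨F₀, P, b1, b2, b3⟩ := le_subfield_of_four h5 hD.decomp fun i => (hp i).2 hz'
        exact ⟨_, row_subfield hQ Nat.prime_two b1 one_ne_zero (by simpa), h'.trans b3⟩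
      have h6 : Fintype.card F ≠ 6 := fun h6 =>
        absurd (h6 ▸ Fintype.isPrimePow_card_of_field (α := F)) (by decide)
      obtain ⟨d, E, hE⟩ := refines_plus_five (by omega) hz hd hz'
      exact frame rfl (by rw [show Fintype.card F = 5 by omega]; decide) hE
    · have h3 : Fintype.card F = 3 := by
        by_contra h3; exact a2 (.inr ⟨fun i => (hp i).not.2 hz', h3⟩)
      obtain ⟨d, E, hE⟩ := refines_minus_three h3 hz hd hz'
      exact frame rfl (by rw [h3]; decide) hE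
  by_cases a3 : k = 3 ∧ Fintype.card F = 3
  · obtain ⟨rfl, a3⟩ := a3
    obtain ⟨d, E, hE⟩ := refines_three a3 hz hd
    exact frame rfl (by rw [a3]; decide) hE
  by_cases a4 : k = 4 ∧ Fintype.card F = 2 ∧ IsPlusTypeOn ⇑Q (D z)
  · obtain ⟨rfl, a4, a5⟩ := a4
    obtain ⟨E, hE, a6⟩ := refines_four_two a4 hz hd a5
    obtain ⟨D', b1, b2, b3⟩ := hE.decomp hQ two_pos hD
    exact ⟨_, row_decomp_base hQ b1 (by omega) (fun _ => .inr ⟨fun x => (b2 x).elim fun j hj =>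
      (IsoFor.plus_iff hj).not.2 (a6 j), by omega⟩) (by omega) (by omega), h'.trans b3⟩
  refine ⟨_, row_decomp_base hQ hD h1 (fun hk => by_contra fun h => a2 ⟨hk, h⟩) (fun hk =>
    five_le_card (odd_card_of_odd hQ (hD.decomp.nondegenerate z) (by rw [hd, hk]; decide))
      fun h => a3 ⟨hk, h⟩) (fun hk => ?_), h⟩
  by_cases h3 : 3 ≤ Fintype.card F
  · exact .inl h3
  · have := Fintype.one_lt_card (α := F)
    exact .inr fun i hi => a4 ⟨hk, by omega, (hp i).1 hi⟩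

theorem row_field {r : ℕ} {K : Subalgebra F (Matrix ι ι F)} (h1 : r.Prime)
    (h2 : Fintype.card ι ≠ r) (h4 : IsFieldSubalgebra r K) (h5 : IsSelfAdjointFor (polar ⇑Q) K)
    (h : H ≤ subalgebraNormalizer K) : ∃ M, OrthRow ⇑Q M ∧ H ≤ M := by
  have : Nonempty ι := Fintype.card_pos_iff.1 (by omega)
  by_cases h3 : Fintype.card ι = 2 * r
  swap
  · exact ⟨_, row_field_base hQ h1 h2 (fun _ => h3) h4 h5, h⟩
  by_cases hirr : Irr H
  swap
  · exact row_reducible hQ h7 h8 hH hirr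
  rcases comm_half_cases (isNondegenerateQuadraticForm_coe hQ) (by omega) h4 h5 h3
    (hH.1.le.trans (omega_le_isometryGroup ⇑Q)) hirr h with ⟨t, k, D, a1, a2, a3⟩ |
    ⟨k, D, a1, a2, a3⟩ | ⟨F₀, r, P, ζ, a1, a2, a3, a4, a5⟩ | ⟨K, a1, a2, a3⟩ |
    ⟨K, a1, a2, a3, a4, a5⟩
  · exact row_decomp hQ h7 h8 hH a1 a2 a3
  · exact ⟨_, row_pair hQ h7 hH a1 a2 a3, a3⟩
  · exact ⟨_, row_subfield hQ a1 a2 a3 a4, a5⟩
  · exact ⟨_, row_field_base hQ Nat.prime_two (by omega) (fun h => (h rfl).elim) a1 a2, a3⟩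
  · exact ⟨_, row_unitary hQ a1 a2 a3 a4, a5⟩

/-- The maximal subgroups of `Ω(Q)` in dimensions 7 to 12 (except `8⁺`). -/
theorem orth_reduce (h12 : Fintype.card ι ≤ 12) :
    (∃ M, OrthRow ⇑Q M ∧ H = M ⊓ omegaGL ⇑Q) ∨ InOrthogonalResidualClass H := by
  have hq := isNondegenerateQuadraticForm_coe hQ
  have hI := hH.1.le.trans (omega_le_isometryGroup ⇑Q)
  have : Nonempty ι := Fintype.card_pos_iff.1 (by omega)
  refine (asch_orth ι F _ hq (by omega) H hI).imp_left fun ⟨M, hM, h⟩ => ?_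
  suffices ∃ M, OrthRow ⇑Q M ∧ H ≤ M from this.imp fun M h =>
    ⟨h.1, H25.eq_inf_of_max hH h.2 (h.1.not_le hQ h7)⟩
  by_cases hirr : Irr H
  swap
  · exact row_reducible hQ h7 h8 hH hirr
  have red : ∀ {W : Submodule F (ι → F)}, W ≠ ⊥ → H ≤ subspaceStabilizer W → W = ⊤ :=
    fun h0 h => (hirr.eq_bot_or_top _ fun g hg w hw => (h hg w).1 hw).resolve_left h0
  rcases hM with ⟨W, a1, a2, rfl⟩ | ⟨W, a1, a2, a3, rfl⟩ | ⟨a1, v, a2, rfl⟩ |
    ⟨t, k, D, a1, a2, rfl⟩ | ⟨k, D, a1, a2, rfl⟩ | ⟨r, K, a1, a2, a3, a4, rfl⟩ |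
    ⟨K, a1, a2, a3, a4, rfl⟩ | ⟨k, l, e, P, f₁, f₂, a0, a1, a2, a3, a4, a5, a6, rfl⟩ |
    ⟨k, l, e, P, f₁, f₂, a1, a2, a3, a4, a5, a6, a7, rfl⟩ | ⟨F₀, r, P, ζ, a1, a2, a3, a4, rfl⟩ |
    ⟨R, k, a1, a2, a3, -, a4, -, a5, a6, rfl⟩ | ⟨k, t, e, P, f₁, a0, a1, a2, a3, a4, a5, rfl⟩ |
    ⟨k, t, e, P, f₁, a1, a2, a3, a4, a5, rfl⟩
  · obtain ⟨x, -, hx⟩ := (Submodule.ne_bot_iff W).1 a1
    obtain ⟨v, hv⟩ := exists_Q_ne_zero hQ hx
    exact (hv (a2 v (red a1 h ▸ mem_top))).elim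
  · exact (a2 (red a1 h)).elim
  · exact ⟨_, .inr (.inr (.inl ⟨a1, v, a2, rfl⟩)), h⟩
  · exact row_decomp hQ h7 h8 hH a1 a2 h
  · exact ⟨_, row_pair hQ h7 hH a1 a2 h, h⟩
  · exact row_field hQ h7 h8 hH a1 a2 a3 a4 h
  · exact ⟨_, row_unitary hQ a1 a2 a3 a4, h⟩
  · have h2 := two_ne_zero_of_odd a0
    have hc : Fintype.card ι = k * l := by simp [Fintype.card_congr e]
    obtain rfl : k = 3 := by nlinarith
    have h5 := five_le_card a0 fun h => a3 ⟨h, rfl⟩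
    obtain rfl | rfl : l = 3 ∨ l = 4 := by omega
    · have hT := TenForm.of_class (B := oFrm hq) (by omega) (by omega) (B₁ := .ofSymmetric a4)
        (B₂ := .ofSymmetric a5) rfl rfl (fun _ => rfl) (fun _ => rfl) a6 h
      obtain ⟨L, c, hL⟩ := (Frm.ofSymmetric a4).exists_similar_odd (.ofSymmetric a5) rfl rfl rfl rfl
        h2 (by simp; decide)
      obtain ⟨e', P', h'⟩ := hT.powForm L hL
      exact ⟨_, .inr (.inr (.inr (.inr (.inr (.inr (.inr (.inr (.inr (.inr (.inr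
        ⟨a0, h5, e', P', f₁, a4, h'.form, rfl⟩)))))))))), h'.tpow.le⟩
    by_cases hp : IsPlusTypeOn (fun v => f₂ v v) ⊤
    · obtain ⟨e', P', g₁, g₂, b1, b2, b3, b4, b5⟩ := le_sp_tensor h2 hq hH.1.le a4 a5 a6 h hp
      exact ⟨_, .inr (.inr (.inr (.inr (.inr (.inr (.inr (.inr (.inr (.inl ⟨plus_of_sp_tensor b4,
        by omega, e', P', g₁, g₂, b1, b2, b3, b4, rfl⟩))))))))), b5⟩
    · exact ⟨_, .inr (.inr (.inr (.inr (.inr (.inr (.inr (.inr (.inl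
        ⟨(plus_iff_of_tensor hQ h2 a4 a5 a6).not.2 hp, a0, h5, e, P, f₁, f₂, a4, a5, hp, a6,
          rfl⟩)))))))), h⟩
  · have hc : Fintype.card ι = k * l := by simp [Fintype.card_congr e]
    obtain ⟨k', hk⟩ := (Frm.ofSymplectic a4).even_of_alt rfl a4.alternating
    obtain ⟨l', hl⟩ := (Frm.ofSymplectic a5).even_of_alt rfl a5.alternating
    rw [Fintype.card_fin] at hk hl
    obtain rfl : k = 2 := by
      have : k < 4 := by nlinarith
      omega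
    have := Fintype.one_lt_card (α := F)
    obtain rfl | rfl : l = 4 ∨ l = 6 := by omega
    · exact (h8 hc (plus_of_sp_tensor a7)).elim
    · exact ⟨_, .inr (.inr (.inr (.inr (.inr (.inr (.inr (.inr (.inr (.inl ⟨plus_of_sp_tensor a7,
        by omega, e, P, f₁, f₂, a4, a5, a6, a7, rfl⟩))))))))), h⟩
  · exact ⟨_, row_subfield hQ a1 a2 a3 a4, h⟩
  · have : k < 4 := (Nat.pow_lt_pow_iff_right one_lt_two).1 (by omega)
    have h9 : Fintype.card ι = 8 := by interval_cases k <;> omega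
    exact (h8 h9 (plus_of_extraspecial hQ (two_ne_zero_of_odd a4) h9 a1 a2 a3 a5)).elim
  · have hc : Fintype.card ι = k ^ t := by simp [Fintype.card_congr e]
    have h3 := Nat.pow_le_pow_right (n := k) (by omega) a2
    obtain rfl : k = 3 := by nlinarith
    obtain rfl : t = 2 := by
      have : t < 3 := (Nat.pow_lt_pow_iff_right (a := 3) (by omega)).1 (by omega)
      omega
    exact ⟨_, .inr (.inr (.inr (.inr (.inr (.inr (.inr (.inr (.inr (.inr (.inr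
      ⟨a0, five_le_card a0 fun h => a3 ⟨h, rfl⟩, e, P, f₁, a4, a5, rfl⟩)))))))))), h⟩
  · have hc : Fintype.card ι = k ^ t := by simp [Fintype.card_congr e]
    have h3 := Nat.pow_le_pow_right (n := k) (by omega) a2
    obtain ⟨k', hk⟩ := (Frm.ofSymplectic a3).even_of_alt rfl a3.alternating
    rw [Fintype.card_fin] at hk
    obtain rfl : k = 2 := by
      have : k < 4 := by nlinarith
      omega
    have : t < 4 := (Nat.pow_lt_pow_iff_right one_lt_two).1 (by omega)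
    obtain rfl : t = 3 := by interval_cases t <;> omega
    exact (h8 hc (plus_of_sp_power a3 a4 a5)).elim

end H19
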