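import Cfsg.Agent.Base
import Cfsg.Prelude.Def_AxialAlgebras

/-! Majorana axes: eigenspace calculus and the products in the algebra generated by two axes. -/

set_option autoImplicit false

namespace H19.Sak

open Cfsg.Axial

variable {V : Type*} [AddCommGroup V] [Module ℝ V] {mul : V →ₗ[ℝ] V →ₗ[ℝ] V}
  {B : LinearMap.BilinForm ℝ V}

theorem mem_eigen {a v : V} {c : ℝ} : v ∈ eigen mul a c ↔ mul a v = c • v :=
  Module.End.mem_eigenspace_iff

theorem eigenSum_insert (a : V) (c : ℝ) (S : Set ℝ) :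
    eigenSum mul a (insert c S) = eigen mul a c ⊔ eigenSum mul a S := iSup_insert

theorem eigenSum_singleton (a : V) (c : ℝ) : eigenSum mul a {c} = eigen mul a c := iSup_singleton

theorem eigenSum_conj {g : V ≃ₗ[ℝ] V} (hg : ∀ u v, g (mul u v) = mul (g u) (g v)) (a : V)
    (S : Set ℝ) {v : V} : g v ∈ eigenSum mul (g a) S ↔ v ∈ eigenSum mul a S := by
  have e : ∀ c, eigen mul (g a) c = (eigen mul a c).map g.toLinearMap := fun c => by
    ext w
    obtain ⟨w, rfl⟩ := g.surjective w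
    rw [mem_eigen, ← hg, ← map_smul, g.injective.eq_iff, ← mem_eigen]
    exact (Submodule.mem_map_equiv _).trans (by simp) |>.symm
  simp only [eigenSum, e, ← Submodule.map_iSup]
  exact (Submodule.mem_map_equiv _).trans (by simp)

theorem pair_conj {g μ : V ≃ₗ[ℝ] V} (hg : ∀ u v, g (mul u v) = mul (g u) (g v))
    (hB : ∀ u v, B (g u) (g v) = B u v) {a : V} (h : IsMajoranaPair mul B μ a) :
    IsMajoranaPair mul B (g * μ * g⁻¹) (g a) := by
  obtain ⟨h1, h2, ⟨⟨h3, h4, h5, h6⟩, h7⟩, h8, h9⟩ := h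
  have e : ∀ {c v}, g v ∈ eigen mul (g a) c ↔ v ∈ eigen mul a c := fun {c v} => by
    rw [← eigenSum_singleton, eigenSum_conj hg, eigenSum_singleton]
  have ap : ∀ v, (g * μ * g⁻¹) (g v) = g (μ v) := fun v => by simp [LinearEquiv.mul_apply]
  refine ⟨fun u v => ?_, fun u v => ?_, ⟨⟨by simpa using h3, by rw [← hg, h4],
    eq_top_iff.2 fun v _ => ?_, fun c hc d hd u hu v hv => ?_⟩, ?_⟩, fun v hv => ?_, fun v hv => ?_⟩
  · obtain ⟨u, rfl⟩ := g.surjective u
    obtain ⟨v, rfl⟩ := g.surjective v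
    rw [← hg, ap, ap, ap, h1, hg]
  · obtain ⟨u, rfl⟩ := g.surjective u
    obtain ⟨v, rfl⟩ := g.surjective v
    rw [ap, ap, hB, hB, h2]
  · obtain ⟨v, rfl⟩ := g.surjective v
    rw [eigenSum_conj hg, h5]; trivial
  · obtain ⟨u, rfl⟩ := g.surjective u
    obtain ⟨v, rfl⟩ := g.surjective v
    rw [← hg, eigenSum_conj hg]
    exact h6 c hc d hd u (e.1 hu) v (e.1 hv)
  · ext v
    obtain ⟨v, rfl⟩ := g.surjective v
    rw [e, h7, Submodule.mem_span_singleton, Submodule.mem_span_singleton]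
    simp only [← map_smul, g.injective.eq_iff]
  · obtain ⟨v, rfl⟩ := g.surjective v
    exact (ap v).trans (congrArg g (h8 v ((eigenSum_conj hg ..).1 hv)))
  · obtain ⟨v, rfl⟩ := g.surjective v
    exact (ap v).trans ((congrArg g (h9 v (e.1 hv))).trans (map_neg ..))

theorem decomp {μ : V ≃ₗ[ℝ] V} {a : V} (h : IsMajoranaPair mul B μ a) (v : V) :
    ∃ (t : ℝ) (x y z : V), v = t • a + x + y + z ∧ mul a x = 0 ∧ mul a y = (1 / 4 : ℝ) • y ∧
      mul a z = (1 / 32 : ℝ) • z ∧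
      ∀ ν, IsMajoranaPair mul B ν a → ν v = t • a + x + y - z := by
  have hv : v ∈ eigenSum mul a majoranaSpectrum := by rw [h.2.2.1.1.2.2.1]; trivial
  rw [majoranaSpectrum, eigenSum_insert, eigenSum_insert, eigenSum_insert, eigenSum_singleton] at hv
  obtain ⟨w, hw, _, hv1, rfl⟩ := Submodule.mem_sup.1 hv
  obtain ⟨x, hx, _, hv2, rfl⟩ := Submodule.mem_sup.1 hv1
  obtain ⟨y, hy, z, hz, rfl⟩ := Submodule.mem_sup.1 hv2
  obtain ⟨t, rfl⟩ := Submodule.mem_span_singleton.1 (h.2.2.1.2 ▸ hw)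
  refine ⟨t, x, y, z, by abel, by simpa using mem_eigen.1 hx, mem_eigen.1 hy, mem_eigen.1 hz,
    fun ν k => ?_⟩
  have k1 := k.2.2.2.1 (t • a + (x + y)) (by
    rw [eigenSum_insert, eigenSum_insert, eigenSum_singleton]
    exact Submodule.add_mem_sup hw (Submodule.add_mem_sup hx hy))
  have k2 := k.2.2.2.2 z hz
  simp only [LinearEquiv.coe_coe] at k1 k2
  rw [show t • a + (x + (y + z)) = t • a + (x + y) + z by abel, map_add, k1, k2]
  abel

theorem pair_unique {μ ν : V ≃ₗ[ℝ] V} {a : V} (h : IsMajoranaPair mul B μ a)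
    (k : IsMajoranaPair mul B ν a) : μ = ν := by
  ext v
  obtain ⟨t, x, y, z, -, -, -, -, e⟩ := decomp h v
  rw [e μ h, e ν k]

/-- the facts on an axis of norm one used in the computations -/
structure Ax (mul : V →ₗ[ℝ] V →ₗ[ℝ] V) (B : LinearMap.BilinForm ℝ V) (τ : V ≃ₗ[ℝ] V) (a : V) :
    Prop where
  idem : mul a a = a
  norm : B a a = 1
  tm : ∀ u v, τ (mul u v) = mul (τ u) (τ v)
  tB : ∀ u v, B (τ u) (τ v) = B u v
  ta : τ a = a
  tt : ∀ v, τ (τ v) = v
  odd : ∀ v, mul a (τ v) = mul a v - (1 / 32 : ℝ) • (v - τ v)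
  even : ∀ v, mul a (mul a (v + τ v)) = (1 / 4 : ℝ) • mul a (v + τ v) + (3 / 2 * B a v) • a
  f00 : ∀ u v, mul a u = 0 → mul a v = 0 → mul a (mul u v) = 0
  f04 : ∀ u v, mul a u = 0 → mul a v = (1 / 4 : ℝ) • v → mul a (mul u v) = (1 / 4 : ℝ) • mul u v
  f44 : ∀ u v, mul a u = (1 / 4 : ℝ) • u → mul a v = (1 / 4 : ℝ) • v →
    mul a (mul u v) = (1 / 4 * B u v) • a

theorem ax_of (hV : IsMajoranaAmbient mul B) {τ : V ≃ₗ[ℝ] V} {a : V}
    (h : IsMajoranaPair mul B τ a) (n : B a a = 1) : Ax mul B τ a := by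
  have id := h.2.2.1.1.2.1
  have fu := h.2.2.1.1.2.2.2
  have o : ∀ {c : ℝ} {x}, c ≠ 1 → mul a x = c • x → B a x = 0 := fun {c x} hc e => by
    have := hV.2.2.2.1 a a x
    rw [e, id, map_smul, smul_eq_mul] at this
    exact (mul_eq_zero.1 (show (c - 1) * B a x = 0 by linear_combination this)).resolve_left
      (sub_ne_zero.2 hc)
  have fx : ∀ {c : ℝ} {x}, c ∈ ({1, 0, 1 / 4} : Set ℝ) → mul a x = c • x → τ x = x :=
    fun {c x} hc e => h.2.2.2.1 x (le_biSup (eigen mul a) hc (mem_eigen.2 e))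
  have ta : τ a = a := fx (c := 1) (by simp) (by simp [id])
  have m0 : (0 : ℝ) ∈ majoranaSpectrum := by simp [majoranaSpectrum]
  have m4 : (1 / 4 : ℝ) ∈ majoranaSpectrum := by simp [majoranaSpectrum]
  refine ⟨id, n, h.1, h.2.1, ta, fun v => ?_, fun v => ?_, fun v => ?_, fun u v hu hv => ?_,
    fun u v hu hv => ?_, fun u v hu hv => ?_⟩
  · obtain ⟨t, x, y, z, rfl, hx, hy, hz, e⟩ := decomp h v
    have k : τ z = -z := h.2.2.2.2 z (mem_eigen.2 hz)
    rw [e τ h]
    simp [ta, fx (c := 0) (by simp) (hx.trans (zero_smul _ _).symm), fx (by simp) hy, k]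
  · obtain ⟨t, x, y, z, rfl, hx, hy, hz, e⟩ := decomp h v
    rw [e τ h]
    simp only [map_add, map_sub, map_smul, hx, hy, hz, id]
    module
  · obtain ⟨t, x, y, z, rfl, hx, hy, hz, e⟩ := decomp h v
    rw [e τ h]
    simp only [map_add, map_sub, map_smul, map_zero, hx, hy, hz, id, n, smul_eq_mul,
      o zero_ne_one (hx.trans (zero_smul _ _).symm), o (by norm_num) hy, o (by norm_num) hz]
    module
  · have := fu 0 m0 0 m0 u (mem_eigen.2 (by simp [hu])) v (mem_eigen.2 (by simp [hv]))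
    rw [show monsterLaw (1 / 4 : ℝ) (1 / 32) 0 0 = {0} by norm_num [monsterLaw],
      eigenSum_singleton, mem_eigen, zero_smul] at this
    exact this
  · have := fu 0 m0 _ m4 u (mem_eigen.2 (by simp [hu])) v (mem_eigen.2 hv)
    rw [show monsterLaw (1 / 4 : ℝ) (1 / 32) 0 (1 / 4) = {1 / 4} by norm_num [monsterLaw],
      eigenSum_singleton, mem_eigen] at this
    exact this
  · have := fu _ m4 _ m4 u (mem_eigen.2 hu) v (mem_eigen.2 hv)
    rw [show monsterLaw (1 / 4 : ℝ) (1 / 32) (1 / 4) (1 / 4) = {1, 0} by norm_num [monsterLaw],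
      eigenSum_insert, eigenSum_singleton, h.2.2.1.2] at this
    obtain ⟨w, hw, x, hx, e⟩ := Submodule.mem_sup.1 this
    obtain ⟨t, rfl⟩ := Submodule.mem_span_singleton.1 hw
    have k := hV.2.2.2.1 a u v
    rw [← e, hu, map_add, map_smul, n, o zero_ne_one (mem_eigen.1 hx)] at k
    rw [← e, map_add, map_smul, id, mem_eigen.1 hx, zero_smul, add_zero]
    congr 1
    simpa using k

/-- the invariant part of a product -/
noncomputable def sg (mul : V →ₗ[ℝ] V →ₗ[ℝ] V) (u v : V) : V := mul u v - (1 / 32 : ℝ) • (u + v)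

theorem mul_eq (u v : V) : mul u v = sg mul u v + (1 / 32 : ℝ) • (u + v) := by simp [sg]

theorem sg_comm (hV : IsMajoranaAmbient mul B) (u v : V) : sg mul u v = sg mul v u := by
  rw [sg, sg, hV.1 u v, add_comm]

namespace Ax

variable {τ σ : V ≃ₗ[ℝ] V} {a b : V} (h : Ax mul B τ a)
include h

theorem map_sg (u v : V) : τ (sg mul u v) = sg mul (τ u) (τ v) := by simp [sg, h.tm]

theorem sg_t (v : V) : sg mul a (τ v) = sg mul a v := by rw [sg, sg, h.odd]; module

theorem t_sg (v : V) : τ (sg mul a v) = sg mul a v := by rw [h.map_sg, h.ta, h.sg_t]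

theorem mul_t (v : V) : mul a (τ v) = sg mul a v + (1 / 32 : ℝ) • (a + τ v) := by
  rw [mul_eq, h.sg_t]

theorem B_t (v : V) : B a (τ v) = B a v := by rw [← h.tB a v, h.ta]

theorem mul_sg (v : V) : mul a (sg mul a v) = (7 / 32 : ℝ) • sg mul a v +
    (3 / 4 * B a v - 25 / 1024) • a + (7 / 2048 : ℝ) • (v + τ v) := by
  have e := h.even v
  have p := mul_eq (mul := mul) a v
  have q := h.mul_t v
  generalize sg mul a v = S at *
  simp only [map_add, map_smul, p, q, h.idem] at e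
  linear_combination (norm := module) (1 / 2 : ℝ) • e

theorem B_sg (hV : IsMajoranaAmbient mul B) (v : V) :
    B a (sg mul a v) = B a v - (1 + B a v) / 32 := by
  simp only [sg, map_sub, map_add, map_smul, hV.2.2.2.1, h.idem, h.norm, smul_eq_mul]
  ring

/-- the products `a₀ σ₂` and `σ₁ σ₁` -/
theorem prods (hV : IsMajoranaAmbient mul B) (k : Ax mul B σ b) {x m : ℝ} (hx : B a b = x)
    (hm : B b (τ b) = m) {S T U : V} (hS : sg mul a b = S) (hT : sg mul a (σ a) = T)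
    (hU : sg mul b (τ b) = U) :
    mul a U = (1 / 6 * x - 19 / 3072) • (b + τ b) + (7 / 6144 : ℝ) • (σ a + τ (σ a)) +
      (-32 / 3 * x ^ 2 + 5 / 3 * x - 1 / 24 * m - 127 / 3072) • a +
      (32 / 3 * x - 19 / 48) • S + (7 / 96 : ℝ) • T ∧
    mul S S = (49 / 768 * x - 245 / 196608) • (b + τ b) + (49 / 196608 : ℝ) • (σ a + τ (σ a)) +
      (7 / 6 * x ^ 2 - 7 / 384 * x + 7 / 1536 * m - 7 / 98304) • a +
      (-5 / 12 * x - 13 / 1536) • S + (-7 / 1536 : ℝ) • T + (7 / 2048 : ℝ) • U := by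
  have cm := hV.1
  have sy := hV.2.1
  have hS' : sg mul b a = S := by rw [sg_comm hV, hS]
  have p1 : mul a b = _ := hS ▸ mul_eq a b
  have p2 := hS ▸ h.mul_t b
  have p3 : mul a (σ a) = _ := hT ▸ mul_eq a (σ a)
  have p4 := hT ▸ h.mul_t (σ a)
  have p5 : mul b (τ b) = _ := hU ▸ mul_eq b (τ b)
  have p6 := hx ▸ hS ▸ h.mul_sg b
  have p7 := k.mul_sg a
  rw [hS', sy b a, hx] at p7
  have tS : τ S = S := hS ▸ h.t_sg b
  have p8 := congrArg τ p7
  simp only [h.tm, map_add, map_smul, tS, h.ta] at p8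
  have p9 : mul (τ b) (τ b) = τ b := by rw [← h.tm, k.idem]
  have q1 : B S b = x - (1 + x) / 32 := by rw [sy, ← hS', k.B_sg hV, sy b a, hx]
  have q2 : B S (τ b) = x - (1 + x) / 32 := by rw [← tS, h.tB, q1]
  have q3 : B a (τ b) = x := by rw [h.B_t, hx]
  have q4 : B (τ b) (τ b) = 1 := by rw [h.tB, k.norm]
  have ia := h.idem
  have ib := k.idem
  have nb := k.norm
  have na := h.norm
  generalize τ (σ a) = e at *
  generalize σ a = d at *
  generalize τ b = c at *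
  obtain ⟨α, hα⟩ : ∃ α, α = (-4 : ℝ) • S + (3 * x - 1 / 8) • a + (7 / 16 : ℝ) • (b + c) := ⟨_, rfl⟩
  obtain ⟨β, hβ⟩ : ∃ β, β = (4 : ℝ) • S + (1 / 8 - 4 * x) • a + (1 / 16 : ℝ) • (b + c) := ⟨_, rfl⟩
  have a0 : mul a α = 0 := by
    simp only [hα, map_add, map_smul, p1, p2, p6, ia]; module
  have a4 : mul a β = (1 / 4 : ℝ) • β := by
    simp only [hβ, map_add, map_smul, p1, p2, p6, ia]; module
  have o1 : B β α = 0 := by
    have := hV.2.2.2.1 β a α
    rw [a0, cm β a, a4] at this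
    simpa using this.symm
  have o2 : B β a = 0 := by
    have := hV.2.2.2.1 β a a
    rw [ia, cm β a, a4, map_smul, LinearMap.smul_apply, smul_eq_mul] at this
    linear_combination 4 / 3 * this
  have o3 : B β β = B β ((1 / 2 : ℝ) • (b + c)) := by
    rw [show (1 / 2 : ℝ) • (b + c) = α + β + x • a by rw [hα, hβ]; module]
    simp [o1, o2]
  have o4 : B β β = -4 * x ^ 2 + 4 * x + (m - 1) / 16 := by
    rw [o3]
    simp only [hβ, map_add, map_smul, LinearMap.add_apply, LinearMap.smul_apply, smul_eq_mul,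
      q1, q2, q3, q4, hx, hm, nb, sy c b]
    ring
  have f1 := h.f00 _ _ a0 a0
  have f2 := h.f04 _ _ a0 a4
  have f3 := h.f44 _ _ a4 a4
  rw [o4] at f3
  simp only [hα, hβ, map_add, map_smul, LinearMap.add_apply, LinearMap.smul_apply, cm S a, cm S b,
    cm S c, cm b a, cm c a, cm c b, p1, p2, p3, p4, p5, p6, p7, p8, p9, ia, ib] at f1 f2 f3
  constructor
  · linear_combination (norm := module) (8 / 3 : ℝ) • f1 - (8 / 3 : ℝ) • f3
  · linear_combination (norm := module) (-1 / 24 : ℝ) • f1 + (1 / 4 : ℝ) • f2 + (7 / 24 : ℝ) • f3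

end Ax

end H19.Sak
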