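import Cfsg.Agent.H19.Sak1

/-! Sakuma's theorem: the inner products in the algebra generated by two Majorana axes. -/

set_option autoImplicit false

namespace H19.Sak

open Cfsg.Axial

theorem poly {x y l3 l4 l5 l6 : ℝ}
    (e0 : l3 = -32768 / 7 * x ^ 3 + 36864 / 7 * x ^ 2 - 1920 / 7 * x * y - 2169 / 7 * x -
      33 / 7 * y + 33 / 7)
    (e2 : l4 = 32768 / 7 * x ^ 3 - 32768 / 7 * x ^ 2 * y - 2304 / 7 * x ^ 2 + 2432 / 7 * x * y -
      256 * x * l3 - 128 / 7 * y ^ 2 + 1622 / 7 * x + 177 / 7 * y + 6 * l3 - 6)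
    (e3 : l5 = 32768 / 7 * x ^ 2 * y - 32768 / 7 * x ^ 2 * l3 + 256 * x ^ 2 - 2304 / 7 * x * y +
      2304 / 7 * x * l3 - 256 * x * l4 + 128 / 7 * y ^ 2 - 128 / 7 * y * l3 + 24 * x - 177 / 7 * y -
      33 / 7 * l3 + 6 * l4 + 1)
    (e4 : l6 = 32768 / 7 * x ^ 2 * l3 - 32768 / 7 * x ^ 2 * l4 + 256 * x * y - 2304 / 7 * x * l3 +
      2304 / 7 * x * l4 - 256 * x * l5 + 128 / 7 * y * l3 - 128 / 7 * y * l4 - 29 * x + 24 * y +
      33 / 7 * l3 - 33 / 7 * l4 + 6 * l5)
    (e5 : -32768 / 7 * x ^ 3 + 88064 / 21 * x ^ 2 * y + 7416 / 7 * x ^ 2 - 11168 / 21 * x * y +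
      40 / 3 * x * l3 - 160 / 21 * y ^ 2 - 635 / 12 * x + 48 / 7 * y - 5 / 12 * l3 - 1 / 24 * l4 +
      45 / 56 = 0)
    (e6 : 31744 / 7 * x ^ 3 + 1024 / 7 * x ^ 2 * y - 88064 / 21 * x ^ 2 * l3 - 16712 / 21 * x ^ 2 +
      212 / 21 * x * y + 5576 / 21 * x * l3 - 40 / 3 * x * l4 + 4 / 7 * y ^ 2 + 160 / 21 * y * l3 +
      13877 / 336 * x - 67 / 224 * y - 1027 / 336 * l3 + 37 / 96 * l4 + 1 / 24 * l5 - 221 / 336 = 0) :
    l4 = 1 ∨ l5 = 1 ∨ l6 = 1 := by
  subst e4 e3 e2 e0
  have p1 : 128 * y ^ 2 + (40960 * x ^ 2 + 8896 * x - 167) * y +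
      (2097152 * x ^ 4 - 2326528 * x ^ 3 + 184320 * x ^ 2 - 4800 * x + 39) = 0 := by
    linear_combination (-56 / 3) * e5
  have q : (x - 1 / 64) * ((-3932160 * x ^ 2 - 9093120 * x - 46800) * y + (x - 1 / 32) *
      (-1006632960 * x ^ 3 + 1014497280 * x ^ 2 + 7127040 * x - 1497600)) = 0 := by
    linear_combination (-196 / 3) * e6 - (736 * x + 87 / 4) * p1
  clear e5 e6
  rcases mul_eq_zero.1 q with q | q
  · obtain rfl : x = 1 / 64 := by linear_combination q
    have : (y - 1 / 64) * (y - 1 / 8) = 0 := by linear_combination (1 / 128) * p1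
    rcases mul_eq_zero.1 this with r | r
    · obtain rfl : y = 1 / 64 := by linear_combination r
      right; right; norm_num
    · obtain rfl : y = 1 / 8 := by linear_combination r
      left; norm_num
  · have r : (x - 1) * ((x - 0) * ((x - 1 / 8) * ((x - 13 / 256) * ((x - 1 / 32) * ((x - 3 / 128) *
        (x - 5 / 256)))))) = 0 := by
      linear_combination (-1 / 397217487134077747200) *
        ((-3932160 * x ^ 2 - 9093120 * x - 46800) ^ 2 * p1 -
          (128 * ((-3932160 * x ^ 2 - 9093120 * x - 46800) * y - (x - 1 / 32) *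
            (-1006632960 * x ^ 3 + 1014497280 * x ^ 2 + 7127040 * x - 1497600)) +
            (40960 * x ^ 2 + 8896 * x - 167) * (-3932160 * x ^ 2 - 9093120 * x - 46800)) * q)
    simp only [mul_eq_zero] at r
    rcases r with r | r | r | r | r | r | r
    · obtain rfl : x = (1 / 1 : ℝ) := by linear_combination r
      obtain rfl : y = (1 / 1 : ℝ) := by linear_combination (-1 / 13072080 : ℝ) * q
      right; right; norm_num
    · obtain rfl : x = (0 / 1 : ℝ) := by linear_combination r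
      obtain rfl : y = (1 / 1 : ℝ) := by linear_combination (-1 / 46800 : ℝ) * q
      right; right; norm_num
    · obtain rfl : x = (1 / 8 : ℝ) := by linear_combination r
      obtain rfl : y = (1 / 1 : ℝ) := by linear_combination (-1 / 1244880 : ℝ) * q
      right; right; norm_num
    · obtain rfl : x = (13 / 256 : ℝ) := by linear_combination r
      obtain rfl : y = (13 / 256 : ℝ) := by linear_combination (-1 / 518700 : ℝ) * q
      right; right; norm_num
    · obtain rfl : x = (1 / 32 : ℝ) := by linear_combination r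
      obtain rfl : y = (0 / 1 : ℝ) := by linear_combination (-1 / 334800 : ℝ) * q
      left; norm_num
    · obtain rfl : x = (3 / 128 : ℝ) := by linear_combination r
      obtain rfl : y = (3 / 128 : ℝ) := by linear_combination (-1 / 262080 : ℝ) * q
      right; left; norm_num
    · obtain rfl : x = (5 / 256 : ℝ) := by linear_combination r
      obtain rfl : y = (13 / 256 : ℝ) := by linear_combination (-1 / 225900 : ℝ) * q
      right; right; norm_num

variable {V : Type*} [AddCommGroup V] [Module ℝ V] {mul : V →ₗ[ℝ] V →ₗ[ℝ] V}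
  {B : LinearMap.BilinForm ℝ V} {τ σ : V ≃ₗ[ℝ] V} {a b : V}

theorem Ax.mv (h : Ax mul B τ a) (u v : V) : B (τ u) v = B u (τ v) := by rw [← h.tB, h.tt]

theorem Ax.B_tri (h : Ax mul B τ a) (hV : IsMajoranaAmbient mul B) (k : Ax mul B σ b) :
    B a (sg mul b (τ b)) = 15 / 16 * B a b + (B b (τ b) - 1) / 32 := by
  have e : B (sg mul a b) b = B a b - (1 + B a b) / 32 := by
    rw [hV.2.1, sg_comm hV, k.B_sg hV, hV.2.1 b a]
  rw [sg, map_sub, hV.2.2.2.1, mul_eq, map_add, LinearMap.add_apply, ← h.mv, h.t_sg, e]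
  simp only [map_add, map_smul, LinearMap.add_apply, LinearMap.smul_apply, smul_eq_mul, h.B_t]
  ring

/-- the linear relation between six consecutive axes -/
theorem rel (hV : IsMajoranaAmbient mul B) (h : Ax mul B τ a) (k : Ax mul B σ b) {x y m : ℝ}
    (hx : B a b = x) (hy : B a (σ a) = y) (hm : B b (τ b) = m) :
    τ (σ a) + (256 * x - 6) • τ b + (32768 / 7 * x ^ 2 - 2304 / 7 * x + 128 / 7 * m + 33 / 7) • a -
      (32768 / 7 * x ^ 2 - 2304 / 7 * x + 128 / 7 * y + 33 / 7) • b - (256 * x - 6) • σ a -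
      σ (τ b) - (32 : ℝ) • sg mul a (σ a) + (32 : ℝ) • sg mul b (τ b) = 0 := by
  have e0 := (h.prods hV k hx hm rfl rfl rfl).2
  have e1 := (k.prods hV h ((hV.2.1 b a).trans hx) hy (sg_comm hV b a) rfl rfl).2
  linear_combination (norm := module) (196608 / 49 : ℝ) • (e1 - e0)

theorem period (hV : IsMajoranaAmbient mul B) (h : Ax mul B τ a) (k : Ax mul B σ b) :
    B a (σ (τ (σ a))) = 1 ∨ B a (σ (τ (σ (τ b)))) = 1 ∨ B a (σ (τ (σ (τ (σ a))))) = 1 := by
  obtain ⟨x, hx⟩ : ∃ x, B a b = x := ⟨_, rfl⟩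
  obtain ⟨y, hy⟩ : ∃ y, B a (σ a) = y := ⟨_, rfl⟩
  obtain ⟨m, hm⟩ : ∃ m, B b (τ b) = m := ⟨_, rfl⟩
  have cm := hV.1
  have sy := hV.2.1
  have as := hV.2.2.2.1
  have hx' : B b a = x := (sy b a).trans hx
  have R := rel hV h k hx hy hm
  have aU := (h.prods hV k hx hm rfl rfl rfl).1
  have bT := (k.prods hV h hx' hy (sg_comm hV b a) rfl rfl).1
  have aT := h.mul_sg (σ a)
  have bU := k.mul_sg (τ b)
  have s1 := h.t_sg b
  have s2 : σ (sg mul a b) = sg mul a b := by rw [sg_comm hV, k.t_sg]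
  have t1 := h.t_sg (σ a)
  have t2 : σ (sg mul a (σ a)) = sg mul a (σ a) := by rw [k.map_sg, k.tt, sg_comm hV]
  have u1 : τ (sg mul b (τ b)) = sg mul b (τ b) := by rw [h.map_sg, h.tt, sg_comm hV]
  have u2 := k.t_sg (τ b)
  have i1 := h.B_sg hV b
  have i2 := h.B_sg hV (σ a)
  have i3 := h.B_tri hV k
  have i4 := k.B_tri hV h
  have i5 := k.B_sg hV (τ b)
  have p1 := mul_eq (mul := mul) a b
  have p2 := h.mul_t b
  have p3 := mul_eq (mul := mul) a (σ a)
  have p4 := h.mul_t (σ a)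
  have p5 := (cm b a).trans p1
  have p6 := sg_comm hV b a ▸ k.mul_t a
  have p7 := mul_eq (mul := mul) b (τ b)
  have p8 := k.mul_t (τ b)
  have j1 : B b (τ (σ a)) = B a (σ (τ b)) := by rw [sy, h.mv, k.mv]
  have j2 : B (σ a) (mul a (σ (τ b))) = x - (1 + x) / 32 + (y + B a (σ (τ b))) / 32 := by
    rw [as, cm (σ a) a, ← as, ← k.tm, p2]
    simp only [map_add, map_smul, s2, i1, hx, hy, smul_eq_mul]
    ring
  have j3 : B (τ (σ a)) (mul b (τ (σ a))) = B a (σ (τ b)) := by
    rw [cm b, as, ← h.tm, ← k.tm, h.idem, h.mv, k.mv]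
  have x0 : 0 ≤ x := by
    have := hV.2.2.2.2 a b
    rw [h.idem, k.idem, hx] at this
    refine le_trans ?_ this
    by_cases z : mul a b = 0
    · simp [z]
    · exact (hV.2.2.1 _ z).le
  generalize sg mul a b = S at *
  generalize sg mul a (σ a) = T at *
  generalize sg mul b (τ b) = U at *
  have e0 := congrArg (B a) R
  have e1 := congrArg (B b) R
  have e2 := congrArg (B (σ a)) R
  have e3 := congrArg (B (τ (σ a))) R
  have e4 := congrArg (B (σ (τ (σ a)))) R
  have e5 := congrArg (fun v => B (σ a) (mul a v)) R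
  have e6 := congrArg (fun v => B (τ (σ a)) (mul b v)) R
  simp only [map_add, map_sub, map_smul, map_zero, j2, j3, smul_eq_mul] at e5 e6
  simp only [aU, bT, aT, bU, p1, p2, p3, p4, p5, p6, p7, p8, h.idem, k.idem] at e5 e6
  simp only [map_add, map_sub, map_smul, map_zero, smul_eq_mul, h.mv, k.mv, h.tt, k.tt, h.ta, k.ta,
    h.B_t, k.B_t, s1, s2, t1, t2, u1, u2, i1, i2, i3, i4, i5, hx, hx', hy, hm, j1, h.norm,
    k.norm] at e0 e1 e2 e3 e4 e5 e6
  obtain rfl : m = y := by
    have : (m - y) * (x + 101 / 640) = 0 := by linear_combination (7 / 1920) * (e0 + e1)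
    exact sub_eq_zero.1 ((mul_eq_zero.1 this).resolve_right (by positivity))
  exact poly (x := x) (y := m) (l3 := B a (σ (τ b))) (by linear_combination -e0)
    (by linear_combination e2) (by linear_combination -e3) (by linear_combination e4)
    (by linear_combination e5) (by linear_combination e6)

theorem eq_of_B (hV : IsMajoranaAmbient mul B) {u v : V} (hu : B u u = 1) (hv : B v v = 1)
    (h : B u v = 1) : u = v := by
  by_contra n
  have := hV.2.2.1 _ (sub_ne_zero.2 n)
  simp only [map_sub, LinearMap.sub_apply, hu, hv, h, hV.2.1 v u] at this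
  norm_num at this

theorem Ax.mul_self (h : Ax mul B τ a) : τ * τ = 1 := LinearEquiv.ext h.tt

theorem Ax.inv (h : Ax mul B τ a) : τ⁻¹ = τ := inv_eq_of_mul_eq_one_right h.mul_self

theorem six (hV : IsMajoranaAmbient mul B) (h₀ : IsMajoranaPair mul B τ a)
    (h₁ : IsMajoranaPair mul B σ b) (n₀ : B a a = 1) (n₁ : B b b = 1) :
    ∃ n : ℕ, 1 ≤ n ∧ n ≤ 6 ∧ (τ * σ) ^ n = 1 := by
  have h := ax_of hV h₀ n₀
  have k := ax_of hV h₁ n₁
  have t := fun {μ c} => pair_conj (g := τ) (μ := μ) (a := c) h.tm h.tB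
  have s := fun {μ c} => pair_conj (g := σ) (μ := μ) (a := c) k.tm k.tB
  rcases period hV h k with e | e | e
  · have := s (t (s h₀))
    rw [← eq_of_B hV n₀ (by simp only [h.tB, k.tB, n₀]) e] at this
    replace this := pair_unique h₀ this
    refine ⟨4, by norm_num, by norm_num, ?_⟩
    rw [h.inv, k.inv] at this
    rw [← h.mul_self]
    nth_rewrite 3 [this]
    simp only [pow_succ, pow_zero, one_mul, mul_assoc]
  · have := pair_unique h₀ (eq_of_B hV n₀ (by simp only [h.tB, k.tB, n₁]) e ▸ s (t (s (t h₁))))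
    refine ⟨5, by norm_num, by norm_num, ?_⟩
    rw [h.inv, k.inv] at this
    rw [← h.mul_self]
    nth_rewrite 3 [this]
    simp only [pow_succ, pow_zero, one_mul, mul_assoc]
  · have := s (t (s (t (s h₀))))
    rw [← eq_of_B hV n₀ (by simp only [h.tB, k.tB, n₀]) e] at this
    replace this := pair_unique h₀ this
    refine ⟨6, by norm_num, by norm_num, ?_⟩
    rw [h.inv, k.inv] at this
    rw [← h.mul_self]
    nth_rewrite 3 [this]
    simp only [pow_succ, pow_zero, one_mul, mul_assoc]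

end H19.Sak
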