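/- Slot SZSOL-A: sums of two powers of two modulo `(2^n - 1)/d`. -/
import Cfsg.Agent.H2.SzSpec

set_option autoImplicit false

namespace H19.SzA

theorem small : ((List.range 21).all fun n => (List.range (n + 1)).all fun d =>
    n % d != 0 || (2 ^ n - 1) % d != 0 || (List.range n).all fun a => (List.range n).all fun c =>
      (List.range n).all fun e => (2 ^ a + 2 ^ c) * d % (2 ^ n - 1) != (1 + 2 ^ e) * d % (2 ^ n - 1) ||
        n < 2 || (a + c) % n == e) = true := by
  decide +kernel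

theorem shift_inj {n s x y : ℕ} (hx : x < n) (hy : y < n) (h : (x + s) % n = (y + s) % n) : x = y :=
  Nat.ModEq.eq_of_lt_of_lt (Nat.ModEq.add_right_cancel' s h) hx hy

theorem card_bad (n w x : ℕ) (hw : w ≤ n) :
    ((Finset.range n).filter fun s => n - w ≤ (x + s) % n).card ≤ w := by
  have h := Finset.card_le_card_of_injOn (s := (Finset.range n).filter fun s => n - w ≤ (x + s) % n)
    (t := Finset.Ico (n - w) n) (fun s => (x + s) % n) (fun s hs => by
      simp only [Finset.coe_filter, Finset.mem_range, Set.mem_setOf_eq] at hs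
      simp only [Finset.coe_Ico, Set.mem_Ico]
      exact ⟨hs.2, Nat.mod_lt _ (by omega)⟩) (fun s hs t ht h => by
      simp only [Finset.coe_filter, Finset.mem_range, Set.mem_setOf_eq] at hs ht
      refine shift_inj (s := x) hs.1 ht.1 ?_
      rw [add_comm s, add_comm t]
      exact h)
  rw [Nat.card_Ico] at h
  omega

theorem exists_shift {n w : ℕ} (hw : 4 * w < n) (a b c e : ℕ) : ∃ s < n, (a + s) % n < n - w ∧
    (b + s) % n < n - w ∧ (c + s) % n < n - w ∧ (e + s) % n < n - w := by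
  let B := fun x => (Finset.range n).filter fun s => n - w ≤ (x + s) % n
  have h : (B a ∪ B b ∪ B c ∪ B e).card < (Finset.range n).card := by
    have h1 := Finset.card_union_le (B a ∪ B b ∪ B c) (B e)
    have h2 := Finset.card_union_le (B a ∪ B b) (B c)
    have h3 := Finset.card_union_le (B a) (B b)
    have k : ∀ x, (B x).card ≤ w := fun x => card_bad n w x (by omega)
    have := k a
    have := k b
    have := k c
    have := k e
    rw [Finset.card_range]
    omega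
  obtain ⟨s, hs, h1⟩ := Finset.exists_mem_notMem_of_card_lt_card h
  simp only [B, Finset.mem_union, Finset.mem_filter, hs, true_and, not_or, not_le] at h1
  exact ⟨s, Finset.mem_range.1 hs, h1.1.1.1, h1.1.1.2, h1.1.2, h1.2⟩

theorem pow_mod (n k : ℕ) : 2 ^ k ≡ 2 ^ (k % n) [MOD 2 ^ n - 1] := by
  have h1 : 2 ^ n ≡ 1 [MOD 2 ^ n - 1] :=
    ((Nat.modEq_iff_dvd' (Nat.one_le_two_pow)).2 dvd_rfl).symm
  conv_lhs => rw [← Nat.div_add_mod k n, pow_add, pow_mul]
  simpa using (h1.pow (k / n)).mul_right (2 ^ (k % n))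

theorem uniq' {a b c e : ℕ} (h1 : a ≤ c) (h2 : b ≤ e) (h : 2 ^ a + 2 ^ c = 2 ^ b + 2 ^ e) :
    a = b ∧ c = e := by
  have key : ∀ {a b c e : ℕ}, a ≤ c → 2 ^ a + 2 ^ c = 2 ^ b + 2 ^ e → ¬ c < e := by
    intro a b c e h1 h h3
    have k1 : 2 ^ a ≤ 2 ^ c := Nat.pow_le_pow_right (by norm_num) h1
    have k2 : 2 ^ (c + 1) ≤ 2 ^ e := Nat.pow_le_pow_right (by norm_num) h3
    have k3 := Nat.two_pow_pos b
    rw [pow_succ] at k2
    omega
  have k := key h1 h
  have k' := key h2 h.symm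
  obtain rfl : c = e := by omega
  exact ⟨Nat.pow_right_injective le_rfl (Nat.add_right_cancel h), rfl⟩

theorem uniq {a b c e : ℕ} (h : 2 ^ a + 2 ^ c = 2 ^ b + 2 ^ e) :
    (a = b ∧ c = e) ∨ (a = e ∧ c = b) := by
  rcases le_total a c with h1 | h1 <;> rcases le_total b e with h2 | h2
  · exact Or.inl (uniq' h1 h2 h)
  · exact Or.inr (uniq' h1 h2 (by omega))
  · exact Or.inr (uniq' h1 h2 (by omega)).symm
  · exact Or.inl (uniq' h1 h2 (by omega)).symm

theorem lt_pow {n : ℕ} (hn : 21 ≤ n) : n < 2 ^ ((n - 1) / 4) := by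
  obtain ⟨w, hw⟩ : ∃ w, (n - 1) / 4 = w + 5 := ⟨(n - 1) / 4 - 5, by omega⟩
  have := Nat.lt_two_pow_self (n := w)
  rw [hw, pow_add]
  omega

theorem bound {n w d x y : ℕ} (hw : w < n) (hd : d < 2 ^ w) (hx : x < n - w) (hy : y < n - w) :
    (2 ^ x + 2 ^ y) * d < 2 ^ n - 1 := by
  obtain ⟨m, rfl⟩ : ∃ m, n = w + (m + 1) := ⟨n - w - 1, by omega⟩
  have k1 : 2 ^ x ≤ 2 ^ m := Nat.pow_le_pow_right (by norm_num) (by omega)
  have k2 : 2 ^ y ≤ 2 ^ m := Nat.pow_le_pow_right (by norm_num) (by omega)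
  have k3 : (2 ^ x + 2 ^ y) * (d + 1) ≤ 2 * 2 ^ m * 2 ^ w := Nat.mul_le_mul (by omega) hd
  have k4 := Nat.two_pow_pos x
  have k5 := Nat.two_pow_pos y
  have k6 : 2 ^ (w + (m + 1)) = 2 * 2 ^ m * 2 ^ w := by ring
  rw [mul_add, mul_one] at k3
  omega

theorem jobA : H2.Sz.JobA := by
  intro n d a c e hn hd hd' ha hc he h
  have hdn := Nat.le_of_dvd (by omega) hd
  by_cases h21 : n < 21
  · have h0 := List.all_eq_true.1 (List.all_eq_true.1 small n (List.mem_range.2 h21)) d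
      (List.mem_range.2 (by omega))
    simp only [Bool.or_eq_true, bne_iff_ne, ne_eq, Nat.mod_eq_zero_of_dvd hd,
      Nat.mod_eq_zero_of_dvd hd', not_true, false_or, List.all_eq_true, List.mem_range,
      decide_eq_true_eq, beq_iff_eq] at h0
    exact (h0 a ha c hc e he).resolve_left fun k => k.elim (fun k => k h) (by omega)
  have hw := lt_pow (not_lt.1 h21)
  obtain ⟨s, hs, s1, s2, s3, s4⟩ := exists_shift (n := n) (w := (n - 1) / 4) (by omega) a c 0 e
  have k : ∀ x y, (2 ^ x + 2 ^ y) * d * 2 ^ s ≡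
      (2 ^ ((x + s) % n) + 2 ^ ((y + s) % n)) * d [MOD 2 ^ n - 1] := fun x y => by
    rw [show (2 ^ x + 2 ^ y) * d * 2 ^ s = (2 ^ (x + s) + 2 ^ (y + s)) * d by ring]
    exact ((pow_mod n _).add (pow_mod n _)).mul_right d
  have h1 := (k a c).symm.trans ((h.mul_right (2 ^ s)).trans (k 0 e))
  have h2 := h1.eq_of_lt_of_lt (bound (by omega) (by omega) s1 s2) (bound (by omega) (by omega) s3 s4)
  have hd0 : 0 < d := Nat.pos_of_dvd_of_pos hd (by omega)
  rcases uniq (Nat.eq_of_mul_eq_mul_right hd0 h2) with ⟨k1, k2⟩ | ⟨k1, k2⟩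
  · rw [shift_inj ha (by omega) k1, shift_inj hc he k2, zero_add, Nat.mod_eq_of_lt he]
  · rw [shift_inj ha he k1, shift_inj hc (by omega) k2, add_zero, Nat.mod_eq_of_lt he]

end H19.SzA
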