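import Cfsg.Agent.Base

/-! Poisson summation for Gaussians on `ℤ ^ n`, by induction on `n`. -/

set_option autoImplicit false

namespace H19.Theta

open Real Complex Finset

variable {n : ℕ}

/-- The quadratic form of a real matrix, on vectors over `ℝ` or `ℂ`. -/
def Qf {K : Type*} [CommRing K] [Algebra ℝ K] (A : Matrix (Fin n) (Fin n) ℝ) (x : Fin n → K) : K :=
  ∑ i, ∑ j, x i * algebraMap ℝ K (A i j) * x j

/-- Positive definite. -/
def PD (A : Matrix (Fin n) (Fin n) ℝ) : Prop := ∀ x : Fin n → ℝ, x ≠ 0 → 0 < Qf A x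

theorem Qf_ofReal (A : Matrix (Fin n) (Fin n) ℝ) (x : Fin n → ℝ) :
    Qf A (fun i => (x i : ℂ)) = (Qf A x : ℝ) := by simp [Qf]

theorem sum1 {t : ℝ} (ht : 0 < t) (s : ℝ) : Summable fun m : ℤ => rexp (-t * m ^ 2 + s * m) := by
  have := ((summable_jacobiTheta₂_term_iff (-(s / (2 * π) : ℝ) * I) ((t / π : ℝ) * I)).2
    (by simpa using div_pos ht pi_pos)).norm
  refine this.congr fun m => ?_
  rw [norm_jacobiTheta₂_term]
  congr 1
  simp only [mul_im, ofReal_re, I_im, ofReal_im, I_re, neg_re, neg_im]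
  field_simp
  ring

theorem sumPi : ∀ {n : ℕ} (f : Fin n → ℤ → ℝ), (∀ i, Summable (f i)) → (∀ i m, 0 ≤ f i m) →
    Summable fun x : Fin n → ℤ => ∏ i, f i (x i)
  | 0, _, _, _ => Summable.of_finite
  | n + 1, f, h1, h2 => by
    rw [← (Fin.consEquiv fun _ : Fin (n + 1) => ℤ).summable_iff]
    refine ((h1 0).mul_of_nonneg (sumPi (fun i => f i.succ) (fun i => h1 _) fun i => h2 _) (h2 0)
      fun x => prod_nonneg fun i _ => h2 _ _).congr fun x => ?_
    simp [Fin.prod_univ_succ, Fin.consEquiv]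

theorem coercive {A : Matrix (Fin n) (Fin n) ℝ} (hA : PD A) :
    ∃ ε : ℝ, 0 < ε ∧ ∀ x : Fin n → ℝ, ε * ∑ i, x i ^ 2 ≤ Qf A x := by
  rcases n.eq_zero_or_pos with rfl | hn
  · exact ⟨1, one_pos, fun x => by simp [Qf]⟩
  have : Nonempty (Fin n) := ⟨⟨0, hn⟩⟩
  obtain ⟨y, hy, hm⟩ := (isCompact_sphere (0 : Fin n → ℝ) 1).exists_isMinOn
    (NormedSpace.sphere_nonempty.2 zero_le_one) (f := Qf A) (by unfold Qf; fun_prop)
  have y0 := hA y (by rintro rfl; simp at hy)
  refine ⟨Qf A y / n, by positivity, fun x => ?_⟩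
  rcases eq_or_ne x 0 with rfl | hx
  · simp [Qf]
  have x0 := norm_pos_iff.2 hx
  have h1 : Qf A y ≤ Qf A (‖x‖⁻¹ • x) := hm (by simp [norm_smul, x0.ne'])
  have h2 : Qf A x = ‖x‖ ^ 2 * Qf A (‖x‖⁻¹ • x) := by
    simp only [Qf, mul_sum, Pi.smul_apply, smul_eq_mul]
    refine sum_congr rfl fun i _ => sum_congr rfl fun j _ => ?_
    field_simp
  have h3 : ∑ i, x i ^ 2 ≤ n * ‖x‖ ^ 2 := by
    refine (sum_le_card_nsmul _ _ (‖x‖ ^ 2) fun i _ => ?_).trans (by simp)
    rw [← sq_abs]
    exact pow_le_pow_left₀ (abs_nonneg _) (norm_le_pi_norm x i) 2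
  calc _ ≤ Qf A y / n * (n * ‖x‖ ^ 2) := by gcongr
    _ = ‖x‖ ^ 2 * Qf A y := by field_simp
    _ ≤ _ := by rw [h2]; gcongr

theorem sumR {A : Matrix (Fin n) (Fin n) ℝ} (hA : PD A) {t : ℝ} (ht : 0 < t) (b : Fin n → ℝ) :
    Summable fun x : Fin n → ℤ => rexp (-t * Qf A (fun i => (x i : ℝ)) + ∑ i, b i * x i) := by
  obtain ⟨ε, h0, h1⟩ := coercive hA
  refine (sumPi _ (fun i => sum1 (mul_pos ht h0) (b i)) fun _ _ => (exp_pos _).le).of_nonneg_of_le
    (fun _ => (exp_pos _).le) fun x => ?_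
  rw [← Real.exp_sum, Real.exp_le_exp, sum_add_distrib, ← mul_sum]
  have := h1 fun i => x i
  nlinarith

theorem sumC {A : Matrix (Fin n) (Fin n) ℝ} (hA : PD A) {a : ℂ} (ha : 0 < a.re) (b : Fin n → ℂ)
    (k : ℂ) : Summable fun x : Fin n → ℤ =>
      ‖cexp (-π * a * Qf A (fun i => (x i : ℂ)) + ∑ i, b i * x i + k)‖ := by
  refine ((sumR hA (mul_pos pi_pos ha) fun i => (b i).re).mul_right (rexp k.re)).congr fun x => ?_
  rw [norm_exp, ← Real.exp_add, show (fun i => (x i : ℂ)) = fun i => ((x i : ℝ) : ℂ) by simp,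
    Qf_ofReal]
  simp

theorem Qf_add {A : Matrix (Fin n) (Fin n) ℝ} (hA : A.IsSymm) (x w : Fin n → ℂ) :
    Qf A (x + w) = Qf A x + ∑ i, (2 * ∑ j, A i j * w j) * x i + Qf A w := by
  have : ∑ i, ∑ j, w i * A i j * x j = ∑ i, ∑ j, x i * A i j * w j := by
    rw [sum_comm]
    exact sum_congr rfl fun i _ => sum_congr rfl fun j _ => by rw [hA.apply i j]; ring
  simp only [Qf, Pi.add_apply, add_mul, mul_add, sum_add_distrib, coe_algebraMap, this, two_mul,
    sum_mul]
  simp only [mul_comm _ (x _), mul_assoc]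
  ring

theorem sumS {A : Matrix (Fin n) (Fin n) ℝ} (hA : PD A) (hs : A.IsSymm) {a : ℂ} (ha : 0 < a.re)
    (w : Fin n → ℂ) : Summable fun x : Fin n → ℤ =>
      cexp (-π / a * Qf A ((fun i => (x i : ℂ)) + w)) := by
  have h1 : 0 < a⁻¹.re := by
    rw [inv_re]; exact div_pos ha (normSq_pos.2 fun e => by simp [e] at ha)
  refine (sumC hA h1 (fun i => -π / a * (2 * ∑ j, A i j * w j)) (-π / a * Qf A w)).of_norm.congr
    fun x => ?_
  rw [Qf_add hs, mul_add, mul_add, mul_sum]
  simp only [mul_assoc, div_eq_mul_inv]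

theorem PD.inv {A A' : Matrix (Fin n) (Fin n) ℝ} (hA : PD A) (h : A * A' = 1) : PD A' := fun x hx => by
  have e : A.mulVec (A'.mulVec x) = x := by rw [Matrix.mulVec_mulVec, h, Matrix.one_mulVec]
  have := hA (A'.mulVec x) fun e0 => hx (by rw [← e, e0, Matrix.mulVec_zero])
  have e1 : ∀ (B : Matrix (Fin n) (Fin n) ℝ) (y : Fin n → ℝ), Qf B y = y ⬝ᵥ B.mulVec y := fun B y => by
    simp [Qf, dotProduct, Matrix.mulVec, mul_sum, mul_assoc]
  rwa [e1, e, dotProduct_comm, ← e1] at this

/-- Poisson summation for Gaussians, up to a constant depending on the matrix. -/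
theorem poisson : ∀ {n : ℕ} (A A' : Matrix (Fin n) (Fin n) ℝ), PD A → A.IsSymm → A * A' = 1 →
    ∃ c : ℂ, ∀ a : ℂ, 0 < a.re → ∀ b : Fin n → ℂ,
      ∑' x : Fin n → ℤ, cexp (-π * a * Qf A (fun i => (x i : ℂ)) + 2 * π * ∑ i, b i * x i) =
        c * (1 / a ^ (1 / 2 : ℂ)) ^ n *
          ∑' y : Fin n → ℤ, cexp (-π / a * Qf A' ((fun i => (y i : ℂ)) + I • b))
  | 0, _, _, _, _, _ => ⟨1, fun a _ b => by simp [Qf]⟩
  | n + 1, A, A', hA, hs, h => by
    have hs' : A'.IsSymm := by rw [← Matrix.inv_eq_right_inv h]; exact hs.inv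
    have α0 : 0 < A 0 0 := by
      simpa [Qf, Fin.sum_univ_succ] using hA (Fin.cons 1 0) fun e => by simpa using congrFun e 0
    obtain ⟨γ, hγ⟩ : ∃ γ : Fin n → ℝ, ∀ j, A 0 j.succ = A 0 0 * γ j :=
      ⟨fun j => A 0 j.succ / A 0 0, fun j => by field_simp⟩
    have hγ' : ∀ j, A j.succ 0 = A 0 0 * γ j := fun j => by rw [← hγ, hs.apply]
    generalize hα : A 0 0 = α at α0 hγ hγ'
    let S : Matrix (Fin n) (Fin n) ℝ := .of fun i j => A i.succ j.succ - α * γ i * γ j
    let C : Matrix (Fin n) (Fin n) ℝ := .of fun i j => A' i.succ j.succ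
    have e1 : ∀ {K : Type} [CommRing K] [Algebra ℝ K] (x0 : K) (x : Fin n → K),
        Qf A (Fin.cons x0 x : Fin (n + 1) → K) =
          algebraMap ℝ K α * (x0 + ∑ j, algebraMap ℝ K (γ j) * x j) ^ 2 + Qf S x := by
      intro K _ _ x0 x
      have l1 : Qf S x = ∑ i, ∑ j, x i * algebraMap ℝ K (A i.succ j.succ) * x j -
          algebraMap ℝ K α * (∑ j, algebraMap ℝ K (γ j) * x j) ^ 2 := by
        rw [sq, sum_mul_sum]
        simp only [Qf, S, Matrix.of_apply, map_sub, map_mul, mul_sum, ← sum_sub_distrib]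
        exact sum_congr rfl fun i _ => sum_congr rfl fun j _ => by ring
      have l2 : ∑ j, x0 * (algebraMap ℝ K α * algebraMap ℝ K (γ j)) * x j =
          algebraMap ℝ K α * x0 * ∑ j, algebraMap ℝ K (γ j) * x j := by
        rw [mul_sum]; exact sum_congr rfl fun i _ => by ring
      have l3 : ∑ j, x j * (algebraMap ℝ K α * algebraMap ℝ K (γ j)) * x0 =
          algebraMap ℝ K α * x0 * ∑ j, algebraMap ℝ K (γ j) * x j := by
        rw [mul_sum]; exact sum_congr rfl fun i _ => by ring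
      rw [l1]
      simp only [Qf, Fin.sum_univ_succ, Fin.cons_zero, Fin.cons_succ, hγ, hγ', hα, map_mul,
        sum_add_distrib, l2, l3]
      ring
    have e2 : ∀ j, A' 0 j.succ = -∑ k, γ k * C k j := fun j => by
      have := congrFun (congrFun h 0) j.succ
      simp only [Matrix.mul_apply, Fin.sum_univ_succ, hγ, hα, mul_assoc, ← mul_sum,
        Matrix.one_apply_ne (Fin.succ_ne_zero j).symm, ← mul_add, mul_eq_zero, α0.ne', false_or] at this
      exact eq_neg_of_add_eq_zero_left this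
    have e2' : ∀ j, A' j.succ 0 = -∑ k, γ k * C k j := fun j => by rw [← e2, hs'.apply]
    have e3 : A' 0 0 = α⁻¹ + ∑ j, γ j * ∑ k, γ k * C k j := by
      have := congrFun (congrFun h 0) 0
      simp only [Matrix.mul_apply, Fin.sum_univ_succ, hγ, hα, mul_assoc, ← mul_sum, e2',
        Matrix.one_apply_eq, mul_neg, sum_neg_distrib] at this
      field_simp
      linear_combination this
    have hS : S * C = 1 := by
      ext i j
      have := congrFun (congrFun h i.succ) j.succ
      simp only [Matrix.mul_apply, Fin.sum_univ_succ, hγ', e2, Matrix.one_apply, Fin.succ_inj] at this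
      simp only [Matrix.mul_apply, Matrix.one_apply, ← this, S, sub_mul, sum_sub_distrib, mul_assoc,
        ← mul_sum, C, Matrix.of_apply]
      ring
    have hC : C.IsSymm := by ext i j; exact hs'.apply _ _
    have e4 : ∀ (w0 : ℂ) (w : Fin n → ℂ), Qf A' (Fin.cons w0 w : Fin (n + 1) → ℂ) =
        w0 ^ 2 / α + Qf C (w + fun j => -w0 * γ j) := fun w0 w => by
      have l1 : Qf C (fun j => -w0 * γ j) = w0 * (∑ j, γ j * ∑ k, γ k * C k j : ℝ) * w0 := by
        simp only [Qf, coe_algebraMap, ofReal_sum, ofReal_mul, mul_sum, sum_mul]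
        exact sum_congr rfl fun i _ => sum_congr rfl fun j _ => by rw [hC.apply i j]; ring
      have l2 : ∑ i, (2 * ∑ j, C i j * (-w0 * γ j)) * w i =
          ∑ j, w0 * (-∑ k, γ k * C k j : ℝ) * w j + ∑ j, w j * (-∑ k, γ k * C k j : ℝ) * w0 := by
        simp only [ofReal_neg, ofReal_sum, ofReal_mul, mul_sum, sum_mul, ← sum_add_distrib,
          ← sum_neg_distrib]
        exact sum_congr rfl fun i _ => sum_congr rfl fun j _ => by rw [hC.apply i j]; ring
      rw [Qf_add hC, l1, l2]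
      simp only [Qf, Fin.sum_univ_succ, Fin.cons_zero, Fin.cons_succ, e2, e2', e3, coe_algebraMap,
        sum_add_distrib, ofReal_add, ofReal_inv, C, Matrix.of_apply]
      ring
    have hSp : PD S := fun x hx => by
      have := hA (Fin.cons (-∑ j, γ j * x j) x) fun e => hx (funext fun j => congrFun e j.succ)
      rw [e1] at this
      simpa using this
    obtain ⟨c, hc⟩ := poisson S C hSp (by
      ext i j; simp only [S, Matrix.transpose_apply, Matrix.of_apply, hs.apply i.succ]; ring) hS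
    refine ⟨c * (1 / (α : ℂ) ^ (1 / 2 : ℂ)), fun a ha b => ?_⟩
    have a0 : a ≠ 0 := fun e => by simp [e] at ha
    have α0' : (α : ℂ) ≠ 0 := by exact_mod_cast α0.ne'
    have ha' : 0 < (α * a).re := by simpa using mul_pos α0 ha
    have e5 : (α * a) ^ (1 / 2 : ℂ) = α ^ (1 / 2 : ℂ) * a ^ (1 / 2 : ℂ) := by
      rw [cpow_def_of_ne_zero (mul_ne_zero α0' a0), cpow_def_of_ne_zero α0', cpow_def_of_ne_zero a0,
        log_ofReal_mul α0 a0, add_mul, Complex.exp_add, ofReal_log α0.le]
    let e := Fin.consEquiv fun _ : Fin (n + 1) => ℤ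
    have he : ∀ p : ℤ × (Fin n → ℤ), (fun i => (e p i : ℂ)) =
        Fin.cons (p.1 : ℂ) fun j => (p.2 j : ℂ) := fun p => by
      funext i; refine Fin.cases ?_ (fun j => ?_) i <;> simp [e, Fin.consEquiv]
    have s1 := e.summable_iff.2 (sumC hA ha (fun i => 2 * π * b i) 0).of_norm
    have s3 := e.summable_iff.2 (sumS (hA.inv h) hs' ha (I • b))
    let F : ℤ → (Fin n → ℤ) → ℂ := fun y x => cexp (-π / (α * a) * (y + I * b 0) ^ 2) *
      cexp (-π * a * Qf S (fun i => (x i : ℂ)) +
        2 * π * ∑ i, (b i.succ + I * (y + I * b 0) * γ i) * x i)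
    have s2 : Summable (Function.uncurry F) := by
      have t1 : Summable fun y : ℤ => ‖cexp (-π / (α * a) * (y + I * b 0) ^ 2)‖ := by
        have := (Equiv.funUnique (Fin 1) ℤ).symm.summable_iff.2 (sumS (A := 1) (fun x hx => by
          simpa [Qf] using fun e => hx (funext fun i => by rwa [Subsingleton.elim i 0]))
          Matrix.isSymm_one ha' fun _ => I * b 0).norm
        exact this.congr fun y => by simp [Qf, sq]
      refine .of_norm ((t1.mul_of_nonneg (sumC hSp ha (fun i => 2 * π * (b i.succ - b 0 * γ i)) 0)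
        (fun _ => norm_nonneg _) fun _ => norm_nonneg _).congr fun p => ?_)
      simp only [F, Function.uncurry, norm_mul, norm_exp, add_zero, add_re, mul_sum, re_sum]
      congr 3
      exact sum_congr rfl fun i _ => by simp; ring
    calc _ = ∑' x : Fin n → ℤ, ∑' x0 : ℤ, cexp (-π * a * Qf A (fun i => (e (x0, x) i : ℂ)) +
          ∑ i, 2 * π * b i * e (x0, x) i + 0) := by
          refine .trans ?_ ((Equiv.prodComm _ _).tsum_eq _ |>.symm.trans s1.prod_symm.tsum_prod)
          rw [← e.tsum_eq]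
          simp only [Function.comp, mul_sum, mul_assoc, add_zero]
      _ = ∑' x : Fin n → ℤ, 1 / (α * a) ^ (1 / 2 : ℂ) * ∑' y : ℤ, F y x := by
          refine tsum_congr fun x => ?_
          have := Complex.tsum_exp_neg_quadratic ha' (b 0 - a * α * ∑ j, (γ j : ℂ) * x j)
          trans (∑' m : ℤ, cexp (-π * (α * a) * m ^ 2 +
              2 * π * (b 0 - a * α * ∑ j, (γ j : ℂ) * x j) * m)) *
            cexp (-π * a * (α * (∑ j, (γ j : ℂ) * x j) ^ 2 + Qf S fun i => (x i : ℂ)) +
              2 * π * ∑ i, b i.succ * x i)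
          · rw [← tsum_mul_right]
            refine tsum_congr fun m => ?_
            rw [← Complex.exp_add, he, e1, Fin.sum_univ_succ]
            simp only [e, Fin.consEquiv, Equiv.coe_fn_mk, Fin.cons_zero, Fin.cons_succ,
              coe_algebraMap, mul_assoc, ← mul_sum]
            congr 1; ring
          rw [this, mul_assoc, ← tsum_mul_right]
          congr 1
          refine tsum_congr fun m => ?_
          simp only [F, ← Complex.exp_add, add_mul, sum_add_distrib, mul_assoc, ← mul_sum]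
          congr 1
          field_simp
          linear_combination -(a * α * ∑ j, (γ j : ℂ) * x j) ^ 2 * I_sq
      _ = _ := by
          have s4 := s3.tsum_prod
          simp only [Function.comp] at s4
          rw [tsum_mul_left, s2.tsum_comm, ← e.tsum_eq, s4, e5, pow_succ, ← tsum_mul_left,
            ← tsum_mul_left]
          refine tsum_congr fun y => ?_
          simp only [F]
          rw [tsum_mul_left, hc a ha, ← mul_assoc, ← mul_assoc, ← tsum_mul_left, ← tsum_mul_left]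
          refine tsum_congr fun y' => ?_
          have : (fun i => (e (y, y') i : ℂ)) + I • b = Fin.cons (y + I * b 0)
              ((fun i => (y' i : ℂ)) + I • fun i => b i.succ) := by
            funext i; refine Fin.cases ?_ (fun j => ?_) i <;> simp [e, Fin.consEquiv]
          rw [this, e4, mul_add (-π / a), Complex.exp_add,
            show ((fun i => (y' i : ℂ)) + I • fun i => b i.succ) + (fun j => -(y + I * b 0) * γ j) =
              (fun i => (y' i : ℂ)) + I • fun i => b i.succ + I * (y + I * b 0) * γ i by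
              funext i
              simp only [Pi.add_apply, Pi.smul_apply, smul_eq_mul]
              linear_combination (-(y + I * b 0) * γ i) * I_sq,
            show -π / a * ((y + I * b 0) ^ 2 / α) = -π / (α * a) * (y + I * b 0) ^ 2 by field_simp]
          field_simp

open UpperHalfPlane hiding I
open ModularForm MatrixGroups EisensteinSeries Matrix

section Theta
variable (B : Matrix (Fin 24) (Fin 24) ℤ)

/-- The theta series. -/
noncomputable def th (τ : ℂ) : ℂ := ∑' x : Fin 24 → ℤ, cexp (π * I * τ * (x ⬝ᵥ B *ᵥ x : ℤ))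

theorem Qf_int (x : Fin 24 → ℤ) (K : Type*) [CommRing K] [Algebra ℝ K] :
    Qf (B.map (Int.cast : ℤ → ℝ)) (fun i => (x i : K)) = (x ⬝ᵥ B *ᵥ x : ℤ) := by
  simp [Qf, dotProduct, mulVec, mul_sum, mul_assoc]

variable {B} (hp : PD (B.map (Int.cast : ℤ → ℝ)))
include hp

theorem th_sum {τ : ℂ} (hτ : 0 < τ.im) :
    Summable fun x : Fin 24 → ℤ => ‖cexp (π * I * τ * (x ⬝ᵥ B *ᵥ x : ℤ))‖ := by
  refine (sumC hp (a := -I * τ) (by simpa using hτ) 0 0).congr fun x => ?_
  rw [Qf_int]; congr 2; simp [mul_assoc]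

theorem th_S (hs : B.IsSymm) (hd : B.det = 1) {τ : ℂ} (hτ : 0 < τ.im) :
    th B (-τ⁻¹) = τ ^ 12 * th B τ := by
  have h1 : B * B.adjugate = 1 := by rw [mul_adjugate, hd, one_smul]
  have h2 : B.adjugate * B = 1 := by rw [adjugate_mul, hd, one_smul]
  obtain ⟨c, hc⟩ := poisson (B.map (Int.cast : ℤ → ℝ)) (B.adjugate.map (Int.cast : ℤ → ℝ)) hp
    (hs.map _) (by
      have := congrArg (Int.castRingHom ℝ).mapMatrix h1
      rwa [map_mul, map_one] at this)
  let e : (Fin 24 → ℤ) ≃ (Fin 24 → ℤ) := ⟨fun x => B *ᵥ x, fun x => B.adjugate *ᵥ x,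
    fun x => by simp [h2], fun x => by simp [h1]⟩
  have key : ∀ τ : ℂ, 0 < τ.im → th B τ = c * (τ ^ 12)⁻¹ * th B (-τ⁻¹) := fun τ hτ => by
    have τ0 : τ ≠ 0 := fun e => by simp [e] at hτ
    have := hc (-I * τ) (by simpa using hτ) 0
    rw [← e.tsum_eq (fun y => cexp (-π / _ * _)), one_div, inv_pow, ← cpow_nat_mul,
      show ((24 : ℕ) : ℂ) * (1 / 2) = (12 : ℕ) by norm_num, cpow_natCast,
      show (-I * τ) ^ 12 = τ ^ 12 by
        rw [mul_pow, show (-I) ^ 12 = (I ^ 2) ^ 6 by ring, I_sq]; ring] at this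
    refine (tsum_congr fun x => ?_).trans (this.trans (congrArg _ (tsum_congr fun x => ?_)))
    · rw [Qf_int]; simp [mul_assoc]
    · rw [smul_zero, add_zero, Qf_int]
      simp only [e, Equiv.coe_fn_mk, mulVec_mulVec, h2, one_mulVec, dotProduct_comm x]
      congr 2
      field_simp
      rw [I_sq]; ring
  have h3 : th B I ≠ 0 := by
    have s := (th_sum hp (τ := I) (by simp)).of_norm
    have : 0 < (th B I).re := by
      rw [th, re_tsum s]
      refine ((reCLM.summable s).tsum_pos (fun x => ?_) 0 (by simp))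
      rw [show π * I * I * (x ⬝ᵥ B *ᵥ x : ℤ) = (-π * (x ⬝ᵥ B *ᵥ x : ℤ) : ℝ) by
        push_cast; linear_combination π * (x ⬝ᵥ B *ᵥ x : ℤ) * I_sq]
      exact (exp_ofReal_re _).ge.trans' (Real.exp_pos _).le
    exact fun e => by simp [e] at this
  have h4 := key I (by simp)
  rw [inv_I, neg_neg, show I ^ 12 = (I ^ 2) ^ 6 by ring, I_sq, Even.neg_one_pow ⟨3, rfl⟩] at h4
  have τ0 : τ ≠ 0 := fun e => by simp [e] at hτ
  rw [key τ hτ, show c = 1 by simpa [h3] using h4.symm]
  field_simp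

variable (he : ∀ x : Fin 24 → ℤ, (2 : ℤ) ∣ x ⬝ᵥ B *ᵥ x)
include he

theorem th_q (τ : ℍ) : HasSum (fun m : ℕ => ({x : Fin 24 → ℤ | x ⬝ᵥ B *ᵥ x = 2 * m}.ncard : ℂ) •
    Function.Periodic.qParam 1 τ ^ m) (th B τ) := by
  have h0 : ∀ x : Fin 24 → ℤ, 0 ≤ x ⬝ᵥ B *ᵥ x := fun x => by
    obtain ⟨ε, e0, e1⟩ := coercive hp
    have := e1 fun i => x i
    rw [Qf_int] at this
    exact_mod_cast le_trans (show (0 : ℝ) ≤ _ by positivity) this
  let f : (Fin 24 → ℤ) → ℕ := fun x => (x ⬝ᵥ B *ᵥ x / 2).toNat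
  have hf : ∀ x m, f x = m ↔ x ⬝ᵥ B *ᵥ x = 2 * m := fun x m => by
    have := h0 x
    have := he x
    simp only [f]; omega
  have s := (Equiv.sigmaFiberEquiv f).summable_iff.2 (th_sum hp τ.im_pos).of_norm
  refine ((Equiv.sigmaFiberEquiv f).hasSum_iff.2 (th_sum hp τ.im_pos).of_norm.hasSum).sigma
    fun m => ?_
  have e : ∀ x : {x // f x = m}, cexp (π * I * τ * (x.1 ⬝ᵥ B *ᵥ x.1 : ℤ)) =
      Function.Periodic.qParam 1 τ ^ m := fun x => by
    rw [(hf _ _).1 x.2, Function.Periodic.qParam, ← Complex.exp_nat_mul]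
    congr 1; push_cast; ring
  have s1 : Summable fun _ : {x // f x = m} => Function.Periodic.qParam 1 τ ^ m :=
    (s.sigma_factor m).congr e
  have : Finite {x // f x = m} := by
    by_contra! hi
    exact pow_ne_zero m (Function.Periodic.qParam_ne_zero _) ((summable_const_iff _).1 s1)
  have := Fintype.ofFinite {x // f x = m}
  have e2 : {x : Fin 24 → ℤ | x ⬝ᵥ B *ᵥ x = 2 * m}.ncard = Fintype.card {x // f x = m} := by
    rw [← Nat.card_coe_set_eq, ← Nat.card_eq_fintype_card]
    exact Nat.card_congr (Equiv.subtypeEquivRight fun x => (hf x m).symm)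
  have h := hasSum_fintype fun _ : {x // f x = m} => Function.Periodic.qParam 1 τ ^ m
  rw [sum_const, card_univ, ← e2, nsmul_eq_mul] at h
  exact (funext e).symm ▸ h

set_option backward.isDefEq.respectTransparency.types false in
/-- The theta series as a modular form. -/
noncomputable def thMF (hs : B.IsSymm) (hd : B.det = 1) : ModularForm 𝒮ℒ 12 :=
  have hS : (fun τ : ℍ => th B τ) ∣[(12 : ℤ)] ModularGroup.S = fun τ : ℍ => th B τ := by
    ext z
    suffices th B (-(z : ℂ)⁻¹) * ((z : ℂ) ^ 12)⁻¹ = th B z by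
      rw [SL_slash_apply, UpperHalfPlane.modular_S_smul]
      simpa [denom, ModularGroup.S]
    rw [th_S hp hs hd z.im_pos]
    field_simp [z.ne_zero]
  have hT : (fun τ : ℍ => th B τ) ∣[(12 : ℤ)] ModularGroup.T = fun τ : ℍ => th B τ := by
    ext z
    suffices th B (1 + z) = th B z by
      rw [SL_slash_apply, denom, modular_T_smul, ModularGroup.T]
      simpa
    refine tsum_congr fun x => ?_
    obtain ⟨k, hk⟩ := he x
    rw [hk, Complex.exp_eq_exp_iff_exists_int]
    exact ⟨k, by push_cast; ring⟩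
  { toFun τ := th B τ
    slash_action_eq' A hA := by
      obtain ⟨A, rfl⟩ := hA
      exact SlashInvariantForm.slash_action_generators_SL2Z hS hT A
    holo' := by
      rw [UpperHalfPlane.mdifferentiable_iff]
      refine .congr (f := th B) (fun z hz => ?_) fun z hz => by simp [ofComplex_apply_of_im_pos hz]
      have hz' : 0 < z.im := hz
      have hU : IsOpen {w : ℂ | z.im / 2 < w.im} := isOpen_lt continuous_const continuous_im
      refine ((differentiableOn_tsum_of_summable_norm (th_sum hp (τ := (z.im / 2 : ℝ) * I)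
        (by simpa using hz')) (fun x => by fun_prop) hU fun x w hw => ?_).differentiableAt
        (hU.mem_nhds (by simpa using hz'))).differentiableWithinAt
      obtain ⟨ε, e0, e1⟩ := coercive hp
      have := e1 fun i => x i
      rw [Qf_int] at this
      have h0 : (0 : ℝ) ≤ (x ⬝ᵥ B *ᵥ x : ℤ) := le_trans (by positivity) this
      have hw' : z.im / 2 < w.im := hw
      generalize x ⬝ᵥ B *ᵥ x = k at h0
      simp only [norm_exp, Real.exp_le_exp]
      simp
      have := pi_pos
      gcongr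
    bdd_at_cusps' hc := by
      rw [Subgroup.IsArithmetic.isCusp_iff_isCusp_SL2Z] at hc
      rw [OnePoint.isBoundedAt_iff_forall_SL2Z hc]
      intro γ _
      rw [SlashInvariantForm.slash_action_generators_SL2Z hS hT]
      exact isBoundedAtImInfty_of_hasSum_qExpansion one_pos (th_q hp he) }

theorem th_coeff (hs : B.IsSymm) (hd : B.det = 1)
    (h0 : {x : Fin 24 → ℤ | x ⬝ᵥ B *ᵥ x = 0}.ncard = 1)
    (h1 : {x : Fin 24 → ℤ | x ⬝ᵥ B *ᵥ x = 2}.ncard = 0) (m : ℕ) :
    12 * ({x : Fin 24 → ℤ | x ⬝ᵥ B *ᵥ x = 2 * m}.ncard : ℂ) =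
      (7 * (qExpansion 1 E₄) ^ 3 + 5 * (qExpansion 1 E₆) ^ 2).coeff m := by
  have e := ModularFormClass.qExpansion_coeff_unique (f := thMF hp he hs hd) one_pos
    one_mem_strictPeriods_SL (th_q hp he)
  let f : ModularForm 𝒮ℒ 12 := (12 : ℂ) • thMF hp he hs hd -
    ((7 : ℂ) • ModularForm.mcast (by decide) (E₄.pow 3) +
      (5 : ℂ) • ModularForm.mcast (by decide) (E₆.pow 2))
  have hf : qExpansion 1 f = (12 : ℂ) • qExpansion 1 (thMF hp he hs hd) -
      ((7 : ℂ) • qExpansion 1 E₄ ^ 3 + (5 : ℂ) • qExpansion 1 E₆ ^ 2) := by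
    rw [FunLike.coe_sub, ModularForm.qExpansion_sub one_pos one_mem_strictPeriods_SL,
      FunLike.coe_add, ModularForm.qExpansion_add one_pos one_mem_strictPeriods_SL]
    simp only [FunLike.coe_smul, ModularForm.qExpansion_smul one_pos one_mem_strictPeriods_SL]
    simp only [coe_mcast, ModularForm.qExpansion_pow one_pos one_mem_strictPeriods_SL]
  have f0 : f = 0 := sturm_bound_levelOne (by
    refine lt_of_lt_of_le (b := ((2 : ℕ) : ℕ∞)) (Nat.cast_lt.2 (by decide)) (PowerSeries.nat_le_order _ _ fun i hi => ?_)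
    rw [hf]
    interval_cases i <;>
      norm_num [← e, h0, h1, pow_succ, -PowerSeries.coeff_zero_eq_constantCoeff,
        PowerSeries.coeff_mul, Finset.Nat.antidiagonal_succ,
        E₄_qExpansion_coeff_one, E₆_qExpansion_coeff_one, E_qExpansion_coeff_zero _ ⟨2, rfl⟩,
        E_qExpansion_coeff_zero _ ⟨3, rfl⟩])
  rw [f0, eq_comm, FunLike.coe_zero, qExpansion_zero, sub_eq_zero] at hf
  have := congrArg (PowerSeries.coeff m) hf
  rw [PowerSeries.coeff_smul, ← e, smul_eq_mul] at this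
  rw [this, PowerSeries.smul_eq_C_mul, PowerSeries.smul_eq_C_mul, map_ofNat, map_ofNat]

end Theta

theorem pd_of_int {B : Matrix (Fin 24) (Fin 24) ℤ} (hs : B.IsSymm) (hd : B.det = 1)
    (hp : ∀ x : Fin 24 → ℤ, 0 ≤ x ⬝ᵥ B *ᵥ x) : PD (B.map (Int.cast : ℤ → ℝ)) := by
  have e1 : ∀ y : Fin 24 → ℝ, Qf (B.map (Int.cast : ℤ → ℝ)) y =
      star y ⬝ᵥ (B.map (Int.cast : ℤ → ℝ)).mulVec y := fun y => by
    simp [Qf, dotProduct, Matrix.mulVec, mul_sum, mul_assoc]
  have h1 : (B.map (Int.cast : ℤ → ℝ)).PosSemidef := by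
    refine .of_dotProduct_mulVec_nonneg (by
      rw [IsHermitian, conjTranspose_eq_transpose_of_trivial]; exact hs.map _) fun x => ?_
    rw [← e1]
    refine (DenseRange.piMap fun _ : Fin 24 => Rat.denseRange_cast (𝕜 := ℝ)).induction_on x
      (isClosed_le continuous_const (by unfold Qf; fun_prop)) fun y => ?_
    obtain ⟨⟨b, hb⟩, h⟩ := IsLocalization.exist_integer_multiples_of_finite (nonZeroDivisors ℤ) y
    choose z hz using h
    have b0 : (b : ℝ) ≠ 0 := by exact_mod_cast nonZeroDivisors.ne_zero hb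
    have e2 : (b : ℝ) ^ 2 * Qf (B.map (Int.cast : ℤ → ℝ)) (Pi.map (fun _ => Rat.cast) y) =
        (z ⬝ᵥ B *ᵥ z : ℤ) := by
      have hz' : ∀ i, (z i : ℝ) = b * y i := fun i => by
        exact_mod_cast (show (z i : ℚ) = b * y i by simpa using hz i)
      rw [← Qf_int]
      simp only [Qf, mul_sum, hz', Pi.map_apply]
      exact sum_congr rfl fun i _ => sum_congr rfl fun j _ => by ring
    exact (mul_nonneg_iff_of_pos_left (sq_pos_of_ne_zero b0)).1 (by rw [e2]; exact_mod_cast hp z)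
  intro x hx
  rw [e1]
  refine (h1.posDef_iff_det_ne_zero.2 ?_).dotProduct_mulVec_pos hx
  rw [← Int.cast_det, hd]; simp

end H19.Theta
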